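import Cfsg.Agent.H26.O7S
import Cfsg.Agent.H17.PermMod

/-! S5815: `SL₂(F)` in defining characteristic; the piece `R1`. -/

set_option autoImplicit false
set_option linter.unusedSectionVars false

open Module QuadraticMap H12 Cfsg MatrixGroups Subgroup H26.O7
namespace H27.O7
universe u v
local notation "up" => H26.O7.up

section sl
variable {F : Type} [Field F]

theorem dg_mul (a b : Fˣ) : dg (a * b) = dg a * dg b := by
  ext i j; fin_cases i <;> fin_cases j <;> simp [dg_val, mul_comm]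
theorem dg_one : dg (1 : Fˣ) = 1 := by ext i j; fin_cases i <;> fin_cases j <;> simp [dg_val]
theorem dg_neg : dg (-1 : Fˣ) = -1 := by ext i j; fin_cases i <;> fin_cases j <;> simp [dg_val]
theorem wy_wy : wy F * wy F = -1 := by ext i j; fin_cases i <;> fin_cases j <;> simp [wy_val]
theorem dg_wy (a : Fˣ) : dg a * wy F = up (a : F) * (wy F * up ((a⁻¹ : Fˣ) : F) * (wy F)⁻¹) * up (a : F) := by
  ext i j; fin_cases i <;> fin_cases j <;> simp [up_val, wy_val, wy_inv, dg_val]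
theorem wuw (a : Fˣ) : wy F * up (a : F) * wy F = up (-(a : F)⁻¹) * wy F * dg (-a) * up (-(a : F)⁻¹) := by
  ext i j; fin_cases i <;> fin_cases j <;> simp [up_val, wy_val, dg_val]
theorem bru (g : SL(2, F)) : (∃ a t, g = dg a * up t) ∨ ∃ s a t, g = up s * wy F * dg a * up t := by
  have d := g.2
  rw [Matrix.det_fin_two] at d
  by_cases h : g.1 1 0 = 0
  · rw [h, mul_zero, sub_zero] at d
    have a0 := left_ne_zero_of_mul_eq_one d
    refine .inl ⟨.mk0 _ a0, g.1 0 1 / g.1 0 0, ?_⟩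
    ext i j; fin_cases i <;> fin_cases j <;> simp [up_val, dg_val, h] <;> field_simp
    linear_combination d
  · refine .inr ⟨g.1 0 0 / g.1 1 0, -.mk0 _ h, g.1 1 1 / g.1 1 0, ?_⟩
    ext i j; fin_cases i <;> fin_cases j <;> simp [up_val, dg_val, wy_val] <;> field_simp
    linear_combination -d
theorem eq_top {H : Subgroup SL(2, F)} (h1 : ∀ t, up t ∈ H) (h2 : wy F ∈ H) : H = ⊤ := by
  have k : ∀ a, dg a ∈ H := fun a => (mul_mem_cancel_right h2).1
    (dg_wy a ▸ mul_mem (mul_mem (h1 _) (mul_mem (mul_mem h2 (h1 _)) (inv_mem h2))) (h1 _))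
  refine eq_top_iff.2 fun g _ => ?_
  obtain ⟨a, t, rfl⟩ | ⟨s, a, t, rfl⟩ := bru g
  exacts [mul_mem (k a) (h1 t), mul_mem (mul_mem (mul_mem (h1 s) h2) (k a)) (h1 t)]
/-- the root subgroup -/
def upH : Multiplicative F →* SL(2, F) := MonoidHom.mk' (fun t => up t.toAdd) fun _ _ => up_add _ _
theorem up_sub {G : Type*} [Group G] (φ : SL(2, F) →* G) {a : Fˣ} (ha : (a : F) * a ≠ 1) 
    (c : ∀ t, Commute (φ (dg a)) (φ (up t))) (t : F) : φ (up t) = 1 := by
  have k := congrArg φ (dg_up a (t / (a * a - 1)))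
  rwa [map_mul, map_mul, (c _).eq, mul_left_inj, show (a : F) * a * (t / (a * a - 1)) = t / (a * a - 1) + t by
    linear_combination mul_div_cancel₀ t (sub_ne_zero.2 ha), up_add, map_mul, left_eq_mul] at k

variable [Fintype F] {K : Type u} [Field K] {M : Type u} [AddCommGroup M] [Module K M] (ψ : SL(2, F) →* Au K M)
  {p : ℕ} [Fact p.Prime] [CharP F p] [CharP K p]

theorem mul_ap (g h : SL(2, F)) (x : M) : ψ (g * h) x = ψ g (ψ h x) := by rw [map_mul]; rfl

include p in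
theorem ex_fix {N : Type*} [AddCommGroup N] [Module K N] (ρ : Representation K (Multiplicative F) N) {W : Submodule K N}
    (h : ∀ t, ∀ x ∈ W, ρ t x ∈ W) (h0 : W ≠ ⊥) : ∃ x ∈ W, x ≠ 0 ∧ ∀ t, ρ t x = x :=
  let ⟨x, a, b, c⟩ := H17.exists_fixed_vec (p := p) ρ ⊤ (fun g => ⟨1, Subtype.ext (Multiplicative.toAdd.injective (by
    simp))⟩) W (fun t _ => h t) h0
  ⟨x, a, b, fun t => c t trivial⟩

include p in
theorem ex_fix' {W : Submodule K M} (h : ∀ t, ∀ x ∈ W, ψ (up t) x ∈ W) (h0 : W ≠ ⊥) :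
    ∃ x ∈ W, x ≠ 0 ∧ ∀ t, ψ (up t) x = x :=
  ex_fix (p := p) (LinearEquiv.automorphismGroup.toLinearMapMonoidHom.comp (ψ.comp upH)) h h0

include p in
theorem circ [FiniteDimensional K M] (h : finrank K M < Fintype.card F) (x : M) : ∑ t : F, ψ (up t) x = 0 := by
  let f := Fintype.linearCombination K fun t : F => ψ (up t) x
  let ρ : Representation K (Multiplicative F) (F → K) := MonoidHom.mk
    ⟨fun t => LinearMap.funLeft K K (· - t.toAdd), by ext; simp⟩ fun s t => by ext c x; simp [sub_sub]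
  obtain ⟨c, h1, h2, h3⟩ := ex_fix (p := p) ρ (W := LinearMap.ker f) (fun t c hc => by
    have := congrArg (ψ (up t.toAdd)) (show ∑ s, c s • ψ (up s) x = 0 from hc)
    rw [map_zero, map_sum, ← Equiv.sum_comp (Equiv.subRight t.toAdd)] at this
    refine (Finset.sum_congr rfl fun s _ => ?_).trans this
    simp [ρ, ← mul_ap, ← up_add]) (LinearMap.ker_ne_bot_of_finrank_lt (by simpa using h))
  have e : c = fun _ => c 0 := funext fun s => (congrFun (h3 (.ofAdd s)) s).symm.trans (by simp [ρ])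
  replace h1 : ∑ s, c s • ψ (up s) x = 0 := h1
  rw [e, ← Finset.smul_sum] at h1
  exact (smul_eq_zero.1 h1).resolve_left fun k => h2 (e.trans (funext fun _ => k))

include p in
theorem fixB [FiniteDimensional K M] (h : finrank K M < Fintype.card F) (h1 : ψ (-1) = 1) {s : M}
    (h2 : ∀ t, ψ (up t) s = s) (h3 : ∀ a, ψ (dg a) s = s) (g : SL(2, F)) : ψ g s = s := by
  classical
  have a := circ ψ (p := p) h (ψ (wy F) s)
  have b := congrArg (ψ (wy F)) a
  rw [← Equiv.sum_comp ((Equiv.inv F).trans (Equiv.neg F)), ← Finset.add_sum_erase _ _ (Finset.mem_univ 0)] at a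
  rw [map_zero, map_sum, ← Finset.add_sum_erase _ _ (Finset.mem_univ 0), ← a, Finset.sum_congr rfl
    (g := fun t => ψ (up (-t⁻¹)) (ψ (wy F) s)) fun t ht => by
    rw [← mul_ap, ← mul_ap, show t = (Units.mk0 t (Finset.ne_of_mem_erase ht) : Fˣ) from rfl, wuw, mul_ap, mul_ap, mul_ap,
      h2, h3]] at b
  simp only [Equiv.trans_apply, Equiv.inv_apply, Equiv.neg_apply, inv_zero, neg_zero, up_zero, map_one, Units.val_mk0,
    LinearEquiv.coe_one, id, add_left_inj, ← mul_ap, wy_wy, h1] at b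
  have : (MulAction.stabilizer (Au K M) s).comap ψ = ⊤ := eq_top h2 b.symm
  exact this.ge (mem_top g)

theorem det_dg (h5 : 5 ≤ Fintype.card F) (a : Fˣ) : LinearEquiv.det (ψ (dg a)) = 1 := by
  obtain ⟨c, hc⟩ := ex_sq_ne h5
  have k := up_sub (LinearEquiv.det.comp ψ) hc fun _ => .all _ _
  have e : ∀ a : Fˣ, (LinearEquiv.det.comp ψ) (dg a * wy F) = 1 := fun a => by simp only [dg_wy, map_mul, k, map_inv]; simp
  have := e 1
  rw [dg_one, one_mul] at this
  simpa [show LinearEquiv.det (ψ (wy F)) = 1 from this] using e a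

variable [FiniteDimensional K M] {q : QuadraticForm K M}

theorem rk_le_one (h2 : (2 : K) ≠ 0) (hq : QNondeg q) {g : Au K M} (hg : g ∈ orth q) (hd : LinearEquiv.det g = 1) {v : M}
    (h : ∀ y, ∃ c : K, c • v = g y - y) : g = 1 := by
  by_contra! g1
  obtain ⟨y, hy⟩ : ∃ y, g y ≠ y := by by_contra! k; exact g1 (LinearEquiv.ext k)
  have v0 : v ≠ 0 := by rintro rfl; obtain ⟨c, hc⟩ := h y; exact hy (by rwa [smul_zero, eq_comm, sub_eq_zero] at hc)
  obtain ⟨z, hz⟩ := CForm.Nondeg.exists_ne hq v0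
  replace hz : polar q v z ≠ 0 := hz
  let l : Dual K M := (polar q v z)⁻¹ • ((polarBilin q).flip z ∘ₗ ((g : M →ₗ[K] M) - 1))
  have e : ∀ y, g y = y + l y • v := fun y => by
    obtain ⟨c, hc⟩ := h y
    have : l y = c := by simp [l, ← polar_sub_left, ← hc]; field_simp
    rw [this, hc, add_sub_cancel]
  have d : l v = 0 := by
    have := congrArg Units.val hd
    rwa [LinearEquiv.coe_det, show (g : M →ₗ[K] M) = LinearMap.transvection l v from LinearMap.ext e,
      LinearMap.transvection.det, Units.val_one, add_eq_left] at this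
  have l0 : l y ≠ 0 := fun k => hy (by rw [e, k, zero_smul, add_zero])
  have k : ∀ y y', l y * polar q v y' + l y' * polar q y v + l y * l y' * polar q v v = 0 := fun y y' => by
    have : polar q (g y) (g y') = polar q y y' := orth_polar ⟨g, hg⟩ y y'
    simp only [e, polar_add_left, polar_add_right, polar_smul_left, polar_smul_right, smul_eq_mul] at this
    linear_combination this
  have a : polar q v v = 0 := by simpa [d, l0] using k y v
  have b : polar q y v = 0 := by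
    have := k y y
    rw [a, polar_comm q v y] at this
    exact (mul_eq_zero.1 (show (2 * l y) * polar q y v = 0 by linear_combination this)).resolve_left (mul_ne_zero h2 l0)
  exact hz (by simpa [a, b, l0] using k y z)

theorem line (W : Submodule K M) (hW : (CForm.ofQuad q).NondegOn W) (h2 : finrank K W = 2) {e : M} (he : e ∈ W) (e0 : e ≠ 0) :
    ∃ v, ∀ y ∈ W, polar q e y = 0 → ∃ c : K, c • v = y := by
  have : finrank K ↥(W ⊓ (CForm.ofQuad q).perp (K ∙ e)) ≤ 1 := by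
    have := Submodule.finrank_lt_finrank_of_lt (lt_of_le_of_ne (inf_le_left : W ⊓ (CForm.ofQuad q).perp (K ∙ e) ≤ W)
      fun k => e0 (hW e he fun y hy => (CForm.mem_perp_singleton _).1 (k.ge hy).2))
    omega
  obtain ⟨v, hv⟩ := finrank_le_one_iff.1 this
  exact ⟨v, fun y hy h => let ⟨c, hc⟩ := hv ⟨y, hy, (CForm.mem_perp_singleton _).2 h⟩; ⟨c, congrArg Subtype.val hc⟩⟩

include p in
theorem r1' (h2 : (2 : K) ≠ 0) (h5 : 5 ≤ Fintype.card F) (hq : QNondeg q) (ho : ∀ a, ψ a ∈ orth q) (h4 : finrank K M = 4)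
    {W : Submodule K M} (hW : (CForm.ofQuad q).NondegOn W) (hd : finrank K W = 2) (h1 : ψ (-1) = 1)
    (hT : ∀ a, ∀ s ∈ W, ψ (dg a) s = s) : ∃ s ∈ W, s ≠ 0 ∧ ∀ a, ψ a s = s := by
  classical
  have B : ∀ g x y, polar q (ψ g x) (ψ g y) = polar q x y := fun g => orth_polar ⟨_, ho g⟩
  have hu : ∀ (a : Fˣ) t x, ψ (dg a) (ψ (up t) x) = ψ (up (a * a * t)) (ψ (dg a) x) := fun a t x => by
    rw [← mul_ap, dg_up, mul_ap]
  suffices ∃ s ∈ W, s ≠ 0 ∧ ψ (up 1) s = s by
    obtain ⟨s, hs, s0, e⟩ := this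
    have k : ∀ a : F, ψ (up (a ^ 2)) s = s := fun a => by
      rcases eq_or_ne a 0 with rfl | a0
      · simp [up_zero]
      · simpa [e, hT _ s hs, pow_two] using (hu (.mk0 a a0) 1 s).symm
    refine ⟨s, hs, s0, fixB ψ (p := p) (by omega) h1 (fun t => ?_) fun a => hT a s hs⟩
    obtain ⟨a, b, h⟩ := FiniteField.exists_root_sum_quadratic (f := Polynomial.X ^ 2) (g := Polynomial.X ^ 2 - Polynomial.C t)
      (Polynomial.degree_X_pow 2) (Polynomial.degree_X_pow_sub_C two_pos t) (FiniteField.odd_card_of_char_ne_two (by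
        rw [ringChar.eq F p]; rintro rfl; exact h2 (CharP.cast_eq_zero K 2)))
    rw [show t = a ^ 2 + b ^ 2 by simp at h; linear_combination -h, up_add, mul_ap, k, k]
  obtain ⟨a, ha⟩ := ex_sq_ne h5
  obtain ⟨w0, hw0, w00⟩ := (Submodule.ne_bot_iff W).1 (Submodule.one_le_finrank_iff.1 (by omega))
  by_cases hX : ∀ t, ψ (up t) = 1
  · exact ⟨w0, hw0, w00, by rw [hX]; rfl⟩
  let C : Submodule K M := ⨅ t, fix (ψ (up t))
  have mC : ∀ x, x ∈ C ↔ ∀ t, ψ (up t) x = x := fun x => by simp [C, mem_fix]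
  have inv : ∀ g, (∀ x ∈ C, ψ g⁻¹ x ∈ C) → ∀ y ∈ (CForm.ofQuad q).perp C, ψ g y ∈ (CForm.ofQuad q).perp C :=
    fun g h y hy x hx => by
      have := hy _ (h x hx)
      rwa [CForm.ofQuad_B, ← B g, ← mul_ap, mul_inv_cancel, map_one] at this
  have hC : ∀ a, ∀ x ∈ C, ψ (dg a) x ∈ C := fun a x hx => (mC _).2 fun t => by
    have := hu a (((a * a)⁻¹ : Fˣ) * t) x
    rwa [(mC x).1 hx, ← Units.val_mul, Units.mul_inv_cancel_left, eq_comm] at this
  have hC' : ∀ a, ∀ y ∈ (CForm.ofQuad q).perp C, ψ (dg a) y ∈ (CForm.ofQuad q).perp C := fun a =>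
    inv _ (by rw [show (dg a)⁻¹ = dg a⁻¹ from inv_eq_of_mul_eq_one_right (by rw [← dg_mul, mul_inv_cancel, dg_one])]; exact hC _)
  obtain ⟨e0, a1, a2, a3⟩ := ex_fix' ψ (p := p) (W := (CForm.ofQuad q).perp C) (fun t => inv _ fun x hx => by
    rw [show (up t)⁻¹ = up (-t) from inv_eq_of_mul_eq_one_right (by rw [← up_add, add_neg_cancel, up_zero]), (mC x).1 hx]
    exact hx) fun k => hX fun t => LinearEquiv.ext fun x => (mC x).1 ((CForm.Nondeg.perp_injective hq
      (k.trans (CForm.Nondeg.perp_top hq).symm)).ge trivial) t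
  have ic := CForm.Nondeg.isCompl_perp hq hW
  have hW' := CForm.Nondeg.nondegOn_perp hq hW
  have hd' : finrank K ((CForm.ofQuad q).perp W) = 2 := by have := CForm.Nondeg.finrank_add_finrank_perp hq W; omega
  have dec : ∀ x, ∃ w ∈ W, ∃ w' ∈ (CForm.ofQuad q).perp W, w + w' = x := fun x => Submodule.mem_sup.1 (ic.sup_eq_top.ge trivial)
  have mv : ∀ a x, ψ (dg a) x - x ∈ (CForm.ofQuad q).perp W := fun a x w hw => by
    rw [CForm.ofQuad_B, polar_sub_right, ← B (dg a) w x, hT a w hw, sub_self]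
  by_cases hE : ∃ e ∈ (CForm.ofQuad q).perp W, e ≠ 0 ∧ e ∈ C ∧ e ∈ (CForm.ofQuad q).perp C
  · obtain ⟨e, b1, b2, b3, b4⟩ := hE
    obtain ⟨v, hv⟩ := line _ hW' hd' b1 b2
    obtain ⟨c, hc⟩ := hv e b1 (b4 e b3)
    have c0 : c ≠ 0 := by rintro rfl; exact b2 (by rw [← hc, zero_smul])
    have vC : v ∈ C := by rw [← inv_smul_smul₀ c0 v, hc]; exact C.smul_mem _ b3
    let f : W →ₗ[K] (K ∙ v) := (((ψ (up 1) : M →ₗ[K] M) - 1) ∘ₗ W.subtype).codRestrict _ fun w => by
      obtain ⟨t, ht⟩ : ∃ t : F, a * a * t = t + 1 := ⟨(a * a - 1)⁻¹, by linear_combination mul_inv_cancel₀ (sub_ne_zero.2 ha)⟩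
      obtain ⟨d, hd⟩ := hv _ (mv a (ψ (up t) w)) (by
        have k : polar q e (ψ (up t) w) = 0 := by rw [← (mC e).1 b3 t, B, polar_comm]; exact b1 _ w.2
        obtain ⟨d, hd⟩ := hv _ (show ψ (dg a⁻¹) e ∈ _ by simpa using add_mem (mv a⁻¹ e) b1) (hC' _ e b4 e b3)
        rw [polar_sub_right, k, sub_zero, ← B (dg a⁻¹), ← mul_ap, ← dg_mul, inv_mul_cancel, dg_one, map_one, ← hd,
          ← inv_smul_smul₀ c0 v, hc]
        simp [k])
      rw [hu, hT a w w.2, ht, up_add, mul_ap, ← map_sub, ← (mC _).1 (C.smul_mem d vC) t] at hd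
      exact Submodule.mem_span_singleton.2 ⟨d, (ψ _).injective hd⟩
    obtain ⟨w, hw, w1⟩ := (Submodule.ne_bot_iff _).1 (LinearMap.ker_ne_bot_of_finrank_lt (f := f) (by
      have := finrank_span_le_card (R := K) {v}; simp at this; omega))
    exact ⟨w, w.2, by simpa using w1, sub_eq_zero.1 (congrArg Subtype.val hw)⟩
  push Not at hE
  obtain ⟨w, hw, w', hw', rfl⟩ := dec e0
  by_cases z : w' = 0
  · exact ⟨_, by simpa [z] using hw, a2, a3 1⟩
  have k : ψ (dg a) w' = w' := sub_eq_zero.1 (by_contra fun k => hE _ (mv a w') k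
    (by simpa [hT a w hw] using sub_mem (hC a _ ((mC _).2 a3)) ((mC _).2 a3))
    (by simpa [hT a w hw] using sub_mem (hC' a _ a1) a1))
  obtain ⟨v, hv⟩ := line _ hW' hd' hw' z
  have := rk_le_one h2 hq (ho _) (det_dg ψ h5 a) fun y => hv _ (mv a y) (by
    rw [polar_sub_right, ← B (dg a) w' y, k, sub_self])
  exact (hX (up_sub ψ ha fun t => by rw [this]; exact .one_left _)).elim
end sl

theorem r1 : R1.{u} := fun K _ _ F _ _ φ U W h2 h0 h5 ho h4 hU le hd hW inv h1 hT => by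
  obtain ⟨p, _, n, hp, e⟩ := FiniteField.card' F
  have := Fact.mk hp
  have : CharP K p := (CharP.charP_iff_prime_eq_zero hp).2 (by rw [e, Nat.cast_pow] at h0; exact pow_eq_zero_iff n.ne_zero |>.1 h0)
  let ψ : SL(2, F) →* Au K U := (LinearMap.GeneralLinearGroup.generalLinearEquiv K U).toMonoidHom.comp
    (MonoidHom.toHomUnits ⟨⟨fun a => (φ a : S K →ₗ[K] S K).restrict (inv a), by ext; simp⟩, fun a b => by ext; simp⟩)
  have hψ : ∀ a (x : U), (ψ a x : S K) = φ a x := fun _ _ => rfl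
  obtain ⟨s, a, b, c⟩ := r1' ψ (p := p) (q := (Nm K).comp U.subtype) (W := W.comap U.subtype) h2 h5
    ((CForm.restrict_nondeg_iff _).2 hU) (fun a => mem_orth.2 fun x => mem_orth.1 (ho a) x) h4
    (fun x hx k => Subtype.ext (hW x hx fun y hy => k ⟨y, le hy⟩ hy))
    ((Submodule.comapSubtypeEquivOfLe le).finrank_eq.trans hd) (LinearEquiv.ext fun x => Subtype.ext (h1 x x.2))
    fun a s hs => Subtype.ext (hT a s hs)
  exact ⟨s, a, by simpa using b, fun g => congrArg Subtype.val (c g)⟩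

end H27.O7
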