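import Cfsg.Agent.H27.C6a
import Cfsg.Agent.H4.Hall3

/-! Elements of prime order and normalizers of groups of symplectic type, II: restrictions. -/

set_option autoImplicit false

namespace H27.C6

open Matrix Module Cfsg Cfsg.Geo H27.Asch Subgroup
open scoped commutatorElement

variable {F : Type*} [Field F] {ι : Type} [Fintype ι] [DecidableEq ι] {R A : Subgroup (GL ι F)}
  {h x y t s a b w : GL ι F} {r r₀ : ℕ}

local notation "𝐍" => subgroupNormalizer
local notation "𝐙" => scalars ι F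

theorem nm_conj (hh : h ∈ 𝐍 R) (hx : x ∈ R) : h * x * h⁻¹ ∈ R := (mem_normalizer_iff.1 hh x).1 hx

theorem sc_norm (hw : w ∈ 𝐙) : w ∈ 𝐍 R := mem_normalizer_iff.2 fun x => by rw [scalars_comm hw, mul_inv_cancel_right]

theorem neg_one_sc : (-1 : GL ι F) ∈ 𝐙 := ⟨-1, Units.ext (by simp)⟩

theorem neg_sc (hx : x ∈ 𝐙) : -x ∈ 𝐙 := by simpa using mul_mem neg_one_sc hx

theorem conj_iter (h a : GL ι F) (n : ℕ) : (fun a => h * a * h⁻¹)^[n] a = h ^ n * a * (h ^ n)⁻¹ := by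
  induction n with
  | zero => simp
  | succ n ih => rw [Function.iterate_succ_apply', ih]; group

theorem fix_cong [Finite F] [Fact r.Prime] (hA : ∀ a ∈ A, h * a * h⁻¹ ∈ A) (hr : h ^ r ∈ 𝐙) :
    Nat.card A ≡ Nat.card (A ⊓ centralizer {h} : Subgroup _) [MOD r] := by
  have := H25.El.cong_fix (· ∈ A) (fun a => h * a * h⁻¹) hA (r := r) (k := 1) fun s _ => by
    rw [conj_iter, pow_one, scalars_comm hr, mul_inv_cancel_right]
  have e : Nat.card {a // a ∈ A ∧ h * a * h⁻¹ = a} = Nat.card (A ⊓ centralizer {h} : Subgroup _) :=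
    Nat.card_congr (Equiv.subtypeEquivRight fun a => by
      rw [mem_inf, mem_centralizer_singleton_iff, mul_inv_eq_iff_eq_mul, eq_comm])
  exact e ▸ this

theorem cent_of {i : ℕ} (hr : h ^ r ∈ 𝐙) (h1 : i.Coprime r) (h2 : r.Coprime r₀) (ha : a ^ r₀ ∈ 𝐙) (hw : w ∈ 𝐙)
    (e : h ^ i * a * (h ^ i)⁻¹ = w * a) : h * a = a * h := by
  have k : ∀ n, (h ^ i) ^ n * a * ((h ^ i) ^ n)⁻¹ = w ^ n * a := fun n => by
    induction n with
    | zero => simp
    | succ n ih => calc _ = h ^ i * ((h ^ i) ^ n * a * ((h ^ i) ^ n)⁻¹) * (h ^ i)⁻¹ := by group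
        _ = w ^ n * (h ^ i * a * (h ^ i)⁻¹) := by rw [ih, ← mul_assoc, ← scalars_comm (pow_mem hw n)]; group
        _ = _ := by rw [e]; group
  have w1 : w ^ r = 1 := by
    have := k r
    rw [← pow_mul, mul_comm i, pow_mul, scalars_comm (pow_mem hr i), mul_inv_cancel_right] at this
    exact mul_eq_right.1 this.symm
  have w2 : w ^ r₀ = 1 := by
    have := congrArg (· ^ r₀) e
    simp only [conj_pow] at this
    rw [← scalars_comm ha, mul_inv_cancel_right, Commute.mul_pow (scalars_comm hw a)] at this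
    exact mul_eq_right.1 this.symm
  rw [(pow_eq_one_iff_of_coprime h2).1 ⟨w1, w2⟩, one_mul, mul_inv_eq_iff_eq_mul] at e
  obtain ⟨u, v, huv⟩ := Nat.isCoprime_iff_coprime.2 h1
  have : h = (h ^ i) ^ u * (h ^ r) ^ v := by
    rw [← zpow_natCast, ← zpow_natCast, ← _root_.zpow_mul, ← _root_.zpow_mul, ← _root_.zpow_add, mul_comm, mul_comm _ v, huv, zpow_one]
  rw [this]
  exact ((Commute.zpow_left e u).mul_left (Commute.zpow_left (scalars_comm hr a) v)).eq

theorem not_quad (E : EData r₀ R) (hh : h ∈ 𝐍 R) (hr : h ^ r ∈ 𝐙) (h6 : r.Coprime 6) (h2 : r.Coprime r₀) {α β : F}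
    (e : h.val * h.val = α • h.val + β • 1) : h ∈ 𝐙 := by
  haveI := nonempty_of_two E.two
  by_cases hβ : β = 0
  · exact mem_scalars.2 ⟨α, (Units.mul_left_inj h).1 (by simpa [hβ] using e)⟩
  refine mem_scalars_of_comm E.top fun a ha => ?_
  by_contra hn
  have k : ∀ i : ℕ, i.Coprime r → (h ^ i * a * (h ^ i)⁻¹ * a⁻¹).val.trace = 0 := fun i hi =>
    E.trace_eq_zero (mul_mem (nm_conj (pow_mem hh i) ha) (inv_mem ha)) fun e =>
      hn (cent_of hr hi h2 (E.pow a ha) e (by group))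
  have e3 : h.val * h.val * h.val = (α * α + β) • h.val + (α * β) • 1 := by
    rw [e, add_mul, smul_mul_assoc, e]; simp only [smul_mul_assoc, one_mul]; module
  have : β • (h ^ 3 * a * (h ^ 3)⁻¹ * a⁻¹).val + (α * α + β) • (h ^ 2 * a * (h ^ 2)⁻¹ * a⁻¹).val -
      (α * α + β) • (h ^ 1 * a * (h ^ 1)⁻¹ * a⁻¹).val - β • 1 = 0 := by
    refine (Units.mul_left_eq_zero (a * (h * h * h))).1 ?_
    simp only [sub_mul, add_mul, smul_mul_assoc, ← Units.val_mul, one_mul]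
    rw [show h ^ 3 * a * (h ^ 3)⁻¹ * a⁻¹ * (a * (h * h * h)) = h * h * h * a by simp [pow_succ, mul_assoc],
      show h ^ 2 * a * (h ^ 2)⁻¹ * a⁻¹ * (a * (h * h * h)) = h * h * a * h by simp [pow_succ, mul_assoc],
      show h ^ 1 * a * (h ^ 1)⁻¹ * a⁻¹ * (a * (h * h * h)) = h * a * (h * h) by simp [mul_assoc]]
    simp only [Units.val_mul, e3]
    simp only [e, add_mul, mul_add, smul_mul_assoc, mul_smul_comm, one_mul, mul_one, mul_assoc]
    module
  have := congrArg trace this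
  rw [trace_sub, trace_sub, trace_add, trace_smul, trace_smul, trace_smul, trace_smul, k 1 (by simp),
    k 2 (Nat.Coprime.coprime_dvd_left (by decide) h6.symm), k 3 (Nat.Coprime.coprime_dvd_left (by decide) h6.symm)] at this
  simp [hβ, E.card_ne_zero] at this

open Classical in
/-- the commutator form -/
noncomputable def bt (x y : GL ι F) : ZMod 2 := if x * y = y * x then 0 else 1

theorem bt_zero : bt x y = 0 ↔ x * y = y * x := by unfold bt; split_ifs with h <;> simp [h]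

theorem bt_one : bt x y = 1 ↔ x * y ≠ y * x := by unfold bt; split_ifs with h <;> simp [h]

theorem bt_congr (h : x * y = y * x ↔ a * b = b * a) : bt x y = bt a b := by
  by_cases e : x * y = y * x
  · rw [bt_zero.2 e, bt_zero.2 (h.1 e)]
  · rw [bt_one.2 e, bt_one.2 (mt h.2 e)]

theorem bt_symm (x y : GL ι F) : bt x y = bt y x := bt_congr eq_comm

theorem bt_conj (h x y : GL ι F) : bt (h * x * h⁻¹) (h * y * h⁻¹) = bt x y := bt_congr (by simp [← mul_assoc]; simp [mul_assoc])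

theorem bt_inv (x y : GL ι F) : bt x⁻¹ y = bt x y := bt_congr Commute.inv_left_iff

theorem ne_neg [Nonempty ι] (h2 : (2 : F) ≠ 0) (x : GL ι F) : x ≠ -x := fun e => by
  have : (2 : F) • x.val = 0 := by rw [two_smul, add_eq_zero_iff_eq_neg]; exact congrArg Units.val e
  exact x.ne_zero ((smul_eq_zero.1 this).resolve_left h2)

section
variable (E : EData 2 R)
include E

theorem bt_mul (hx : x ∈ R) (hy : y ∈ R) (ht : t ∈ R) : bt (x * y) t = bt x t + bt y t := by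
  haveI := nonempty_of_two E.two
  have k : ∀ {x}, x * t = -(t * x) → bt x t = 1 := fun e => bt_one.2 fun e' => ne_neg E.two_ne _ (e'.symm.trans e)
  rcases E.comm_or hx ht with a | a <;> rcases E.comm_or hy ht with b | b
  · rw [bt_zero.2 a, bt_zero.2 b, bt_zero.2 (by rw [mul_assoc, b, ← mul_assoc, a, mul_assoc]), add_zero]
  · rw [bt_zero.2 a, k b, k (by rw [mul_assoc, b, mul_neg, ← mul_assoc, a, mul_assoc]), zero_add]
  · rw [k a, bt_zero.2 b, k (by rw [mul_assoc, b, ← mul_assoc, a, neg_mul, mul_assoc]), add_zero]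
  · rw [k a, k b, bt_zero.2 (by rw [mul_assoc, b, mul_neg, ← mul_assoc, a, neg_mul, neg_neg, mul_assoc])]; rfl

theorem bt_mul' (hx : x ∈ R) (hy : y ∈ R) (ht : t ∈ R) : bt t (x * y) = bt t x + bt t y := by
  rw [bt_symm, bt_mul E hx hy ht, bt_symm, bt_symm y]

theorem exists_an (ht : t ∈ R) (h : t ∉ 𝐙) : ∃ s ∈ R, bt s t = 1 := by
  haveI := nonempty_of_two E.two
  by_contra! e
  exact h (mem_scalars_of_comm E.top fun y hy => (not_not.1 (bt_one.not.1 (e y hy))).symm)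

theorem an_of (hx : x ∈ R) (hy : y ∈ R) (h : bt x y = 1) : x * y = -(y * x) :=
  (E.comm_or hx hy).resolve_left (bt_one.1 h)

theorem neg_mem' (h : ∃ t ∈ R, t ∉ 𝐙) (hx : x ∈ R) : -x ∈ R := by
  obtain ⟨t, ht, h⟩ := h
  obtain ⟨s, hs, e⟩ := exists_an E ht h
  have : s * t * (t * s)⁻¹ * x = -x := by rw [an_of E hs ht e]; simp
  exact this ▸ mul_mem (mul_mem (mul_mem hs ht) (inv_mem (mul_mem ht hs))) hx

theorem idx2 (hA : A ≤ R) (ht : t ∈ R) (hs : s ∈ A) (h : bt s t = 1) :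
    Nat.card A = 2 * Nat.card (A ⊓ centralizer {t} : Subgroup _) := by
  have : ((centralizer {t}).subgroupOf A).index = 2 := index_eq_two_iff.2 ⟨⟨s, hs⟩, fun b => by
    simp only [mem_subgroupOf, mem_centralizer_singleton_iff, coe_mul, ← bt_zero, bt_mul E (hA b.2) (hA hs) ht, h]
    generalize bt b.1 t = z
    revert z; decide⟩
  rw [← this, ← index_mul_card ((centralizer {t}).subgroupOf A), H1.card_subgroupOf, inf_comm]

theorem le_of_an {B : Subgroup (GL ι F)} (hA : A ≤ R) (ht : t ∈ R) (hs : s ∈ A) (h : bt s t = 1) (h1 : s ∈ B)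
    (h2 : A ⊓ centralizer {t} ≤ B) : A ≤ B := fun x hx => by
  by_cases e : x * t = t * x
  · exact h2 ⟨hx, mem_centralizer_singleton_iff.2 e⟩
  · exact (mul_mem_cancel_right h1).1 (h2 ⟨mul_mem hx hs, mem_centralizer_singleton_iff.2 (bt_zero.1 (by
      rw [bt_mul E (hA hx) (hA hs) ht, h, bt_one.2 e]; rfl))⟩)

theorem not_rank_one (hh : h ∈ 𝐍 R) (hr : h ^ r ∈ 𝐙) (h2 : r.Coprime 2) (hι : 3 ≤ Fintype.card ι) {c : F}
    {φ : (ι → F) →ₗ[F] F} (e : ∀ v, φ v = 0 → h.val *ᵥ v = c • v) : h ∈ 𝐙 := by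
  haveI := nonempty_of_two E.two
  have m : ∀ {a}, a ∈ R → h * a * h⁻¹ * a⁻¹ ∈ R := fun ha => mul_mem (nm_conj hh ha) (inv_mem ha)
  have k : ∀ {a}, a ∈ R → (h * a * h⁻¹ * a⁻¹) * (h * a * h⁻¹ * a⁻¹) = 1 := fun {a} ha => by
    obtain ⟨v, hv, v0⟩ := (LinearMap.ker (φ.prod (φ.comp (toLin' (a⁻¹).val)))).exists_mem_ne_zero_of_ne_bot
      (LinearMap.ker_ne_bot_of_finrank_lt (by simp; omega))
    obtain ⟨v1, v2⟩ := Prod.ext_iff.1 hv
    have e1 := e v v1
    have e2 := e _ v2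
    have c0 : c ≠ 0 := fun e => v0 ((mulVec_eq_zero_iff h).1 (by rw [e1, e, zero_smul]))
    have e3 : (h * a * h⁻¹ * a⁻¹).val *ᵥ v = v := by
      have : (h⁻¹).val *ᵥ (a⁻¹).val *ᵥ v = c⁻¹ • (a⁻¹).val *ᵥ v := by
        rw [eq_inv_smul_iff₀ c0, ← mulVec_smul]
        exact (congrArg _ e2).symm.trans (inv_mulVec_mulVec _ _)
      simp only [Units.val_mul, ← mulVec_mulVec]
      rw [this, mulVec_smul, mulVec_inv_mulVec, mulVec_smul, e1, inv_smul_smul₀ c0]
    obtain ⟨z, hz⟩ := mem_scalars.1 (E.pow _ (m ha))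
    have : z • v = (1 : F) • v := by
      rw [one_smul, ← one_mulVec v, ← smul_mulVec, ← hz, sq, Units.val_mul, ← mulVec_mulVec, e3, e3, one_mulVec]
    exact Units.ext (by rw [← sq, hz, smul_left_injective F v0 this, one_smul]; rfl)
  have k2 : ∀ {a b}, a ∈ R → b ∈ R → bt (h * a * h⁻¹ * a⁻¹) (h * b * h⁻¹ * b⁻¹) = 0 := fun {a b} ha hb => by
    have e1 := k (mul_mem ha hb)
    rw [show h * (a * b) * h⁻¹ * (a * b)⁻¹ = h * a * h⁻¹ * a⁻¹ * (a * (h * b * h⁻¹ * b⁻¹) * a⁻¹) by group] at e1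
    have e2 := k ha
    have e3 := k hb
    have e4 := E.comm_or ha (m hb)
    generalize h * a * h⁻¹ * a⁻¹ = u at *
    generalize h * b * h⁻¹ * b⁻¹ = v at *
    have : u * v * (u * v) = 1 := by rcases e4 with e | e <;> simpa [e] using e1
    rw [bt_zero, eq_inv_of_mul_eq_one_left this, _root_.mul_inv_rev, inv_eq_of_mul_eq_one_left e2,
      inv_eq_of_mul_eq_one_left e3]
  refine mem_scalars_of_comm E.top fun a ha => cent_of (i := 2) hr h2.symm h2 (E.pow a ha)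
    (w := h ^ 2 * a * (h ^ 2)⁻¹ * a⁻¹) (mem_scalars_of_comm E.top fun y hy => bt_zero.1 ?_) (by group)
  obtain ⟨b, hb, rfl⟩ : ∃ b ∈ R, y = h * b * h⁻¹ := ⟨h⁻¹ * y * h⁻¹⁻¹, nm_conj (inv_mem hh) hy, by group⟩
  have := k2 ha hb
  have a1 := nm_conj hh ha
  have b1 := nm_conj hh hb
  rw [bt_mul E a1 (inv_mem ha) (m hb), bt_inv, bt_mul' E b1 (inv_mem hb) a1, bt_mul' E b1 (inv_mem hb) ha, bt_conj,
    bt_symm _ b⁻¹, bt_symm _ b⁻¹, bt_inv, bt_inv, bt_symm b, bt_symm b] at this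
  rw [bt_mul E (nm_conj (pow_mem hh 2) ha) (inv_mem ha) b1, bt_inv,
    show h ^ 2 * a * (h ^ 2)⁻¹ = h * (h * a * h⁻¹) * h⁻¹ by simp [sq, mul_assoc], bt_conj]
  revert this
  generalize bt a b = i, bt (h * a * h⁻¹) b = j, bt a (h * b * h⁻¹) = l
  revert i j l; decide

end

theorem card_Z [Nonempty ι] (hR : alg R = ⊤) : Nat.card (R ⊓ 𝐙 : Subgroup _) = Nat.card (center R) := by
  rw [center_eq hR, H1.card_subgroupOf, inf_comm]

theorem between [Finite F] {B C : Subgroup (GL ι F)} (h1 : A ≤ B) (h2 : B ≤ C) {m : ℕ}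
    (h : Nat.card C = m * Nat.card A) : ∃ j, j ∣ m ∧ Nat.card B = j * Nat.card A ∧ (j = m → B = C) ∧ (j = 1 → A = B) := by
  obtain ⟨j, hj⟩ := card_dvd_of_le h1
  have := card_dvd_of_le h2
  rw [h, hj, mul_comm] at this
  exact ⟨j, Nat.dvd_of_mul_dvd_mul_right Nat.card_pos this, by rw [hj, mul_comm],
    fun e => eq_of_le_of_card_ge h2 (by rw [h, hj, e, mul_comm]), fun e => eq_of_le_of_card_ge h1 (by rw [hj, e, mul_one])⟩

theorem Z_le (h : GL ι F) : R ⊓ 𝐙 ≤ R ⊓ centralizer {h} :=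
  inf_le_inf_left _ fun _ hx => mem_centralizer_singleton_iff.2 (scalars_comm hx _)

theorem prime_dvd [Finite F] [Fact r.Prime] (E : EData r₀ R) (hh : h ∈ 𝐍 R) (hr : h ^ r ∈ 𝐙) (hn : h ∉ 𝐙) :
    ∃ j, j ∣ Fintype.card ι ^ 2 ∧ j ≠ Fintype.card ι ^ 2 ∧ (r ∣ Nat.card (center R) ∨ r ∣ Fintype.card ι ^ 2 - j) ∧
      Nat.card (R ⊓ centralizer {h} : Subgroup _) = j * Nat.card (center R) := by
  haveI := nonempty_of_two E.two
  obtain ⟨j, a, b, c, -⟩ := between (Z_le (R := R) h) inf_le_left (E.card_eq.trans (by rw [card_Z E.top]))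
  rw [card_Z E.top] at b
  refine ⟨j, a, fun e => hn (mem_scalars_of_comm E.top fun y hy =>
    (mem_centralizer_singleton_iff.1 ((c e).ge hy).2).symm), ?_, b⟩
  have := (Nat.modEq_iff_dvd' (card_le_of_le inf_le_left)).1 (fix_cong (fun a => nm_conj hh) hr).symm
  rw [E.card_eq, b, ← Nat.sub_mul] at this
  exact ((Nat.Prime.dvd_mul Fact.out).1 this).symm

theorem prime_four [Finite F] [Fact r.Prime] (E : EData 2 R) (hι : Fintype.card ι = 4) (hz : Nat.card (center R) ∣ 4)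
    (hh : h ∈ 𝐍 R) (hr : h ^ r ∈ 𝐙) (hn : h ∉ 𝐙) : r = 2 ∨ r = 3 ∨ r = 5 := by
  haveI := nonempty_of_two E.two
  have hp : r.Prime := Fact.out
  have k : ∀ {m}, r ∣ m → m ∣ 2 ^ 3 * 3 * 5 → r = 2 ∨ r = 3 ∨ r = 5 := fun a b => by
    have := a.trans b
    rw [hp.dvd_mul, hp.dvd_mul, or_assoc] at this
    exact this.imp (fun e => (Nat.prime_dvd_prime_iff_eq hp Nat.prime_two).1 (hp.dvd_of_dvd_pow e))
      (Or.imp (Nat.prime_dvd_prime_iff_eq hp Nat.prime_three).1 (Nat.prime_dvd_prime_iff_eq hp Nat.prime_five).1)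
  obtain ⟨j, a, b, c | c, d⟩ := prime_dvd E hh hr hn
  · exact k c (hz.trans (by decide))
  rw [hι] at a b c
  obtain rfl | e : j = 2 ∨ 4 ^ 2 - j ∣ 2 ^ 3 * 3 * 5 := by
    have := Nat.le_of_dvd (by decide) a
    interval_cases j <;> simp_all
  swap; · exact k c e
  obtain ⟨t, ht, t0⟩ := SetLike.exists_of_lt (lt_of_le_of_ne (Z_le (R := R) h) fun e => by
    rw [← e, card_Z E.top] at d
    have := Nat.card_pos (α := center R)
    omega)
  obtain ⟨s, hs, st⟩ := exists_an E ht.1 fun e => t0 ⟨ht.1, e⟩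
  have e1 := idx2 E le_rfl ht.1 hs st
  have ht2 := mem_centralizer_singleton_iff.1 ht.2
  have e2 := fix_cong (A := R ⊓ centralizer {t}) (fun a ha => ⟨nm_conj hh ha.1, mem_centralizer_singleton_iff.2 (by
    rw [← bt_zero, ← mul_inv_cancel_right t h, ht2, bt_conj, bt_zero]; exact mem_centralizer_singleton_iff.1 ha.2)⟩) hr
  obtain ⟨j, a1, a2, -, a3⟩ := between (B := (R ⊓ centralizer {t}) ⊓ centralizer {h})
    (le_inf (Z_le t) ((Z_le h).trans inf_le_right)) (inf_le_inf_right _ inf_le_left) (d.trans (by rw [card_Z E.top]))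
  obtain rfl : j = 2 := ((Nat.dvd_prime Nat.prime_two).1 a1).resolve_left fun e =>
    t0 ((a3 e).ge ⟨⟨ht.1, mem_centralizer_singleton_iff.2 rfl⟩, ht.2⟩)
  rw [E.card_eq, hι] at e1
  rw [a2, card_Z E.top, show Nat.card (R ⊓ centralizer {t} : Subgroup _) = 8 * Nat.card (center R) by omega] at e2
  have := (Nat.modEq_iff_dvd' (by omega)).1 e2.symm
  rw [← Nat.sub_mul] at this
  exact k this ((Nat.mul_dvd_mul_left _ hz).trans (by decide))

theorem not_minus [Finite F] [Nonempty ι] (h2 : (2 : F) ≠ 0) (hR : Nat.card R = 2 ^ 5) (hm : IsOfMinusType 2 R)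
    (h1 : -1 ∈ R) (ha : a ∈ R) (hb : b ∈ R) (a2 : a * a = 1) (b2 : b * b = 1) (ab : a * b = b * a) (a0 : a ∉ 𝐙)
    (b0 : b ∉ 𝐙) (c0 : a * b ∉ 𝐙) : False := by
  let S : Set R := {⟨-1, h1⟩, ⟨a, ha⟩, ⟨b, hb⟩}
  have c : ∀ x ∈ S, ∀ y ∈ S, x * y = y * x := by simp [S, ab]
  haveI : IsMulCommutative (closure S) := isMulCommutative_closure c
  have e1 := hm (closure S) inferInstance fun x hx => closure_induction (p := fun x _ => x * x = 1)
    (by rintro _ (rfl | rfl | rfl) <;> simp [a2, b2, Subtype.ext_iff]) (by simp) (fun x y hx hy e1 e2 => by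
      rw [mul_assoc, ← mul_assoc y, setLike_mul_comm hy hx, mul_assoc, e2, mul_one, e1])
    (fun x _ e => by rw [← _root_.mul_inv_rev, e, inv_one]) hx
  have e2 := hR ▸ card_subgroup_dvd_card (closure S)
  have e3 : ({1, ⟨-1, h1⟩, ⟨a, ha⟩, ⟨b, hb⟩, ⟨a * b, mul_mem ha hb⟩} : Set R).ncard ≤ Nat.card (closure S) := by
    refine Set.ncard_le_ncard (t := (Subgroup.closure S : Set R)) ?_
    have i1 : (⟨a, ha⟩ : R) ∈ closure S := subset_closure (by simp [S])
    have i2 : (⟨b, hb⟩ : R) ∈ closure S := subset_closure (by simp [S])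
    simp only [Set.insert_subset_iff, Set.singleton_subset_iff, SetLike.mem_coe]
    exact ⟨one_mem _, subset_closure (by simp [S]), i1, i2, mul_mem i1 i2⟩
  have n1 : ∀ {x}, x ∉ 𝐙 → 1 ≠ x ∧ -1 ≠ x := fun h => ⟨fun e => h (e ▸ one_mem _), fun e => h (e ▸ neg_one_sc)⟩
  have n2 : a ≠ b := fun e => c0 (by rw [← e, a2]; exact one_mem _)
  rw [Set.ncard_insert_of_notMem (by simp [Subtype.ext_iff, ne_neg h2 1, n1 a0, n1 b0, n1 c0]),
    Set.ncard_insert_of_notMem (by simp [Subtype.ext_iff, n1 a0, n1 b0, n1 c0]),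
    Set.ncard_insert_of_notMem (by simp [Subtype.ext_iff, n2, (n1 b0).1.symm]),
    Set.ncard_pair (by simp [Subtype.ext_iff, (n1 a0).1.symm])] at e3
  generalize Nat.card (closure S) = n at *
  interval_cases n <;> simp at e2

theorem cyc_comm (E : EData 2 R) (hh : h ∈ 𝐍 R) (hr : h ^ 3 ∈ 𝐙) {v : ι → F} (v0 : v ≠ 0)
    (hv : ∀ t : GL ι F, h * t = t * h → ∃ α β : F, t.val *ᵥ v = α • v + β • h.val *ᵥ v) (ha : a ∈ R) :
    a * (h * a * h⁻¹) * (h * (h * a * h⁻¹) * h⁻¹) ∈ 𝐙 := by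
  have m : ∀ {a}, a ∈ R → a * (h * a * h⁻¹) * (h * (h * a * h⁻¹) * h⁻¹) ∈ R := fun ha =>
    mul_mem (mul_mem ha (nm_conj hh ha)) (nm_conj hh (nm_conj hh ha))
  have k : ∀ {a}, a ∈ R → h * (a * (h * a * h⁻¹) * (h * (h * a * h⁻¹) * h⁻¹)) =
      a * (h * a * h⁻¹) * (h * (h * a * h⁻¹) * h⁻¹) * h := fun {a} ha =>
    cent_of (i := 1) hr (by decide) (by decide) (E.pow _ (m ha)) (E.comm _ (inv_mem ha) _ (m ha)) (by
      calc _ = a⁻¹ * (a * (h * a * h⁻¹) * (h * (h * a * h⁻¹) * h⁻¹)) * (h ^ 3 * a * (h ^ 3)⁻¹) := by group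
        _ = _ := by rw [scalars_comm hr, commutatorElement_def]; group)
  by_contra n
  obtain ⟨s, hs, st⟩ := exists_an E (m ha) n
  have e1 := k ha
  have e2 := k hs
  have e3 : bt (s * (h * s * h⁻¹) * (h * (h * s * h⁻¹) * h⁻¹)) (a * (h * a * h⁻¹) * (h * (h * a * h⁻¹) * h⁻¹)) = 1 := by
    have mt := m ha
    generalize a * (h * a * h⁻¹) * (h * (h * a * h⁻¹) * h⁻¹) = t at *
    have : ∀ y, bt (h * y * h⁻¹) t = bt y t := fun y => by rw [← bt_conj h y, e1, mul_inv_cancel_right]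
    rw [bt_mul E (mul_mem hs (nm_conj hh hs)) (nm_conj hh (nm_conj hh hs)) mt, bt_mul E hs (nm_conj hh hs) mt,
      this, this, this, st]
    rfl
  have e4 := an_of E (m hs) (m ha) e3
  generalize a * (h * a * h⁻¹) * (h * (h * a * h⁻¹) * h⁻¹) = t at *
  generalize s * (h * s * h⁻¹) * (h * (h * s * h⁻¹) * h⁻¹) = u at *
  obtain ⟨α, β, f1⟩ := hv t e1
  obtain ⟨γ, δ, f2⟩ := hv u e2
  have c : ∀ {t : GL ι F}, h * t = t * h → t.val *ᵥ h.val *ᵥ v = h.val *ᵥ t.val *ᵥ v := fun e => by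
    rw [mulVec_mulVec, mulVec_mulVec, ← Units.val_mul, ← e, Units.val_mul]
  have : (u * t).val *ᵥ v = (t * u).val *ᵥ v := by
    simp only [Units.val_mul, ← mulVec_mulVec, f1, f2, mulVec_add, mulVec_smul, c e1, c e2]
    module
  rw [e4, Units.val_neg, neg_mulVec, neg_eq_iff_add_eq_zero, ← two_smul F, smul_eq_zero, mulVec_eq_zero_iff] at this
  exact this.elim E.two_ne v0

theorem alg_of_abs [Finite F] [Nonempty ι] (h : ActsAbsolutelyIrreducibly (matrixSet R)) : alg R = ⊤ := by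
  refine alg_eq_top_of (fun W hW => h.1 W ?_) fun a ha => ?_
  · rintro _ ⟨x, hx, rfl⟩ _ ⟨w, hw, rfl⟩
    exact hW x hx w hw
  · obtain ⟨c, rfl⟩ := h.2 a (by rintro _ ⟨x, hx, rfl⟩; exact (ha x hx).symm)
    exact ⟨1, c, one_ne_zero, by rw [smul_mulVec, one_mulVec]⟩

theorem exp_four (h : IsSymplecticTypeGroup 2 R) (hx : x ∈ R) : x ^ 4 = 1 :=
  congrArg Subtype.val (show (⟨x, hx⟩ : R) ^ 4 = 1 from Monoid.exponent_dvd_iff_forall_pow_eq_one.1 h.exponent_eq.dvd _)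

theorem eData_of [Finite F] (hι : 2 ≤ Fintype.card ι) (h : IsSymplecticTypeGroup 2 R)
    (hi : ActsAbsolutelyIrreducibly (matrixSet R)) : EData 2 R := by
  haveI := nonempty_of_two hι
  have ha := alg_of_abs hi
  have h4 : ∀ x : R, orderOf x ≤ 4 := fun x =>
    orderOf_le_of_pow_eq_one (by decide) (Subtype.ext (exp_four h x.2))
  obtain ⟨E, C, h1, h2, h3, h5⟩ := H4.hall_symplectic h.pGroup h.cyclic_of_characteristic
  have hC : IsCyclic C := h5.resolve_right fun ⟨_, c, d⟩ => by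
    have k : ∀ {G : Type} [Group G] (e : C ≃* G) (g : G), orderOf g ≤ 4 ∧ 0 < orderOf g := fun e g => by
      rw [← e.symm.orderOf_eq, ← orderOf_coe]; exact ⟨h4 _, orderOf_pos _⟩
    rcases d with ⟨m, ⟨e⟩⟩ | ⟨m, ⟨e⟩⟩ | ⟨n, a, -, x, -, b, -⟩
    · have := k e (.r 1)
      rw [DihedralGroup.orderOf_r_one] at this
      rw [Nat.card_congr e.toEquiv, DihedralGroup.nat_card] at c
      omega
    · have := k e (.a 1)
      rw [QuaternionGroup.orderOf_a_one] at this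
      haveI : NeZero m := ⟨by omega⟩
      rw [Nat.card_congr e.toEquiv, Nat.card_eq_fintype_card, QuaternionGroup.card] at c
      omega
    · have := h4 x
      rw [orderOf_coe, b] at this
      exact absurd ((Nat.pow_le_pow_right two_pos a).trans this) (by decide)
  have cC : C ≤ center R := fun c hc => mem_center_iff.2 fun g => (mem_centralizer_singleton_iff.1 (show g ∈ _ from
    (h2.ge.trans (sup_le (fun e he => mem_centralizer_singleton_iff.2 (h1 e he c hc)) fun d hd =>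
      mem_centralizer_singleton_iff.2 (congrArg Subtype.val (IsCyclic.commGroup.mul_comm (⟨d, hd⟩ : C) ⟨c, hc⟩))))
      (mem_top g)))
  have cE : ∀ e : E, e ∈ center E → e.1 ∈ center R := fun e he => mem_center_iff.2 fun g =>
    (mem_centralizer_singleton_iff.1 (show g ∈ _ from (h2.ge.trans (sup_le (fun d hd => mem_centralizer_singleton_iff.2
      (congrArg Subtype.val (mem_center_iff.1 he ⟨d, hd⟩))) fun d hd =>
        mem_centralizer_singleton_iff.2 (h1 _ e.2 d hd).symm)) (mem_top g)))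
  have k : ∀ e ∈ E, (∀ d ∈ E, ⁅e, d⁆ ∈ center R) ∧ e ^ 2 ∈ center R := fun e he => by
    rcases h3 with rfl | h3
    · obtain rfl := mem_bot.1 he
      simp
    · exact ⟨fun d hd => cE ⁅(⟨e, he⟩ : E), ⟨d, hd⟩⁆ (h3.1.2.2.le (commutator_mem_commutator (mem_top _) (mem_top _))),
        cE (⟨e, he⟩ ^ 2) (h3.1.2.1 ▸ H4.pow_mem_frattini h3.1.1 _)⟩
  haveI : C.Normal := ⟨fun c hc g => by rwa [mem_center_iff.1 (cC hc), mul_inv_cancel_right]⟩
  have dec : ∀ x : R, ∃ e ∈ E, ∃ c ∈ C, e * c = x := fun x => mem_sup_of_normal_right.1 (h2.ge (mem_top x))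
  rw [center_eq ha] at k cC
  refine ⟨hι, Nat.prime_two, ha, fun x hx y hy => ?_, fun x hx => ?_⟩
  · obtain ⟨e, he, c, hc, rfl⟩ := dec ⟨x, hx⟩ |>.imp fun e h => h.imp_right fun h => h.imp fun c h =>
      h.imp_right (congrArg Subtype.val)
    obtain ⟨d, hd, c', hc', rfl⟩ := dec ⟨y, hy⟩ |>.imp fun e h => h.imp_right fun h => h.imp fun c h =>
      h.imp_right (congrArg Subtype.val)
    convert (show ⁅e.1, d.1⁆ ∈ 𝐙 from (k e he).1 d hd) using 1
    simp only [coe_mul, commutatorElement_def, _root_.mul_inv_rev]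
    rw [mul_assoc e.1, scalars_comm (g := c.1) (cC hc)]
    simp only [mul_assoc, mul_inv_cancel_left]
    rw [← mul_assoc c'.1, scalars_comm (g := c'.1) (cC hc')]
    group
  · obtain ⟨e, he, c, hc, rfl⟩ := dec ⟨x, hx⟩ |>.imp fun e h => h.imp_right fun h => h.imp fun c h =>
      h.imp_right (congrArg Subtype.val)
    rw [coe_mul, Commute.mul_pow (scalars_comm (g := c.1) (cC hc) _).symm]
    exact mul_mem (k e he).2 (pow_mem (cC hc) 2)

end H27.C6
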