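import Cfsg.Agent.H27.Asch28

/-! Aschbacher's theorem, part 29: preparations for the even-dimensional orthogonal tables. -/

set_option autoImplicit false

namespace H27.Asch

open Matrix Cfsg Cfsg.Geo Module
open scoped Kronecker

variable {ι κ : Type} [Fintype ι] [DecidableEq ι] [Fintype κ] [DecidableEq κ] {F : Type*} [Field F]
  {H : Subgroup (GL ι F)}

theorem prod_f_pure {μ : Type} [Fintype μ] [DecidableEq μ] {σ : F →+* F} (a : Matrix κ κ F)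
    (b : Matrix μ μ F) (x x' : κ → F) (y y' : μ → F) :
    fG σ (a ⊗ₖ b) (fun k => x k.1 * y k.2) (fun k => x' k.1 * y' k.2) = fG σ a x x' * fG σ b y y' := by
  simp only [← formOfGram_eq, formOfGram, Fintype.sum_prod_type, Finset.sum_mul_sum,
    kroneckerMap_apply, map_mul]
  exact Finset.sum_congr rfl fun _ _ => Finset.sum_congr rfl fun _ _ =>
    Finset.sum_congr rfl fun _ _ => Finset.sum_congr rfl fun _ _ => by ring

theorem kron_pure {μ : Type} [Fintype μ] [DecidableEq μ] (a : Matrix κ κ F) (x : κ → F) (y : μ → F) :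
    (a ⊗ₖ (1 : Matrix μ μ F)) *ᵥ (fun k => x k.1 * y k.2) = fun k => (a *ᵥ x) k.1 * y k.2 := by
  ext k
  simp [mulVec, dotProduct, Fintype.sum_prod_type, one_apply, Finset.sum_mul, mul_assoc]

theorem det_swap [Nonempty ι] {θ : Fin 2 → Matrix (Fin 2) (Fin 2) F →ₐ[F] Matrix ι ι F}
    (h : TW H θ) {Ψ : Frm ι (RingHom.id F)} (h1 : ∀ i a, θ i a.adjugate = Ψ.adj (θ i a)) {b : GL ι F}
    (h2 : ∀ x, cA b (θ 0 x) ∈ (θ 1).range) (h3 : ∀ x, cA b (θ 1 x) ∈ (θ 0).range) {c : F}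
    (h4 : Ψ.adj b.val * b.val = c • 1) : b.val.det = -c ^ 2 := by
  have hc := h.comm 0 1 (by decide)
  have ht : (θ 0).range ⊔ (θ 1).range = ⊤ := by
    rw [eq_top_iff, ← h.top]
    exact iSup_le fun i => by fin_cases i; exacts [le_sup_left, le_sup_right]
  obtain ⟨e, P, he⟩ := exists_tensor₂ _ _ hc ht
  let τ := um (tr e P).toAlgHom (monoU (fun _ => 1) (Equiv.prodComm _ _))
  have a1 : ∀ x y, cA τ (θ 0 x * θ 1 y) = θ 0 y * θ 1 x := fun x y => by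
    rw [he, he]
    refine (cA_um (tr e P).toAlgHom _ _).trans (congrArg (tr e P) (cA_eq_iff.2 ?_))
    ext ⟨i, j⟩ ⟨k, l⟩
    simp [monoU, mono, mul_apply, Fintype.sum_prod_type, ite_and, mul_comm]
  have a2 : ∀ x, cA τ (θ 0 x) = θ 1 x := fun x => by simpa using a1 x 1
  have a3 : ∀ x, cA τ (θ 1 x) = θ 0 x := fun x => by simpa using a1 1 x
  have a4 : τ.val.det = -1 := by
    refine (det_tr e P _).trans ((det_mono _ _).trans ?_)
    rw [show Equiv.Perm.sign (Equiv.prodComm (Fin 2) (Fin 2)) = -1 by decide]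
    simp
  have a5 : τ * τ = 1 := by
    rw [← map_mul, monoU_mul, ← map_one (um (tr e P).toAlgHom), ← map_one (sc _), ← monoU_const]
    congr
    simp
  obtain ⟨d, hd⟩ := Ψ.mem_sim_iff.1 (Ψ.mem_sim_of_adj (adjoin_union_range ht) (g := τ) (by
    rintro _ (⟨x, rfl⟩ | ⟨x, rfl⟩)
    · rw [a2, ← h1, ← h1, a2]
    · rw [a3, ← h1, ← h1, a3]))
  rw [inv_eq_of_mul_eq_one_right a5] at hd
  have a6 : (d : F) * d = 1 := by
    have := Ψ.adj_adj τ.val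
    rw [hd, Ψ.adj_smul, hd, smul_smul] at this
    obtain ⟨i, j, a⟩ := exists_entry_ne_zero τ
    exact mul_right_cancel₀ a ((congrFun (congrFun this i) j).trans (one_mul _).symm)
  obtain ⟨x, hx⟩ := exists_inner' (θ 0) (θ 0) (h := b * τ) fun x => by rw [cA_mul, a2]; exact h3 x
  obtain ⟨y, hy⟩ := exists_inner' (θ 1) (θ 1) (h := b * τ) fun x => by rw [cA_mul, a3]; exact h2 x
  obtain ⟨s, hs⟩ := mem_scalars_of_cA (adjoin_union_range ht) (g := um (θ 0) x * um (θ 1) y)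
    (h := b * τ) (by
      rintro _ (⟨z, rfl⟩ | ⟨z, rfl⟩)
      · rw [hx, cA_mul, ← cA_um, (cA_eq_iff (g := um (θ 1) y)).2 (hc z y).symm]
      · rw [hy, cA_mul, cA_um, (cA_eq_iff (g := um (θ 0) x)).2 (hc x _)])
  replace hs : b.val * τ.val = (s : F) • (θ 0 x * θ 1 y) := by
    simpa [sc_val, um_val] using congrArg Units.val hs
  have a7 := congrArg det hs
  rw [det_mul, a4, det_smul, he, det_tr, det_kronecker, Fintype.card_congr e] at a7
  have a8 := congrArg₂ (· * ·) (congrArg Ψ.adj hs) hs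
  simp only [Ψ.adj_mul, Ψ.adj_smul, ← h1, hd, smul_mul_assoc, mul_smul_comm, smul_smul] at a8
  rw [mul_assoc, ← mul_assoc (Ψ.adj _), h4, mul_assoc, ← mul_assoc (θ 0 _), ← map_mul, adjugate_mul,
    map_smul, map_one, smul_mul_assoc, smul_mul_assoc, one_mul, one_mul, mul_smul_comm,
    mul_smul_comm, ← map_mul, adjugate_mul, map_smul, map_one, ← Units.val_mul, a5] at a8
  obtain ⟨i⟩ := ‹Nonempty ι›
  have a9 := congrFun (congrFun a8 i) i
  simp at a7 a9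
  linear_combination -a7 + (c * d + s * s * x.val.det * y.val.det) * a9 - c ^ 2 * a6

section line

variable {r : ℕ} {K : Subalgebra F (Matrix ι ι F)} (hK : IsFieldSubalgebra r K)
  (hι : Fintype.card ι = 2 * r) {Φ : Frm ι (RingHom.id F)} (h1 : ∀ k ∈ K, Φ.adj k = k)

/-- the line through `v` over the subalgebra `K` -/
def kl (K : Subalgebra F (Matrix ι ι F)) (v : ι → F) : Submodule F (ι → F) :=
  LinearMap.range ((toLin'.toLinearMap.flip v).comp K.val.toLinearMap)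

theorem mem_kl {v w : ι → F} : w ∈ kl K v ↔ ∃ k ∈ K, k *ᵥ v = w :=
  ⟨fun ⟨k, h⟩ => ⟨k, k.2, h⟩, fun ⟨k, a, h⟩ => ⟨⟨k, a⟩, h⟩⟩

include hK

theorem finrank_kl {v : ι → F} (hv : v ≠ 0) : finrank F (kl K v) = r :=
  (LinearMap.finrank_range_of_inj ((injective_iff_map_eq_zero _).2 fun k h =>
    Subtype.ext (field_eq_zero hK k.2 hv h))).trans hK.finrank_eq

include hι

theorem kl_span {u v : ι → F} (hv : v ≠ 0) (h : u ∉ kl K v) (w : ι → F) :
    ∃ k ∈ K, ∃ l ∈ K, k *ᵥ v + l *ᵥ u = w := by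
  have h1 := Submodule.finrank_sup_add_finrank_inf_eq (kl K v) (kl K u)
  rw [show kl K v ⊓ kl K u = ⊥ from eq_bot_iff.2 fun x hx => by
    obtain ⟨k, a, rfl⟩ := mem_kl.1 hx.1
    obtain ⟨l, b, c⟩ := mem_kl.1 hx.2
    by_cases d : l = 0
    · rw [← c, d, zero_mulVec]; exact zero_mem _
    obtain ⟨y, d, e⟩ := hK.inv l b d
    exact absurd (mem_kl.2 ⟨_, mul_mem d a, by
      rw [← mulVec_mulVec, ← c, mulVec_mulVec, hK.comm _ d _ b, e, one_mulVec]⟩) h,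
    finrank_kl hK hv, finrank_kl hK (by rintro rfl; exact h (zero_mem _)), finrank_bot] at h1
  obtain ⟨_, a, _, b, rfl⟩ := Submodule.mem_sup.1
    ((Submodule.eq_top_of_finrank_eq (by rw [finrank_fintype_fun_eq_card]; omega) :
      kl K v ⊔ kl K u = ⊤).ge (Submodule.mem_top (x := w)))
  obtain ⟨k, c, rfl⟩ := mem_kl.1 a
  obtain ⟨l, d, rfl⟩ := mem_kl.1 b
  exact ⟨k, c, l, d, rfl⟩

include h1

theorem alt_line {x y : Matrix ι ι F} (hx : ∀ k ∈ K, x * k = k * x) (hy : ∀ k ∈ K, y * k = k * y)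
    (hx' : ∀ k ∈ K, ∀ v, Φ.f ((k * x) *ᵥ v) v = 0) (hy' : ∀ k ∈ K, ∀ v, Φ.f ((k * y) *ᵥ v) v = 0)
    (h0 : y ≠ 0) : ∃ k ∈ K, x = k * y := by
  obtain ⟨v, hv⟩ : ∃ v, y *ᵥ v ≠ 0 := by
    by_contra! e
    exact h0 (ext_mulVec fun v => by rw [e, zero_mulVec])
  have a0 : v ≠ 0 := by rintro rfl; exact hv (mulVec_zero _)
  have a1 : ∀ z : Matrix ι ι F, (∀ k ∈ K, ∀ v, Φ.f ((k * z) *ᵥ v) v = 0) → ∀ u, ∀ k ∈ K,
      Φ.f (z *ᵥ u) (k *ᵥ u) = 0 := fun z hz u k hk => by rw [Φ.f_adj', h1 k hk, mulVec_mulVec, hz k hk]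
  have a2 : kl K (y *ᵥ v) = Φ.perp (kl K v) := Submodule.eq_of_le_of_finrank_eq (fun w hw u hu => by
    obtain ⟨k, a, rfl⟩ := mem_kl.1 hw
    obtain ⟨l, b, rfl⟩ := mem_kl.1 hu
    rw [Φ.f_adj, h1 k a, mulVec_mulVec, a1 y hy' v _ (mul_mem a b)]) (by
      have := Φ.finrank_perp (kl K v)
      rw [finrank_kl hK hv]; rw [finrank_kl hK a0] at this; omega)
  obtain ⟨k, hk, a3⟩ := mem_kl.1 (a2.ge fun u hu => by
    obtain ⟨l, b, rfl⟩ := mem_kl.1 hu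
    exact a1 x hx' v l b)
  refine ⟨k, hk, sub_eq_zero.1 (ext_mulVec fun u => ?_)⟩
  have a4 : ∀ l ∈ K, ∀ w, Φ.f ((l * (x - k * y)) *ᵥ w) w = 0 := fun l hl w => by
    rw [mul_sub, sub_mulVec, Φ.sub_left, hx' l hl, ← mul_assoc, hy' _ (mul_mem hl hk), sub_zero]
  have a5 : ∀ l ∈ K, (x - k * y) *ᵥ (l *ᵥ v) = 0 := fun l hl => by
    rw [mulVec_mulVec, sub_mul, mul_assoc, hx l hl, hy l hl, ← mul_assoc, hK.comm k hk l hl,
      mul_assoc, ← mul_sub, ← mulVec_mulVec, sub_mulVec, ← mulVec_mulVec, a3, sub_self, mulVec_zero]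
  rw [zero_mulVec]
  by_cases hu : u ∈ kl K v
  · obtain ⟨l, b, rfl⟩ := mem_kl.1 hu
    exact a5 l b
  refine Φ.eq_zero_left fun w => ?_
  obtain ⟨l, b, l', b', rfl⟩ := kl_span hK hι a0 hu w
  have := a4 1 (one_mem _) (u + l *ᵥ v)
  rw [one_mul, mulVec_add, a5 l b, add_zero, Φ.add_right, ← one_mul (x - _), a4 1 (one_mem _),
    one_mul, zero_add] at this
  rw [Φ.add_right, this, a1 _ a4 u l' b', add_zero]

omit h1 in
theorem exists_kl [Nonempty ι] : ∃ v u : ι → F, (∀ w, ∃ k ∈ K, ∃ l ∈ K, k *ᵥ v + l *ᵥ u = w) ∧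
    v ≠ 0 ∧ u ≠ 0 ∧ ∀ w₁ w₂ : ι → F, ∃ a : Matrix ι ι F, (∀ k ∈ K, a * k = k * a) ∧
      a *ᵥ v = w₁ ∧ a *ᵥ u = w₂ := by
  open scoped Matrix.Module in
  letI : Field K := (isField_of_inv hK.comm hK.inv).toField
  have hs : ∀ (b : K) (v : ι → F), b • v = b.val *ᵥ v := fun b v => rfl
  haveI : IsScalarTower F K (ι → F) := ⟨fun c b v => by
    rw [hs, hs, Subalgebra.coe_smul, smul_mulVec]⟩
  haveI : Module.Finite K (ι → F) := Module.Finite.of_restrictScalars_finite F K _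
  have h := Module.finrank_mul_finrank F K (ι → F)
  rw [hK.finrank_eq, finrank_fintype_fun_eq_card, hι, mul_comm 2] at h
  let b := finBasisOfFinrankEq K (ι → F) (Nat.eq_of_mul_eq_mul_left (by
    have := Fintype.card_pos (α := ι); omega) h)
  refine ⟨b 0, b 1, fun w => ⟨_, (b.repr w 0).2, _, (b.repr w 1).2, ?_⟩, b.ne_zero 0, b.ne_zero 1,
    fun w₁ w₂ => ⟨LinearMap.toMatrix' ((b.constr K ![w₁, w₂]).restrictScalars F), fun k hk =>
      ext_mulVec fun x => ?_, by simp, by simp⟩⟩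
  · simpa only [Fin.sum_univ_two, hs] using b.sum_repr w
  · simp only [← mulVec_mulVec, LinearMap.toMatrix'_mulVec, LinearMap.restrictScalars_apply]
    exact map_smul (b.constr K ![w₁, w₂]) (⟨k, hk⟩ : K) x

theorem exists_skew [Nonempty ι] : ∃ s, (∀ k ∈ K, s * k = k * s) ∧ Φ.adj s = -s ∧ s ≠ 0 := by
  obtain ⟨x, a1, a2⟩ : ∃ x, (∀ k ∈ K, x * k = k * x) ∧ Φ.adj x ≠ x := by
    by_contra! h
    obtain ⟨v, u, -, -, hu, h2⟩ := exists_kl hK hι
    obtain ⟨p, b1, b2, b3⟩ := h2 v 0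
    obtain ⟨n, c1, c2, -⟩ := h2 u 0
    have := h (p * n) fun k hk => by rw [mul_assoc, c1 k hk, ← mul_assoc, b1 k hk, mul_assoc]
    rw [Φ.adj_mul, h p b1, h n c1] at this
    exact hu (by rw [← c2, ← b2, mulVec_mulVec, this, ← mulVec_mulVec, c2, b3])
  exact ⟨x - Φ.adj x, fun k hk => by
    rw [sub_mul, mul_sub, a1 k hk, ← h1 k hk, ← Φ.adj_mul, ← Φ.adj_mul, a1 k hk],
    by rw [Φ.adj_sub, Φ.adj_adj, neg_sub], sub_ne_zero.2 a2.symm⟩

theorem exists_half_line [Finite F] [Nonempty ι] (h2 : (2 : F) = 0) {Q : (ι → F) → F} (hQ : QF Q Φ) :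
    (∀ x, (∀ k ∈ K, x * k = k * x) → (∀ v, Φ.f (x *ᵥ v) v = 0) →
      ∀ k ∈ K, ∀ v, Φ.f ((k * x) *ᵥ v) v = 0) ∧
    ∃ a, (∀ k ∈ K, a * k = k * a) ∧ ∀ v, Q v = Φ.f (a *ᵥ v) v := by
  letI : Field K := (isField_of_inv hK.comm hK.inv).toField
  haveI : CharP F 2 := CharTwo.of_one_ne_zero_of_two_eq_zero one_ne_zero h2
  haveI : CharP K 2 := charP_of_injective_algebraMap (algebraMap F K).injective 2
  haveI : Finite K := Module.finite_of_finite F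
  let ρ := (frobeniusEquiv K 2).symm
  have hρ : ∀ k : K, (ρ k).1 * (ρ k).1 = k := fun k =>
    congrArg Subtype.val ((sq (ρ k)).symm.trans (frobeniusEquiv_symm_pow_p K 2 k))
  have a0 : ∀ x, (∀ k ∈ K, x * k = k * x) → (∀ v, Φ.f (x *ᵥ v) v = 0) →
      ∀ k ∈ K, ∀ v, Φ.f ((k * x) *ᵥ v) v = 0 := fun x a b k hk v => by
    rw [show k = _ from (hρ ⟨k, hk⟩).symm, mul_assoc, ← mulVec_mulVec, Φ.f_adj, h1 _ (ρ _).2,
      ← a _ (ρ _).2, ← mulVec_mulVec, b]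
  have a1 : ∀ k ∈ K, ∀ l ∈ K, ∀ v, Φ.f (k *ᵥ v) (l *ᵥ v) = 0 := fun k a l b v => by
    rw [Φ.f_adj', h1 l b, mulVec_mulVec, ← mul_one (l * k)]
    exact a0 1 (by simp) (fun v => by rw [one_mulVec, hQ.two, h2, zero_mul]) _ (mul_mem b a) v
  refine ⟨a0, ?_⟩
  obtain ⟨v, u, b1, b2, b3, b4⟩ := exists_kl hK hι
  let l : K →ₗ[F] Dual F K := LinearMap.mk₂ F (fun t k => Φ.f ((t * k).1 *ᵥ v) u)
    (fun _ _ _ => by simp [add_mul, add_mulVec, Φ.add_left])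
    (fun _ _ _ => by simp [smul_mulVec, Φ.smul_left])
    (fun _ _ _ => by simp [mul_add, add_mulVec, Φ.add_left])
    fun _ _ _ => by simp [smul_mulVec, Φ.smul_left]
  have a2 : Function.Surjective l := (LinearMap.injective_iff_surjective_of_finrank_eq_finrank
    Subspace.dual_finrank_eq.symm).1 ((injective_iff_map_eq_zero l).2 fun t ht =>
      Subtype.ext (field_eq_zero hK t.2 b2 (Φ.eq_zero_left fun w => by
        obtain ⟨k, a, k', b, rfl⟩ := b1 w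
        rw [Φ.add_right, a1 _ t.2 k a, zero_add, Φ.f_adj', h1 k' b, mulVec_mulVec,
          hK.comm k' b _ t.2]
        exact LinearMap.congr_fun ht ⟨k', b⟩)))
  have a3 : ∀ w, ∃ t : K, ∀ k : K, Q (k.1 *ᵥ w) = Φ.f ((t * (k * k)).1 *ᵥ v) u := fun w => by
    obtain ⟨t, ht⟩ := a2
      { toFun := fun k => Q ((ρ k).1 *ᵥ w)
        map_add' := fun x y => by
          rw [map_add, Subalgebra.coe_add, add_mulVec, hQ.add, a1 _ (ρ x).2 _ (ρ y).2, add_zero]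
        map_smul' := fun c x => by
          obtain ⟨d, rfl⟩ := FiniteField.isSquare_of_char_two (ringChar.eq F 2) c
          rw [show ρ ((d * d) • x) = d • ρ x from (RingEquiv.symm_apply_eq _).2 (by
            rw [coe_frobeniusEquiv, frobenius_def, _root_.smul_pow, frobeniusEquiv_symm_pow_p, sq]),
            Subalgebra.coe_smul, smul_mulVec, hQ.smul, sq]
          rfl }
    refine ⟨t, fun k => Eq.trans ?_ (LinearMap.congr_fun ht (k * k)).symm⟩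
    rw [← sq]
    exact congrArg (fun x : K => Q (x.1 *ᵥ w)) ((frobeniusEquiv K 2).symm_apply_apply k).symm
  obtain ⟨s, hs⟩ := a3 v
  obtain ⟨t, ht⟩ := a3 u
  obtain ⟨a, c1, c2, c3⟩ := b4 (v + s.1 *ᵥ u) (t.1 *ᵥ v)
  refine ⟨a, c1, fun w => ?_⟩
  obtain ⟨k, d1, k', d2, rfl⟩ := b1 w
  rw [hQ.add, hs ⟨k, d1⟩, ht ⟨k', d2⟩, mulVec_add, mulVec_mulVec _ a, mulVec_mulVec _ a, c1 k d1,
    c1 k' d2, ← mulVec_mulVec, ← mulVec_mulVec, c2, c3, mulVec_add, mulVec_mulVec, mulVec_mulVec]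
  simp only [Φ.add_left, Φ.add_right, a1 _ d1 _ d1, a1 _ (mul_mem d1 s.2) _ d2,
    a1 _ (mul_mem d2 t.2) _ d1]
  rw [hQ.symm ((k * s.1) *ᵥ u), Φ.f_adj' (k * s.1), Φ.f_adj' k' ((k' * t.1) *ᵥ v),
    h1 _ (mul_mem d1 s.2), h1 _ d2, mulVec_mulVec, mulVec_mulVec, hK.comm k d1 _ s.2,
    hK.comm k' d2 _ (mul_mem d2 t.2), hK.comm k' d2 _ t.2]
  simp only [MulMemClass.coe_mul, mul_assoc]
  ring

theorem exists_line_alg [Finite F] [Nonempty ι] {Q : (ι → F) → F} (hQ : QF Q Φ)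
    (hH : H ≤ isometryGroup F Q) (h : Inv H K) :
    ∃ L, Inv H L ∧ Comm L ∧ Φ.St L ∧ K ≤ L ∧ ∃ a ∈ L, Φ.adj a ≠ a := by
  have hH' := hH.trans hQ.le_sim
  have cm : ∀ a, (∀ k ∈ K, a * k = k * a) → ∀ g ∈ H, ∀ k ∈ K, cA g a * k = k * cA g a :=
    fun a a1 g hg k hk => by
      rw [← cA_cA_inv g k, ← map_mul, ← map_mul, a1 _ (h _ (inv_mem hg) k hk)]
  obtain ⟨a, a1, a2, a3⟩ : ∃ a, (∀ k ∈ K, a * k = k * a) ∧ Φ.adj a ≠ a ∧
      ∀ x, (x = Φ.adj a ∨ ∃ g ∈ H, x = cA g a) → ∃ k ∈ K, ∃ l ∈ K, x = k + l * a := by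
    by_cases h2 : (2 : F) = 0
    · obtain ⟨b1, a, b2, b3⟩ := exists_half_line hK hι h1 h2 hQ
      have b4 : Φ.adj a = 1 + (-1) * a := Φ.adj_eq fun u v => by
        have := hQ.add u v
        rw [b3, b3, b3, mulVec_add, Φ.add_left, Φ.add_right, Φ.add_right] at this
        rw [neg_one_mul, add_mulVec, neg_mulVec, one_mulVec, Φ.add_right, Φ.neg_right, hQ.symm u (a *ᵥ v)]
        linear_combination this
      refine ⟨a, b2, fun e => one_ne_zero (α := Matrix ι ι F) ?_, ?_⟩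
      · rw [← zero_smul F a, ← h2, two_smul]
        nth_rewrite 1 [← e]
        rw [b4]; noncomm_ring
      rintro _ (rfl | ⟨g, hg, rfl⟩)
      · exact ⟨1, one_mem _, -1, neg_mem (one_mem _), b4⟩
      have b5 : ∀ k ∈ K, (cA g a - a) * k = k * (cA g a - a) := fun k hk => by
        rw [sub_mul, mul_sub, cm a b2 g hg k hk, b2 k hk]
      obtain ⟨k, hk, e⟩ := alt_line hK hι h1 b5 (y := 1) (by simp) (b1 _ b5 fun v => by
        rw [sub_mulVec, Φ.sub_left, ← b3, ← mulVec_inv_mulVec g v, cA_mulVec,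
          Φ.mem_iso.1 (hQ.le_iso (hH hg)), ← b3, mem_isom.1 (hH hg), sub_self])
        (b1 1 (by simp) fun v => by rw [one_mulVec, hQ.two, h2, zero_mul]) one_ne_zero
      exact ⟨k, hk, 1, one_mem _, by rw [one_mul, ← mul_one k, ← e, sub_add_cancel]⟩
    obtain ⟨s, b1, b2, b3⟩ := exists_skew hK hι h1
    have b4 : ∀ x, (∀ k ∈ K, x * k = k * x) → Φ.adj x = -x →
        ∀ k ∈ K, ∀ v, Φ.f ((k * x) *ᵥ v) v = 0 := fun x c1 c2 k hk v => by
      have := Φ.f_adj (k * x) v v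
      rw [Φ.adj_mul, c2, h1 k hk, neg_mul, c1 k hk, neg_mulVec, Φ.neg_right, hQ.symm v] at this
      exact mul_left_cancel₀ h2 (by linear_combination this)
    refine ⟨s, b1, fun e => b3 ((smul_eq_zero.1 (show (2 : F) • s = 0 by
      rw [two_smul]; nth_rewrite 1 [← e]; rw [b2, neg_add_cancel])).resolve_left h2), ?_⟩
    rintro _ (rfl | ⟨g, hg, rfl⟩)
    · exact ⟨0, zero_mem _, -1, neg_mem (one_mem _), by simp [b2]⟩
    obtain ⟨k, hk, e⟩ := alt_line hK hι h1 (cm s b1 g hg) b1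
      (b4 _ (cm s b1 g hg) (by rw [Φ.adj_cA (hH' hg), b2, map_neg])) (b4 s b1 b2) b3
    exact ⟨0, zero_mem _, k, hk, by rw [zero_add, e]⟩
  have m1 : K ≤ Algebra.adjoin F (insert a K) := fun k hk => Algebra.subset_adjoin (Or.inr hk)
  have m2 : a ∈ Algebra.adjoin F (insert a (K : Set (Matrix ι ι F))) :=
    Algebra.subset_adjoin (Or.inl rfl)
  have m3 : ∀ x, (x = Φ.adj a ∨ ∃ g ∈ H, x = cA g a) →
      x ∈ Algebra.adjoin F (insert a (K : Set (Matrix ι ι F))) := fun x hx => by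
    obtain ⟨k, b, l, c, rfl⟩ := a3 x hx
    exact add_mem (m1 b) (mul_mem (m1 c) m2)
  refine ⟨_, inv_adjoin ?_, fun x hx y hy => congrArg Subtype.val
    ((Algebra.isMulCommutative_adjoin F ?_).is_comm.comm ⟨x, hx⟩ ⟨y, hy⟩), Frm.st_adjoin ?_, m1, a, m2,
    a2⟩
  · rintro g hg _ (rfl | hk)
    exacts [m3 _ (Or.inr ⟨g, hg, rfl⟩), m1 (h g hg _ hk)]
  · rintro z (rfl | hz) w (rfl | hw)
    exacts [rfl, a1 w hw, (a1 z hz).symm, hK.comm z hz w hw]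
  · rintro _ (rfl | hk)
    exacts [m3 _ (Or.inl rfl), (h1 _ hk).symm ▸ m1 hk]

end line

namespace QF

variable {Q : (ι → F) → F} {Φ : Frm ι (RingHom.id F)} (hQ : QF Q Φ)
include hQ

theorem eq_half (h2 : (2 : F) ≠ 0) (v : ι → F) : Q v = Φ.f (((2 : F)⁻¹ • (1 : Matrix ι ι F)) *ᵥ v) v := by
  rw [smul_mulVec, one_mulVec, Φ.smul_left, hQ.two, inv_mul_cancel_left₀ h2]

theorem eq_of_qInv [Finite F] (hι : 2 ≤ Fintype.card ι) (h2 : (2 : F) = 0) (hI : Irr H)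
    (hH : H ≤ isometryGroup F Q) {a} (h : Φ.QInv H a) (v : ι → F) : Q v = Φ.f (a *ᵥ v) v :=
  haveI := nonempty_of_two hι
  congrFun (quad_unique hι hI hQ.smul (Φ.q2_isQuad h2 h.1).smul
    (hQ.polar.trans (Φ.q2_form h2 h.1).symm) (fun _ hg => mem_isom.1 (hH hg))
    fun g hg => Φ.q2_fix (hQ.le_iso (hH hg)) (h.2 g hg)) v

omit hQ in
theorem plus_of_half {e : Matrix ι ι F} (h1 : e * e = e) (h2 : e + Φ.adj e = 1)
    (h3 : ∀ w, Q (e *ᵥ w) = 0) : IsPlusTypeOn Q ⊤ := by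
  have := Φ.finrank_perp (rg e)
  rw [show Φ.perp (rg e) = rg e from Submodule.ext fun v => by
    rw [mem_rg_idem h1, Φ.mem_perp, eq_comm, ← sub_eq_zero, ← one_mulVec v, mulVec_mulVec,
      ← sub_mulVec, mul_one, ← eq_sub_of_add_eq' h2, one_mulVec]
    exact ⟨fun h => Φ.eq_zero_left fun u => by rw [← Φ.f_adj']; exact h _ ⟨u, rfl⟩,
      fun h _ ⟨u, hu⟩ => by rw [← hu, toLin'_apply, Φ.f_adj', h, Φ.zero_left]⟩] at this
  exact ⟨rg e, le_top, fun _ ⟨w, hw⟩ => hw ▸ h3 w, by simpa [two_mul] using this⟩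

theorem ts_pair [Finite F] (hι : 2 ≤ Fintype.card ι) (hI : Irr H) (hH : H ≤ isometryGroup F Q)
    {e : Matrix ι ι F} (h : ISys H ![e, Φ.adj e]) (i : Fin 2) :
    IsTotallySingularQuad Q (rg (![e, Φ.adj e] i)) := by
  haveI := nonempty_of_two hι
  by_cases h2 : (2 : F) = 0
  swap
  · exact hQ.ts_of h2 (Φ.ts_of_iSys h i)
  rintro _ ⟨w, rfl⟩
  rw [hQ.eq_of_qInv hι h2 hI hH (Φ.qInv_of_iSys h2 (hH.trans hQ.le_sim) h), toLin'_apply,
    mulVec_mulVec]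
  fin_cases i
  · exact (congrArg (fun a => Φ.f (a *ᵥ w) _) (h.idem 0)).trans
      ((hQ.two _).trans (by rw [h2, zero_mul]))
  · exact (congrArg (fun a => Φ.f (a *ᵥ w) _) (h.orth 0 1 (by decide))).trans
      (by rw [zero_mulVec, Φ.zero_left])

theorem deg_two [Finite F] (hι : 2 ≤ Fintype.card ι) (hI : Irr H) (hH : H ≤ isometryGroup F Q)
    {K : Subalgebra F (Matrix ι ι F)} (hK : IsFieldSubalgebra 2 K) (h : Inv H K) (hs : Φ.St K) :
    (∀ k ∈ K, Φ.adj k = k) ∨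
      ((∃ a ∈ K, Φ.adj a ≠ a) ∧ ∀ k ∈ K, ∃ c, ∀ v, Q (k *ᵥ v) = c * Q v) := by
  haveI := nonempty_of_two hι
  have hH' := hH.trans hQ.le_sim
  rcases Φ.field_cases hH' h hK.comm hs hK.inv (fun e => by
    have := hK.finrank_eq; rw [e] at this; simp at this) with ⟨K', a1, a2, -, -, a3⟩ | ⟨-, a1, a2⟩
  · exact Or.inl (Subalgebra.eq_of_le_of_finrank_le a1 (hK.finrank_eq ▸ one_lt_finrank a2) ▸ a3)
  obtain ⟨a, a3, a4⟩ : ∃ a ∈ K, ∀ v, Q v = Φ.f (a *ᵥ v) v := by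
    by_cases h2 : (2 : F) = 0
    · obtain ⟨a, b1, b2⟩ := Φ.exists_half_field h2 hs a1 a2
      exact ⟨a, b1, hQ.eq_of_qInv hι h2 hI hH (Φ.qInv_of_comm h2 hH' h hK.comm b1 b2)⟩
    · exact ⟨_, Subalgebra.smul_mem _ (one_mem _) _, hQ.eq_half h2⟩
  refine Or.inr ⟨a1, fun k hk => ?_⟩
  obtain ⟨c, hc⟩ := a2 _ (mul_mem (hs k hk) hk) (by rw [Φ.adj_mul, Φ.adj_adj])
  exact ⟨c, fun v => by
    rw [a4, a4, Φ.f_adj', mulVec_mulVec, mulVec_mulVec, hK.comm _ (hs k hk) a a3, mul_assoc, hc,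
      mul_smul_comm, mul_one, smul_mulVec, Φ.smul_left]⟩

theorem plus_of_sq [Fintype F] (h2 : (2 : F) ≠ 0) {m : ℕ} (hm : Fintype.card ι = 2 * (m + 1))
    (h : m % 2 = 1) {x : GL ι F} (h1 : x ∈ Φ.iso) (h3 : x * x = -1) : IsPlusTypeOn Q ⊤ := by
  haveI := nonempty_of_two (hm ▸ (by omega) : 2 ≤ Fintype.card ι)
  replace h3 : x.val * x.val = -1 := congrArg Units.val h3
  have a1 : Φ.adj x.val = -x.val := by
    rw [Φ.mem_iso_iff.1 h1, ← mul_one (x⁻¹).val, ← neg_neg 1, ← h3, mul_neg, ← mul_assoc,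
      Units.inv_mul, one_mul]
  have a2 : ∀ (c d : F) v, Q ((c • 1 + d • x.val) *ᵥ v) = (c ^ 2 + d ^ 2) * Q v := fun c d v => by
    have := Φ.f_adj' x.val v v
    rw [a1, neg_mulVec, Φ.neg_left, hQ.symm (_ *ᵥ _)] at this
    rw [add_mulVec, smul_mulVec, smul_mulVec, one_mulVec, hQ.comb,
      mem_isom.1 ((hQ.iso_eq h2).le h1), show Φ.f v (x.val *ᵥ v) = 0 from
        mul_left_cancel₀ h2 (by linear_combination this)]
    ring
  have a3 : ∀ c d c' d' : F, (c • 1 + d • x.val) * (c' • 1 + d' • x.val) =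
      (c * c' - d * d') • 1 + (c * d' + d * c') • x.val := fun c d c' d' => by
    simp only [add_mul, mul_add, smul_mul_assoc, mul_smul_comm, one_mul, mul_one, h3]
    module
  by_cases hi : IsSquare (-1 : F)
  · obtain ⟨i, hi⟩ := hi
    refine plus_of_half (Φ := Φ) (e := (2⁻¹ : F) • 1 + (2⁻¹ * i) • x.val) ?_ ?_ fun w => ?_
    · rw [a3]
      congr 2 <;> field_simp
      · linear_combination hi
      · ring
    · rw [Φ.adj_add, Φ.adj_smul, Φ.adj_smul, a1, Φ.adj_one, RingHom.id_apply, RingHom.id_apply]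
      match_scalars <;> field_simp <;> ring
    · rw [a2, show (2⁻¹ : F) ^ 2 + (2⁻¹ * i) ^ 2 = 0 by linear_combination -(2⁻¹ : F) ^ 2 * hi,
        zero_mul]
  have a4 : ∀ c d : F, c ^ 2 + d ^ 2 = 0 → c = 0 ∧ d = 0 := fun c d e => by
    by_cases hd : d = 0
    · exact ⟨by simpa [hd] using e, hd⟩
    · exact absurd ⟨c / d, by field_simp; linear_combination -e⟩ hi
  let l : (F × F) →ₗ[F] Matrix ι ι F :=
    (LinearMap.fst F F F).smulRight 1 + (LinearMap.snd F F F).smulRight x.val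
  refine (hQ.plus_unitary hm (K := l.range.toSubalgebra ⟨(1, 0), by simp [l]⟩ (by
    rintro _ _ ⟨p, rfl⟩ ⟨p', rfl⟩
    exact ⟨(_, _), (a3 _ _ _ _).symm⟩)) ⟨?_, ?_, ?_⟩ ?_).2 h
  · rintro _ ⟨p, rfl⟩ _ ⟨p', rfl⟩
    exact (a3 _ _ _ _).trans (Eq.trans (by congr 2 <;> ring) (a3 _ _ _ _).symm)
  · rintro _ ⟨⟨c, d⟩, rfl⟩ h0
    have : c ^ 2 + d ^ 2 ≠ 0 := fun e => h0 (by simp [l, a4 c d e])
    refine ⟨_, ⟨(c / (c ^ 2 + d ^ 2), -d / (c ^ 2 + d ^ 2)), rfl⟩, (a3 _ _ _ _).trans ?_⟩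
    match_scalars <;> field_simp <;> ring
  · refine (LinearMap.finrank_range_of_inj ((injective_iff_map_eq_zero l).2 fun ⟨c, d⟩ e => ?_)).trans
      (by simp)
    have := a3 c d c (-d)
    rw [show c • 1 + d • x.val = 0 from e, zero_mul, show c * -d + d * c = 0 by ring, zero_smul,
      add_zero, eq_comm, smul_eq_zero, or_iff_left one_ne_zero] at this
    simpa using a4 c d (by linear_combination this)
  · rintro _ ⟨p, rfl⟩
    exact ⟨_, a2 _ _⟩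

omit hQ in
theorem plus_of_two {φ : Matrix (Fin 2) (Fin 2) F →ₐ[F] Matrix ι ι F}
    (h1 : ∀ a, φ a.adjugate = Φ.adj (φ a)) {x} (h3 : ∀ v, Q v = Φ.f (φ x *ᵥ v) v) {b}
    (h4 : b + Φ.adj b = 1) (h5 : ∀ a, φ a * b = b * φ a) (h6 : Φ.ε = 1) : IsPlusTypeOn Q ⊤ := by
  refine plus_of_half (Φ := Φ) (e := φ !![1, 0; 0, 0]) (by rw [← map_mul, mul_fin_two]; simp) (by
    rw [← h1, ← map_add, ← map_one φ, one_fin_two]; simp) fun w => ?_
  rw [h3, Φ.f_adj', ← h1, mulVec_mulVec, mulVec_mulVec, ← map_mul, ← map_mul,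
    show adjugate !![(1 : F), 0; 0, 0] * x * !![1, 0; 0, 0] = x 1 0 • !![0, 0; 1, 0] by
      ext i j; fin_cases i <;> fin_cases j <;> simp [mul_apply, vecMul, dotProduct],
    map_smul, smul_mulVec, Φ.smul_left]
  have a1 : Φ.adj (φ !![0, 0; 1, 0]) = -φ !![0, 0; 1, 0] := by rw [← h1, ← map_neg]; simp
  have := Φ.f_adj' (b * φ !![0, 0; 1, 0]) w w
  rw [← h5, Φ.adj_mul, eq_sub_of_add_eq' h4, a1, Φ.symm' h6, mul_neg, sub_mul, ← h5, one_mul,
    neg_sub, sub_mulVec, Φ.sub_left] at this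
  rw [show Φ.f (φ !![0, 0; 1, 0] *ᵥ w) w = 0 by linear_combination this, mul_zero]

end QF

end H27.Asch
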