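import Cfsg.Agent.H27.Asch29

/-! Aschbacher's theorem, part 30: the even-dimensional orthogonal tables. -/

set_option autoImplicit false

namespace H27.Asch

open Matrix Cfsg Cfsg.Geo Module
open scoped Kronecker

variable {ι : Type} [Fintype ι] [DecidableEq ι] {F : Type*} [Field F] {H : Subgroup (GL ι F)}

theorem omegaGL_le_SL (Q : (ι → F) → F) : omegaGL Q ≤ specialLinear ι F :=
  omegaGL_eq Q ▸ Subgroup.commutator_le.2 fun a _ b _ => mem_SL.2 (congrArg Units.val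
    ((map_commutatorElement GeneralLinearGroup.det a b).trans
      (commutatorElement_eq_one_iff_mul_comm.2 (mul_comm _ _))))

theorem not_between {Q : QuadraticForm F (ι → F)} (hH : IsMaximalIn (omegaGL Q) H) {M}
    (h : H ≤ M.comap (H12.glHom ι F)) : ¬ ∃ K, M ⊓ H12.OmegaV Q < K ∧ K < H12.OmegaV Q := fun e => by
  obtain ⟨K, a, b⟩ := H12.exists_between_comap (H12.glEquiv ι F) e
  rw [Subgroup.comap_inf, ← H12.omegaGL_eq] at a
  rw [← H12.omegaGL_eq] at b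
  exact (hH.2 K ((le_inf h hH.1.le).trans a.le) b.le).elim
    (fun e => a.not_ge (e ▸ le_inf h hH.1.le)) b.ne

variable [Fintype F]

/-- the refined list of geometric maximal subgroups of `Ω^±_{2m}(q)` -/
def OeE (m : ℕ) (Q : (ι → F) → F) (H : Subgroup (GL ι F)) : Prop :=
  let f := QuadraticMap.polar Q
  let q := Fintype.card F
  (∃ W, W ≠ ⊥ ∧ IsTotallySingularQuad Q W ∧ (IsPlusTypeOn Q ⊤ → finrank F W + 1 ≠ m) ∧
    H = subspaceStabilizer W ⊓ omegaGL Q) ∨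
  (Odd q ∧ ∃ W : Submodule F _, W ≠ ⊥ ∧ W ≠ ⊤ ∧ Odd (finrank F W) ∧ 2 * finrank F W ≠ 2 * m ∧
    IsNondegenerateOn f W ∧ H = subspaceStabilizer W ⊓ omegaGL Q) ∨
  (∃ W : Submodule F _, finrank F W = 2 ∧ IsNondegenerateOn f W ∧ ¬ IsPlusTypeOn Q W ∧
    H = subspaceStabilizer W ⊓ omegaGL Q) ∨
  (4 ≤ q ∧ ∃ W : Submodule F _, finrank F W = 2 ∧ IsNondegenerateOn f W ∧ IsPlusTypeOn Q W ∧
    H = subspaceStabilizer W ⊓ omegaGL Q) ∨
  (∃ W : Submodule F _, finrank F W = 4 ∧ IsNondegenerateOn f W ∧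
    H = subspaceStabilizer W ⊓ omegaGL Q) ∨
  (m = 6 ∧ ¬ IsPlusTypeOn Q ⊤ ∧ ∃ W : Submodule F _, finrank F W = 6 ∧ IsNondegenerateOn f W ∧
    H = subspaceStabilizer W ⊓ omegaGL Q) ∨
  (¬ Odd q ∧ ∃ v, Q v ≠ 0 ∧ H = subspaceStabilizer (Submodule.span F {v}) ⊓ omegaGL Q) ∨
  (∃ (t k : ℕ) (D : Fin t → Submodule F _), 2 * m = t * k ∧ 2 ≤ t ∧ (k = 1 → q.Prime) ∧
    (k % 2 = 1 → q % 2 = 1 ∧ (IsPlusTypeOn Q ⊤ ↔ m % 2 = 0 ∨ q % 4 = 1)) ∧
    (k % 2 = 0 → ∀ i, IsPlusTypeOn Q ⊤ ↔ t % 2 = 0 ∨ IsPlusTypeOn Q (D i)) ∧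
    (k = 2 → q ≠ 3 ∧ ∀ i, IsPlusTypeOn Q (D i) → 7 ≤ q) ∧ (k = 3 → 5 ≤ q) ∧
    (k = 4 → ∀ i, IsPlusTypeOn Q (D i) → 3 ≤ q) ∧ IsOrthogonalMDecomposition Q k D ∧
    H = decompositionStabilizer D ⊓ omegaGL Q) ∨
  (m = 5 ∧ q % 2 = 1 ∧ (IsPlusTypeOn Q ⊤ ↔ q % 4 ≠ 1) ∧ ∃ D : Fin 2 → Submodule F _,
    IsNondegenerateMDecomposition f 5 D ∧ ¬ AreIsometricFor Q (D 0) (D 1) ∧
    H = decompositionStabilizer D ⊓ omegaGL Q) ∨
  (m = 6 ∧ IsPlusTypeOn Q ⊤ ∧ ∃ D : Fin 2 → Submodule F _, IsMDecomposition 6 D ∧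
    (∀ i, IsTotallySingularQuad Q (D i)) ∧ H = decompositionStabilizer D ⊓ omegaGL Q) ∨
  (m ≠ 5 ∧ ∃ K : Subalgebra F _, IsFieldSubalgebra 2 K ∧ H = subalgebraNormalizer K ⊓ omegaGL Q) ∨
  (m = 6 ∧ ∃ K : Subalgebra F _, IsFieldSubalgebra 3 K ∧ H = subalgebraNormalizer K ⊓ omegaGL Q) ∨
  (m = 5 ∧ Odd q ∧ ∃ K : Subalgebra F _, IsFieldSubalgebra 2 K ∧ IsSelfAdjointFor f K ∧
    H = subalgebraNormalizer K ⊓ omegaGL Q) ∨
  (m = 5 ∧ ¬ IsPlusTypeOn Q ⊤ ∧ ∃ K : Subalgebra F _, IsFieldSubalgebra 2 K ∧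
    IsAdjointClosedFor f K ∧ ¬ IsSelfAdjointFor f K ∧ (∀ k ∈ K, ∃ c, ∀ v, Q (k *ᵥ v) = c * Q v) ∧
    H = subalgebraNormalizer K ⊓ omegaGL Q) ∨
  (m = 6 ∧ IsPlusTypeOn Q ⊤ ∧ 3 ≤ q ∧ ∃ (e : ι ≃ Fin 2 × Fin 6) (P : GL ι F)
    (f₁ : (Fin 2 → F) → (Fin 2 → F) → F) (f₂ : (Fin 6 → F) → (Fin 6 → F) → F), IsSymplecticForm f₁ ∧
    IsSymplecticForm f₂ ∧ IsTensorFormStructure id f f₁ f₂ e P ∧ (∀ (x₁ : Fin 2 → F) (x₂ : Fin 6 → F),
      Q (P.val *ᵥ ((fun a : Fin 2 × Fin 6 => x₁ a.1 * x₂ a.2) ∘ e)) = 0) ∧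
    H = tensorProductSubgroup 2 6 e P ⊓ omegaGL Q) ∨
  (m = 6 ∧ ¬ IsPlusTypeOn Q ⊤ ∧ Odd q ∧ 5 ≤ q ∧ ∃ (e : ι ≃ Fin 3 × Fin 4) (P : GL ι F)
    (f₁ : (Fin 3 → F) → (Fin 3 → F) → F) (f₂ : (Fin 4 → F) → (Fin 4 → F) → F), IsSymmetricForm f₁ ∧
    IsSymmetricForm f₂ ∧ ¬ IsPlusTypeOn (fun v => f₂ v v) ⊤ ∧ IsTensorFormStructure id f f₁ f₂ e P ∧
    H = tensorProductSubgroup 3 4 e P ⊓ omegaGL Q) ∨
  (∃ (F₀ : Subfield F) (r : ℕ) (P : GL ι F) (ζ : F), r.Prime ∧ (¬ IsPlusTypeOn Q ⊤ → Odd r) ∧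
    q = Nat.card F₀ ^ r ∧ ζ ≠ 0 ∧ IsQuadFormRationalStructure (fun v => ζ * Q v) F₀ P ∧
    H = subfieldSubgroup F₀ P ⊓ omegaGL Q)

/-- the standing hypotheses -/
structure OeH (m : ℕ) (Q : QuadraticForm F (ι → F)) (Φ : Frm ι (RingHom.id F))
    (H : Subgroup (GL ι F)) : Prop where
  qf : QF Q Φ
  nd : H12.QNondeg Q
  card : Fintype.card ι = 2 * m
  four : 4 ≤ m
  six : m ≤ 6
  minus : m = 4 → ¬ IsPlusTypeOn Q ⊤
  max : IsMaximalIn (omegaGL Q) H

namespace OeH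

variable {m : ℕ} {Q : QuadraticForm F (ι → F)} {Φ : Frm ι (RingHom.id F)} (h : OeH m Q Φ H)
include h

theorem card' : Fintype.card ι = 2 * (m - 1 + 1) := by have := h.card; have := h.four; omega

theorem two : 2 ≤ Fintype.card ι := by have := h.card; have := h.four; omega

theorem five : 5 ≤ finrank F (ι → F) := by
  have := h.card; have := h.four; rw [finrank_fintype_fun_eq_card]; omega

theorem qs : QS (omegaGL Q) := h.qf.qs h.card' (by have := h.four; omega)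

theorem le : H ≤ isometryGroup F Q := h.max.1.le.trans (omegaGL_le _)

theorem le' : H ≤ similarityGroup Φ.f := h.le.trans h.qf.le_sim

theorem alt (h2 : (2 : F) = 0) (v : ι → F) : Φ.f v v = 0 := by rw [h.qf.two, h2, zero_mul]

theorem dec {t k : ℕ} {D : Fin t → Submodule F (ι → F)} (hD : IsOrthogonalMDecomposition Q k D)
    (h1 : k = 1 → (Fintype.card F).Prime) (h2 : H ≤ decompositionStabilizer D) : OeE m Q H := by
  have a1 := h.card.symm.trans (card_eq_of_decomp hD.decomp.decomp)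
  have a2 := hD.decomp.decomp.two_le
  have a3 := hD.decomp.decomp.finrank_eq
  have a4 := H12.orthDec_of_geo (H12.CForm.ofQuad Q) (Or.inl fun _ _ => rfl) hD.decomp
    fun i j => H12.quad_iso_iff.2 (hD.isometric i j)
  haveI : Nontrivial (Fin t) := Fin.nontrivial_iff_two_le.2 a2
  have a5 := not_between h.max (H12.decompositionStabilizer_eq D ▸ h2)
  have a6 : 1 < Fintype.card F := Fintype.one_lt_card
  have a7 : k % 2 = 1 → (2 : F) ≠ 0 := fun e h0 => by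
    have := Nat.even_iff.1 (Φ.even_of_nondeg (h.alt h0)
      (h.qf.polar ▸ hD.decomp.nondegenerate ⟨0, by omega⟩))
    rw [a3] at this
    omega
  iterate 7 right
  refine Or.inl ⟨t, k, D, a1, a2, h1, fun e => ⟨Nat.odd_iff.1 (odd_card_of_two_ne (a7 e)),
    h.qf.plus_odd (a7 e) h.card hD ?_⟩, h.qf.plus_even hD, ?_, ?_, ?_, hD,
    eq_inf_of_max h.max h2 (h.qs.not_dec hD.decomp.decomp)⟩
  · have := congrArg (· % 2) a1
    simp only [Nat.mul_mod_right, Nat.mul_mod t, e] at this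
    omega
  · rintro rfl
    have b1 : Fintype.card F ≠ 3 := fun e => a5 (H12.quad_between_f3_two h.nd e h.five a4 a3)
    refine ⟨b1, fun i hi => ?_⟩
    have b2 : ∀ j, ∃ u ∈ D j, u ≠ 0 ∧ Q u = 0 := fun j => by
      obtain ⟨U, c1, c2, c3⟩ := plus_congr (hD.isometric i j) hi
      obtain ⟨u, hu, hu0⟩ := Submodule.exists_mem_ne_zero_of_ne_bot
        (H12.ne_bot_of_finrank_pos (W := U) (by have := a3 j; omega))
      exact ⟨u, c1 hu, hu0, c2 u hu⟩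
    have b3 : ¬ (Fintype.card F = 2 ∨ Fintype.card F = 4) := fun e =>
      a5 (H12.quad_between_char2_plus h.nd e h.five (by have := h.four; simp; omega) a4 a3 b2)
    obtain ⟨u, c1, c2, c3⟩ := b2 i
    have b4 : Fintype.card F ≠ 5 := fun e => a5 (H12.quad_between_f5 h.nd e h.five a4 a3 c1 c2 c3)
    have := card_ne_six (F := F)
    omega
  · rintro rfl
    exact five_le_card (odd_card_of_two_ne (a7 rfl)) fun e =>
      a5 (H12.quad_between_f3_three h.nd e h.five a4 a3)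
  · rintro rfl i hi
    refine lt_of_le_of_ne a6 fun e => a5 (H12.quad_between_f2_four h.nd e.symm h.five a4 a3 fun j => ?_)
    obtain ⟨U, c1, c2, c3⟩ := plus_congr (hD.isometric i j) hi
    exact ⟨U, c1, c2, by have := a3 j; omega⟩

theorem red (hI : ¬ Irr H) : OeE m Q H := by
  haveI := nonempty_of_two h.two
  have a1 := h.card
  have a2 := h.four
  have a3 := h.six
  rcases h.qf.red_cases h.le hI with ⟨W, a, b, c⟩ | ⟨W, a, b, c, d⟩ | ⟨a, v, b, c⟩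
  · refine Or.inl ⟨W, a, b, fun ⟨U, _, d1, d2⟩ e => not_between h.max
      (H12.subspaceStabilizer_eq W ▸ c) (H12.quad_between_ts h.nd h.five ((H12.ts_quad_iff Q).2 b)
        ⟨(H12.ts_quad_iff Q).2 d1, by rw [d2, finrank_top]⟩ (by simp [a1, e])),
      eq_inf_of_max h.max c (h.qs.not_sub a ?_)⟩
    rintro rfl
    obtain ⟨u, v, e⟩ := Φ.exists_ne
    exact e (h.qf.ts_for b u trivial v trivial)
  swap
  · iterate 6 right
    refine Or.inl ⟨not_odd_card a, v, b, eq_inf_of_max h.max c (h.qs.not_sub ?_ fun e => ?_)⟩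
    · rw [Ne, Submodule.span_singleton_eq_bot]
      rintro rfl
      exact b h.qf.zero
    · have := finrank_span_le_card (R := F) ({v} : Set (ι → F))
      rw [e, finrank_top, finrank_fintype_fun_eq_card] at this
      simp at this
      omega
  wlog h1 : finrank F W ≤ m generalizing W with key
  · have := Φ.finrank_perp W
    refine key _ (fun e => b ?_) (fun e => a ?_) (Φ.nondegOn_perp c) (Φ.stab_perp h.le' d) (by omega)
    · rw [e] at this
      exact Submodule.eq_top_of_finrank_eq (by simpa using this)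
    · rw [e, finrank_top, finrank_fintype_fun_eq_card] at this
      exact Submodule.finrank_eq_zero.1 (by omega)
  have e1 := eq_inf_of_max h.max d (h.qs.not_sub a b)
  have e2 : finrank F W ≠ 0 := fun e => a (Submodule.finrank_eq_zero.1 e)
  have e3 := h.qf.polar ▸ c
  have e4 : finrank F W % 2 = 1 → (2 : F) ≠ 0 := fun e h0 => by
    have := Nat.even_iff.1 (Φ.even_of_nondeg (h.alt h0) c)
    omega
  by_cases h2 : finrank F W % 2 = 1 ∧ finrank F W ≠ m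
  · exact Or.inr (Or.inl ⟨odd_card_of_two_ne (e4 h2.1), W, a, b, Nat.odd_iff.2 h2.1, by omega, e3, e1⟩)
  by_cases h3 : finrank F W = 2
  · by_cases h4 : IsPlusTypeOn Q W
    swap
    · exact Or.inr (Or.inr (Or.inl ⟨W, h3, e3, h4, e1⟩))
    refine Or.inr (Or.inr (Or.inr (Or.inl ⟨?_, W, h3, e3, h4, e1⟩)))
    obtain ⟨U, c1, c2, c3⟩ := h4
    obtain ⟨u, hu, hu0⟩ := Submodule.exists_mem_ne_zero_of_ne_bot
      (H12.ne_bot_of_finrank_pos (W := U) (by omega))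
    exact lt_of_not_ge fun e => not_between h.max (H12.subspaceStabilizer_eq W ▸ d)
      (H12.quad_between_plane h.nd e (by simp; omega)
        (H12.nondegOn_of_geo _ (Or.inl fun _ _ => rfl) e3) h3 (c1 hu) hu0 (c2 u hu))
  by_cases h4 : finrank F W = 4
  · exact Or.inr (Or.inr (Or.inr (Or.inr (Or.inl ⟨W, h4, e3, e1⟩))))
  have b1 := Φ.pair_decomp c a (by omega)
  have b2 := le_pair_stab (inv_of_le_stab d) (inv_of_le_stab (Φ.stab_perp h.le' d))
  by_cases h5 : AreIsometricFor Q W (Φ.perp W)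
  · refine h.dec ⟨h.qf.polar ▸ b1, fun i j => ?_⟩ (by omega) b2
    obtain ⟨e, he⟩ := h5
    fin_cases i <;> fin_cases j
    exacts [⟨.refl _ _, fun _ => rfl⟩, ⟨e, he⟩,
      ⟨e.symm, fun w => (he _).symm.trans (congrArg (Q ·.1) (e.apply_symm_apply w))⟩, ⟨.refl _ _, fun _ => rfl⟩]
  by_cases h6 : m = 6
  · iterate 5 right
    exact Or.inl ⟨h6, fun e => h5 (h.qf.isometric_even b1 (by omega) e), W, by omega, e3, e1⟩
  have h7 : finrank F W = 5 := by omega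
  have h8 := e4 (by omega)
  iterate 8 right
  refine Or.inl ⟨by omega, Nat.odd_iff.1 (odd_card_of_two_ne h8),
    (h.qf.plus_odd' h8 a1 b1 h5).trans (by omega), _, h7 ▸ h.qf.polar ▸ b1, h5,
    eq_inf_of_max h.max b2 (h.qs.not_dec b1.decomp)⟩

theorem rat (hI : Irr H) {F₀ : Subfield F} (h0 : F₀ ≠ ⊤) (h1 : ∀ F₁ ≥ F₀, ∃ (P : GL ι F) (ζ : F),
    ζ ≠ 0 ∧ H ≤ subfieldSubgroup F₁ P ∧ ∀ i j, ζ * Φ.gr P i j ∈ F₁) : OeE m Q H := by
  obtain ⟨F₁, r, a1, hr, a2⟩ := exists_maximal_subfield h0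
  obtain ⟨P, ζ, a3, a4, a5⟩ := h1 F₁ a1
  rw [Nat.card_eq_fintype_card] at a2
  have a6 := h.qf.rational h.two h.le hI a3 a4 a5
  iterate 16 right
  exact ⟨F₁, r, P, ζ, hr, fun e => hr.odd_of_ne_two fun d =>
    e (h.qf.plus_subfield h.card' (d ▸ a2) a3 a6), a2, a3, a6,
    eq_inf_of_max h.max a4 (h.qs.not_subfield' hr a2 P)⟩

theorem comm' (hI : Irr H) {K : Subalgebra F (Matrix ι ι F)} (hK : Inv H K) (hc : Comm K)
    (hs : Φ.St K) (h0 : (∀ x ∈ K, x ≠ 0 → ∃ y ∈ K, x * y = 1) →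
      2 ∣ finrank F K ∨ m = 6 ∧ 3 ∣ finrank F K) : OeE m Q H := by
  haveI := nonempty_of_two h.two
  have a1 := h.card
  have a2 := h.four
  have a3 := h.six
  rcases Φ.comm_cases hI h.le' hK hc hs with ⟨t, e, h1, h3, h4⟩ | ⟨e, h1⟩ | hi
  · have h5 := h.qf.orth_decomp h.le h3 h1 h4 ⟨0, by omega⟩
    by_cases h6 : finrank F (rg (e ⟨0, by omega⟩)) = 1
    · rcases card_prime_or (F := F) with hp | hp
      · exact h.dec h5 (fun _ => hp) h3.le_stab
      · exact h.rat hI hp fun F₁ _ => h.qf.rational_one h.le h3 h1 h4 h6 F₁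
    · exact h.dec h5 (fun e => absurd e h6) h3.le_stab
  · have b1 := h1.decomp le_rfl 0
    have b2 := card_eq_of_decomp b1
    have b3 := h.qf.ts_pair h.two hI h.le h1
    rw [show finrank F (rg (![e, Φ.adj e] 0)) = m by omega] at b1
    have b4 : IsPlusTypeOn Q ⊤ := ⟨_, le_top, b3 0, by rw [b1.finrank_eq 0]; simp [a1]⟩
    have b5 : ¬ Odd m := fun d => not_between h.max
      (h1.le_stab.trans (H12.decompositionStabilizer_eq _).le) (H12.quad_between_lags h.nd h.five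
        (fun i => ⟨(H12.ts_quad_iff Q).2 (b3 i), by simp [b1.finrank_eq, a1]⟩)
        (b1.indep.pairwiseDisjoint (by simp)) (by rwa [b1.finrank_eq]))
    obtain rfl : m = 6 := by
      have : m ≠ 4 := fun d => h.minus d b4
      rw [Nat.odd_iff] at b5
      omega
    iterate 9 right
    exact Or.inl ⟨rfl, b4, _, b1, b3, eq_inf_of_max h.max h1.le_stab (h.qs.not_dec b1)⟩
  rcases h0 hi with d | ⟨rfl, d⟩
  swap
  · obtain ⟨L, b1, b2⟩ := exists_subfield_degree hc hi d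
    iterate 11 right
    exact Or.inl ⟨rfl, L, b1,
      eq_inf_of_max h.max (hK.of_pow b2).le_normalizer (h.qs.not_field Nat.prime_three b1)⟩
  obtain ⟨L, b1, b2⟩ := exists_subfield_degree hc hi d
  have b3 := eq_inf_of_max h.max (hK.of_pow b2).le_normalizer (h.qs.not_field Nat.prime_two b1)
  iterate 10 right
  by_cases h5 : m = 5
  swap
  · exact Or.inl ⟨h5, L, b1, b3⟩
  iterate 2 right
  rcases h.qf.deg_two h.two hI h.le b1 (hK.of_pow b2) (hs.of_pow b2) with b4 | ⟨⟨a, b4, b5⟩, b6⟩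
  · refine Or.inl ⟨h5, odd_card_of_two_ne fun h2 => ?_, L, b1, h.qf.polar ▸ Φ.selfAdj_iff.2 b4, b3⟩
    have := Φ.field_alt_dvd b1 b4 fun k hk v => by
      obtain ⟨N, hN⟩ := exists_sq_field h2 two_ne_zero ((b2 k).1 hk).2
      rw [← hN, ← mulVec_mulVec, Φ.f_adj, b4 _ (pow_mem hk N), h.alt h2]
    omega
  · exact Or.inr (Or.inl ⟨h5, fun e => by have := (h.qf.plus_unitary h.card' b1 b6).1 e; omega, L, b1,
      h.qf.polar ▸ (hs.of_pow b2).adjClosed,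
      fun e => b5 (Φ.selfAdj_iff.1 (h.qf.polar ▸ e) a b4), b6, b3⟩)

theorem comm (hI : Irr H) {K : Subalgebra F (Matrix ι ι F)} (hK : Inv H K) (hc : Comm K)
    (hs : Φ.St K) (h0 : K ≠ ⊥) : OeE m Q H := by
  haveI := nonempty_of_two h.two
  have a2 := h.four
  have a3 := h.six
  have key : ∀ K : Subalgebra F (Matrix ι ι F), Comm K → K ≠ ⊥ →
      (∀ x ∈ K, x ≠ 0 → ∃ y ∈ K, x * y = 1) →
      (2 ∣ finrank F K ∨ m = 6 ∧ 3 ∣ finrank F K) ∨ m = 5 ∧ finrank F K = 5 := fun K a b c => by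
    have b1 := finrank_dvd_of_field a c
    have b2 := one_lt_finrank b
    rw [h.card] at b1
    have b3 := Nat.le_of_dvd (by omega) b1
    generalize finrank F K = r at *
    have : r ≤ 12 := by omega
    interval_cases m <;> interval_cases r <;> simp_all
  by_cases h1 : ∀ x ∈ K, x ≠ 0 → ∃ y ∈ K, x * y = 1
  swap
  · exact h.comm' hI hK hc hs fun e => absurd e h1
  rcases Φ.field_cases h.le' hK hc hs h1 h0 with ⟨K', c1, c2, c3, c4, c5⟩ | ⟨c1, -⟩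
  swap
  · exact h.comm' hI hK hc hs fun _ => Or.inl c1.finrank_eq.symm.dvd
  have c6 : Comm K' := fun x hx y hy => hc x (c1 hx) y (c1 hy)
  rcases key K' c6 c2 c4 with b | ⟨rfl, b⟩
  · exact h.comm' hI c3 c6 (fun k hk => (c5 k hk).symm ▸ hk) fun _ => b
  obtain ⟨L, d1, d2, d3, d4, a, d5, d6⟩ := exists_line_alg ⟨c6, c4, b⟩ h.card c5 h.qf h.le c3
  refine h.comm' hI d1 d2 d3 fun d =>
    (key L d2 (fun e => c2 (le_bot_iff.1 (e ▸ d4))) d).resolve_right ?_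
  rintro ⟨-, e⟩
  exact d6 (c5 a (Subalgebra.eq_of_le_of_finrank_eq d4 (b.trans e.symm) ▸ d5))

theorem alt_pair {φ : Matrix (Fin 2) (Fin 2) F →ₐ[F] Matrix ι ι F}
    {ψ : Matrix (Fin m) (Fin m) F →ₐ[F] Matrix ι ι F} (hc : ∀ a b, φ a * ψ b = ψ b * φ a)
    (ht : φ.range ⊔ ψ.range = ⊤) (h1 : Inv H φ.range) (h2 : Inv H ψ.range)
    {Ψ₁ : Frm (Fin 2) (RingHom.id F)} {Ψ₂ : Frm (Fin m) (RingHom.id F)}
    (h3 : ∀ a, φ (Ψ₁.adj a) = Φ.adj (φ a)) (h4 : ∀ a, ψ (Ψ₂.adj a) = Φ.adj (ψ a))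
    (h5 : ∀ v, Ψ₁.f v v = 0) (h6 : ∀ v, Ψ₂.f v v = 0) {x} (h7 : ∀ v, Q v = Φ.f (φ x *ᵥ v) v)
    (h8 : 3 ≤ Fintype.card F) : OeE m Q H := by
  haveI := nonempty_of_two h.two
  have a2 := h.four
  have a3 := h.six
  haveI : NeZero m := ⟨by omega⟩
  obtain ⟨e, P, he⟩ := exists_tensor₂ φ ψ hc ht
  obtain ⟨c, hc', b1⟩ := (Frm.tensor_structure ht he _ h3 h4).1
  have b2 : ∀ (x₁ : Fin 2 → F) (x₂ : Fin m → F),
      Q (P.val *ᵥ ((fun a : Fin 2 × Fin m => x₁ a.1 * x₂ a.2) ∘ e)) = 0 :=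
    fun x₁ x₂ => by
      rw [h7, ← mul_one (φ x), ← map_one ψ, he, tr_mulVec, kron_pure, b1,
        formOfGram_eq, prod_f_pure, Ψ₂.gram]
      exact mul_eq_zero_of_right _ (mul_eq_zero_of_right _ (h6 _))
  have b3 : IsPlusTypeOn Q ⊤ := by
    let l : (Fin m → F) →ₗ[F] (ι → F) := (toLin' P.val).comp (LinearMap.pi fun i =>
      (Pi.single 0 1 : Fin 2 → F) (e i).1 • LinearMap.proj (e i).2)
    refine ⟨l.range, le_top, ?_, ?_⟩
    · rintro _ ⟨y, rfl⟩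
      exact b2 _ y
    · rw [LinearMap.finrank_range_of_inj ((injective_iff_map_eq_zero l).2 fun y hy => funext fun i => by
        simpa using congrFun ((mulVec_eq_zero_iff P).1 hy) (e.symm (0, i)))]
      simp [h.card]
  obtain rfl : m = 6 := by
    have : m ≠ 4 := fun d => h.minus d b3
    have := Nat.even_iff.1 (Ψ₂.alt_even h6)
    rw [Fintype.card_fin] at this
    omega
  iterate 14 right
  exact Or.inl ⟨rfl, b3, h8, e, P, _, _, Ψ₁.isSymplectic h5, Ψ₂.isSymplectic h6,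
    h.qf.polar ▸ ⟨c, hc', b1⟩, b2,
    eq_inf_of_max h.max (le_tensor₂ hc ht he h1 h2) (h.qs.not_tensor le_rfl (by decide) e P)⟩

theorem alt_pair' (h0 : (2 : F) ≠ 0) {φ : Matrix (Fin 2) (Fin 2) F →ₐ[F] Matrix ι ι F}
    {ψ : Matrix (Fin m) (Fin m) F →ₐ[F] Matrix ι ι F} (hc : ∀ a b, φ a * ψ b = ψ b * φ a)
    (ht : φ.range ⊔ ψ.range = ⊤) (h1 : Inv H φ.range) (h2 : Inv H ψ.range)
    {Ψ₁ : Frm (Fin 2) (RingHom.id F)} (h3 : ∀ a, φ (Ψ₁.adj a) = Φ.adj (φ a)) (h4 : Φ.St ψ.range)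
    (h5 : ∀ v, Ψ₁.f v v = 0) : OeE m Q H := by
  haveI := nonempty_of_two h.two
  haveI : NeZero m := ⟨by have := h.four; omega⟩
  obtain ⟨Ψ₂, h6⟩ := Φ.exists_factor ψ h4
  obtain ⟨e, P, he⟩ := exists_tensor₂ φ ψ hc ht
  obtain ⟨-, c, hc', b1⟩ := Frm.tensor_structure ht he _ h3 h6
  rw [h.qf.ε, Ψ₁.ε_eq_of_alt h5] at b1
  refine h.alt_pair hc ht h1 h2 h3 h6 h5 (Ψ₂.alt_of_skew (by
    linear_combination mul_left_cancel₀ hc' b1) h0) (x := (2 : F)⁻¹ • 1)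
    (by simpa only [map_smul, map_one] using h.qf.eq_half h0) ?_
  have := Nat.odd_iff.1 (odd_card_of_two_ne h0)
  have : 1 < Fintype.card F := Fintype.one_lt_card
  omega

theorem pair (hC : CPrim H) {k l : ℕ} {φ : Matrix (Fin k) (Fin k) F →ₐ[F] Matrix ι ι F}
    {ψ : Matrix (Fin l) (Fin l) F →ₐ[F] Matrix ι ι F} (hp : TPair H φ ψ) : OeE m Q H := by
  wlog hkl : k ≤ l generalizing k l with key
  · exact key hp.symm (by omega)
  haveI := nonempty_of_two h.two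
  have a1 := h.card.symm.trans hp.card
  have a2 := h.four
  have a3 := h.six
  have a4 := hp.hk
  haveI : NeZero k := ⟨by omega⟩
  haveI : NeZero l := ⟨by omega⟩
  obtain ⟨Ψ₁, b1⟩ := Φ.exists_factor φ (hp.st₁ _ _ h.le')
  have c1 := hC.proj hp.inv₁ hp.st₁
  have c2 := proj_le_sim h.le' b1
  by_cases hk : k = 2
  · subst hk
    obtain rfl : m = l := by omega
    by_cases h2 : (2 : F) = 0
    swap
    · exact h.alt_pair' h2 hp.comm hp.top hp.inv₁ hp.inv₂ b1 (hp.st₂ _ _ h.le') (c1.alt_two c2)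
    obtain ⟨Ψ₂, b2⟩ := Φ.exists_factor ψ (hp.st₂ _ _ h.le')
    obtain ⟨x, -, b3, -⟩ := hp.qInv h2 hC.irr h.le'
    refine h.alt_pair hp.comm hp.top hp.inv₁ hp.inv₂ b1 b2 (c1.alt_two c2) (Ψ₂.alt_of_irr (by
      simp; omega) h2 (irr_proj hC.irr hp.inv₂) (proj_le_sim h.le' b2))
      (h.qf.eq_of_qInv h.two h2 hC.irr h.le b3) (not_lt.1 fun d => ?_)
    haveI := solvable_gl2 (F := F) (by omega)
    obtain ⟨R, E⟩ := c1.egood_of_solvable (by simpa using Nat.prime_two) (fun g _ => Frm.J2_sim g)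
      (solvable_of_solvable_injective (Subgroup.inclusion_injective le_top))
    rw [Fintype.card_fin] at E
    exact E.two_ne h2
  obtain ⟨rfl, rfl, rfl⟩ : k = 3 ∧ l = 4 ∧ m = 6 := by
    obtain rfl : k = 3 := by
      have : k * k ≤ k * l := Nat.mul_le_mul_left _ hkl
      have : k < 4 := by nlinarith
      omega
    omega
  have h2 : (2 : F) ≠ 0 := fun h2 => by
    simpa using Nat.even_iff.1 (Ψ₁.alt_even (Ψ₁.alt_of_irr (by simp) h2 c1.irr c2))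
  obtain ⟨Ψ₂, b2⟩ := Φ.exists_factor ψ (hp.st₂ _ _ h.le')
  obtain ⟨e, P, he⟩ := exists_tensor₂ φ ψ hp.comm hp.top
  obtain ⟨⟨c, hc, b3⟩, d, hd, b4⟩ := Frm.tensor_structure hp.top he _ b1 b2
  have b5 := Ψ₁.ε_odd h2 (by simp; decide)
  rw [h.qf.ε, b5, one_mul] at b4
  replace b4 := (mul_left_cancel₀ hd b4).symm
  have b6 : IsPlusTypeOn Q ⊤ ↔ IsPlusTypeOn (fun v => Ψ₂.f v v) ⊤ := by
    obtain ⟨Ψ, d1⟩ := exists_qF (Ψ₂.isQuad b4 h2)
    rw [h.qf.plus_iff_det h2 h.card (((Pi.basisFun F ι).map (H11.glEquiv P)).reindex e),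
      d1.plus_iff_det h2 (m := 2) rfl (Pi.basisFun F _),
      show (of fun i j => _) = c • Ψ₁.G.val ⊗ₖ Ψ₂.G.val from Matrix.ext fun i j => by
        have : ∀ i, Pi.single (e.symm i) (1 : F) = Pi.single i 1 ∘ e := fun i => funext fun k => by
          simp [Pi.single_apply, Equiv.eq_symm_apply]
        simp only [of_apply, Basis.reindex_apply, Basis.map_apply, Pi.basisFun_apply, this]
        refine (b3 _ _).trans ?_
        rw [formOfGram_eq, fG_single, Ψ₁.gram, Ψ₂.gram]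
        rfl,
      show (of fun i j => _) = (2 : F) • Ψ₂.G.val from Matrix.ext fun i j => by
        rw [of_apply, ← d1.polar, Ψ₂.polar_diag b4, Pi.basisFun_apply, Pi.basisFun_apply, Frm.f,
          fG_single]
        rfl, det_smul, det_smul, det_kronecker]
    have d2 := Ψ₁.G.det_ne_zero
    have d3 := Ψ₂.G.det_ne_zero
    simp only [← H12.qsign_eq_one, Fintype.card_prod, Fintype.card_fin, ne_eq, mul_eq_zero, pow_eq_zero_iff',
      neg_eq_zero, one_ne_zero, false_and, hc, h2, d2, d3, or_self, not_false_eq_true, H12.qsign_mul,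
      H12.qsign_pow]
    generalize H12.qsign (-1 : F) = s, H12.qsign c = t, H12.qsign Ψ₁.G.val.det = u,
      H12.qsign Ψ₂.G.val.det = v, H12.qsign (2 : F) = w
    revert s t u v w
    decide
  by_cases h3 : IsPlusTypeOn Q ⊤
  swap
  · iterate 15 right
    exact Or.inl ⟨rfl, h3, odd_card_of_two_ne h2, five_le_card (odd_card_of_two_ne h2)
      fun d => c1.not_orth_three d c2, e, P, _, _, Ψ₁.isSymmetric b5, Ψ₂.isSymmetric b4, b6.not.1 h3,
      h.qf.polar ▸ ⟨c, hc, b3⟩, eq_inf_of_max h.max (le_tensor₂ hp.comm hp.top he hp.inv₁ hp.inv₂)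
      (h.qs.not_tensor (by decide) (by decide) e P)⟩
  obtain ⟨θ, d1, d2⟩ := Ψ₂.plus_four h2 (by simp) b4 (b6.1 h3)
  have d3 : Inv H (ψ.comp (θ 0)).range := by
    rintro g hg _ ⟨x, rfl⟩
    obtain ⟨a, b, rfl⟩ := exists_eq_um_mul hp.comm hp.top hp.inv₁ hp.inv₂ hg
    have e1 : ∀ x, cA (um φ a * um ψ b) (ψ x) = ψ (cA b x) := fun x => by
      rw [cA_mul, cA_um, (cA_eq_iff (g := um φ a)).2 (hp.comm a _)]
    have e2 : b ∈ similarityGroup Ψ₂.f := proj_le_sim h.le' b2 ⟨_, hg, e1⟩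
    obtain ⟨s, hs⟩ := d1.perm b e2
    by_cases e3 : s 0 = 0
    · obtain ⟨y, hy⟩ := e3 ▸ hs 0 x
      exact ⟨y, (congrArg ψ hy).trans (e1 _).symm⟩
    obtain rfl : s = Equiv.swap 0 1 := by clear hs; revert s; decide
    obtain ⟨μ, e4⟩ := Ψ₂.mem_sim_iff.1 e2
    obtain ⟨ν, e5⟩ := Ψ₁.mem_sim_iff.1 (c2 (show a ∈ proj H φ from ⟨_, hg, fun x => by
      rw [cA_mul, (cA_eq_iff (g := um ψ b)).2 (hp.comm x b).symm, cA_um]⟩))
    have e6 := det_swap d1 d2 (hs 0) (hs 1) (c := μ) (by rw [e4, smul_mul_assoc, Units.inv_mul])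
    have e7 := mem_SL.1 (omegaGL_le_SL _ (h.max.1.le hg))
    have e8 := (congrArg (· * (um φ a * um ψ b).val)
      (Φ.mem_iso_iff.1 (h.qf.le_iso (h.le hg)))).trans (Units.inv_mul _)
    have e9 := congrArg (det · * a.val.det) e5
    simp only [Units.val_mul, um_val, Φ.adj_mul, ← b1, ← b2, e4, e5, map_smul, smul_mul_assoc,
      mul_smul_comm, smul_smul] at e8
    rw [mul_assoc, ← mul_assoc (φ _), ← map_mul, Units.inv_mul, map_one, one_mul, ← map_mul,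
      Units.inv_mul, map_one] at e8
    obtain ⟨i⟩ := ‹Nonempty ι›
    replace e8 : (ν : F) * μ = 1 := by simpa using congrFun (congrFun e8 i) i
    simp only [Ψ₁.det_adj, det_smul, mul_assoc, ← det_mul, Units.inv_mul, det_one, RingHom.id_apply,
      Fintype.card_fin] at e9
    rw [Units.val_mul, um_val, um_val, he, det_tr, det_kronecker, e6] at e7
    simp only [Fintype.card_fin] at e7
    rw [show 4 = 2 * 2 from rfl, pow_mul, sq a.val.det, ← det_mul, e9,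
      show ∀ x y : F, (x ^ 3 * 1) ^ 2 * (-y ^ 2) ^ 3 = -(x * y) ^ 6 from fun x y => by ring, e8] at e7
    exact absurd (by linear_combination -e7) h2
  obtain ⟨l, hl, ψ', d4⟩ := exists_hom_range hC.irr d3.centralizer fun z hz e =>
    scalar_of_comm fun a => (Subalgebra.mem_centralizer_iff F).1 ((show ⊤ ≤
      Subalgebra.centralizer F {z} from range_sup_centralizer (ψ.comp (θ 0)) ▸ sup_le
        (fun b hb => (Subalgebra.mem_centralizer_iff F).2 (by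
          rintro _ rfl; exact ((Subalgebra.mem_centralizer_iff F).1 hz b hb).symm))
        fun b hb => (Subalgebra.mem_centralizer_iff F).2 (by rintro _ rfl; exact e b hb))
      Algebra.mem_top) z rfl
  have d5 : ∀ a b, ψ.comp (θ 0) a * ψ' b = ψ' b * ψ.comp (θ 0) a := fun a b =>
    (Subalgebra.mem_centralizer_iff F).1 (d4.le ⟨b, rfl⟩) _ ⟨a, rfl⟩
  have d6 := d4 ▸ range_sup_centralizer (ψ.comp (θ 0))
  have d7 : ∀ a, ψ.comp (θ 0) ((Frm.J2 F).adj a) = Φ.adj (ψ.comp (θ 0) a) := fun a =>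
    (congrArg ψ (Frm.J2_adj a ▸ d2 0 a)).trans (b2 _)
  haveI : NeZero l := ⟨hl.ne'⟩
  obtain ⟨e', -⟩ := exists_tensor₂ _ _ d5 d6
  obtain rfl : 6 = l := by
    have := Fintype.card_congr e'
    simp [h.card] at this
    omega
  exact h.alt_pair' h2 d5 d6 d3 (d4 ▸ d3.centralizer) d7 (d4 ▸ Frm.St.centralizer (by
    rintro _ ⟨a, rfl⟩; exact ⟨_, d7 a⟩)) Frm.J2_alt

theorem main : OeE m Q H ∨ InOrthogonalResidualClass H := by
  haveI := nonempty_of_two h.two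
  have a2 := h.four
  have a3 := h.six
  by_cases hI : Irr H
  swap
  · exact Or.inl (h.red hI)
  by_cases hC : ∀ K, Inv H K → Comm K → StAll H K → K = ⊥
  swap
  · push Not at hC
    obtain ⟨K, h1, h2, h3, h4⟩ := hC
    exact Or.inl (h.comm hI h1 h2 (h3 _ _ h.le') h4)
  rcases CPrim.cases h.two ⟨hI, hC⟩ with ⟨k, l, φ, ψ, b⟩ | ⟨r, R, E, hR⟩ | ⟨k, t, φ, L, b⟩ | ⟨P, b⟩
  · exact Or.inl (h.pair ⟨hI, hC⟩ b)
  · obtain ⟨rfl, h1⟩ := E.iso hR (h.le.trans h.qf.le_iso)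
    obtain ⟨k, -, hk⟩ := E.dim_eq
    obtain rfl : m = 4 := by
      rw [h.card] at hk
      have : k < 4 := (Nat.pow_lt_pow_iff_right one_lt_two).1 (by omega)
      interval_cases k <;> omega
    obtain ⟨x, hx, y, hy, b⟩ := exists_noncomm h.two h1
    have c := (E.comm_or hx.1 hy.1).resolve_left b
    obtain ⟨z, c1, c2⟩ : ∃ z ∈ Φ.iso, z * z = -1 := by
      rcases E.sq_or E.exp hx.1 with d | d
      · rcases E.sq_or E.exp hy.1 with d' | d'
        · exact ⟨x * y, mul_mem hx.2 hy.2, by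
            rw [mul_assoc, ← mul_assoc y, ← neg_neg (y * x), ← c, neg_mul, mul_neg, mul_assoc, d',
              mul_one, d]⟩
        · exact ⟨y, hy.2, d'⟩
      · exact ⟨x, hx.2, d⟩
    exact absurd (h.qf.plus_of_sq E.two_ne h.card' rfl c1 c2) (h.minus rfl)
  · have c := h.card.symm.trans b.toTW.card
    obtain ⟨rfl, rfl⟩ : k = 2 ∧ t = 3 := wreath_two c b.hk (b.ht.lt_of_ne (by
      rintro rfl
      have : k < 4 := by nlinarith
      interval_cases k <;> omega)) (by omega)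
    obtain rfl : m = 4 := by omega
    obtain ⟨Φ', c1, c2⟩ := b.toTW.exists_frm
    rw [CPrim.adj_eq ⟨hI, hC⟩ c1 h.le'] at c2
    obtain ⟨e, P, he⟩ := exists_tensor φ b.comm b.top
    obtain ⟨-, d, hd, c3⟩ := Frm.power_structure b.top he Φ (Ψ := Frm.J2 F)
      fun i a => Frm.J2_adj a ▸ c2 i a
    have h2 : (2 : F) = 0 := by
      rw [h.qf.ε, (Frm.J2 F).ε_eq_of_alt Frm.J2_alt] at c3
      linear_combination mul_left_cancel₀ hd c3
    have c4 : ∀ i, φ i !![1, 0; 0, 0] + Φ.adj (φ i !![1, 0; 0, 0]) = 1 := fun i => by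
      rw [← c2, ← map_add, ← map_one (φ i), one_fin_two]; simp
    refine absurd (QF.plus_of_two (c2 0) (h.qf.eq_of_qInv h.two h2 hI h.le (Φ.qInv_of h2 h.le' (c4 0)
      (c4 1) (b.comm 0 1 (by decide) _ _) fun g hg => ?_)) (c4 1) (fun a => b.comm 0 1 (by decide) _ _)
      h.qf.ε) (h.minus rfl)
    obtain ⟨s, hs⟩ := b.perm g hg
    obtain ⟨z, hz⟩ := hs 0 !![1, 0; 0, 0]
    rw [← show φ (s 0) z = _ from hz]
    by_cases e : s 0 = 0
    · exact Or.inr (b.comm _ _ (e.symm ▸ by decide) _ _)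
    · exact Or.inl (b.comm _ _ e _ _)
  refine or_iff_not_imp_left.2 fun hc => b.orth_residual h.two (h.le.trans h.qf.le_iso)
    fun F₀ h0 ht => hc (h.rat hI h0 fun F₁ h1 => ((sData_iso b.top b.normal ht
      (b.le.trans (h.le.trans h.qf.le_iso))).mono h1).exists_rational)

end OeH

theorem oeE_main {m : ℕ} {Q : (ι → F) → F} (hQ : IsNondegenerateQuadraticForm Q)
    (h1 : Fintype.card ι = 2 * m) (h2 : 4 ≤ m) (h3 : m ≤ 6) (h4 : m = 4 → ¬ IsPlusTypeOn Q ⊤)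
    (hH : IsMaximalIn (omegaGL Q) H) : OeE m Q H ∨ InOrthogonalResidualClass H := by
  obtain ⟨Φ, h⟩ := exists_qF hQ
  obtain ⟨Q, rfl, h5⟩ := h.exists_form
  exact OeH.main ⟨h, h5, h1, h2, h3, h4, hH⟩

end H27.Asch
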