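import Cfsg.Agent.H27.Asch32
import Cfsg.Agent.H27.Asch29

/-! The field extension subgroup of `SU₆(2)` is not maximal. -/

set_option autoImplicit false

namespace H27.Asch

open Matrix Cfsg Cfsg.Geo Module

variable {F : Type*} [Field F] [Fintype F] (hF : Fintype.card F = 2 ^ 2)

theorem su6_field' {K : Subalgebra F (Matrix (Fin 6) (Fin 6) F)} (hK : IsFieldSubalgebra 3 K)
    (hs : (suΦ hF 6).St K) (hH : IsMaximalIn (GU 6 F 2 ⊓ specialLinear (Fin 6) F)
      (subalgebraNormalizer K ⊓ (GU 6 F 2 ⊓ specialLinear (Fin 6) F))) : False := by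
  letI := (isField_of_inv hK.comm hK.inv).toField
  haveI : Finite K := inferInstanceAs (Finite {x // x ∈ K})
  set Φ := suΦ hF 6
  have h2 : (2 : F) = 0 := two_eq_zero_of_even (by rw [hF]; decide)
  have h2' : (2 : K) = 0 := by rw [← map_ofNat (algebraMap F K), h2, map_zero]
  have hF' : Nat.card F = 4 := by rw [Nat.card_eq_fintype_card, hF]; rfl
  have hK' : Nat.card K = 8 ^ 2 := by
    rw [Module.natCard_eq_pow_finrank (K := F), hK.finrank_eq, hF']; rfl
  have a0 : ∀ (k l : K) u v, Φ.f (k.1 *ᵥ u) (l.1 *ᵥ v) = Φ.f ((k * l ^ 8).1 *ᵥ u) v := fun k l u v => by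
    rw [Φ.f_adj', adj_eq_pow hF hK hs _ l.2, mulVec_mulVec, mul_comm k]; rfl
  have p8 : ∀ x y : K, (x + y) ^ 8 = x ^ 8 + y ^ 8 := fun x y => by
    haveI := CharTwo.of_one_ne_zero_of_two_eq_zero one_ne_zero h2'
    exact add_pow_char_pow x y 2 3
  have sc : ∀ k : K, k ^ 4 = k → ∃ c : F, k = c • 1 := fun k h =>
    (scalar_of_pow_card hK k.2 (by rw [hF']; exact congrArg Subtype.val h)).imp
      fun c e => Subtype.ext e
  obtain ⟨ζ, hζ⟩ : ∃ ζ : K, IsPrimitiveRoot ζ 9 := by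
    obtain ⟨γ, hγ⟩ := IsCyclic.exists_ofOrder_eq_natCard (α := Kˣ)
    rw [Nat.card_units, hK'] at hγ
    exact ⟨_, (IsPrimitiveRoot.coe_units_iff.2 (hγ ▸ IsPrimitiveRoot.orderOf γ)).pow (a := 7)
      (by norm_num) (by norm_num)⟩
  have z9 := hζ.pow_eq_one
  obtain ⟨ω, hω⟩ := sc (ζ ^ 3) (by linear_combination ζ ^ 3 * z9)
  have hd : (minpoly F ζ).natDegree = 3 := by
    have h := minpoly.degree_dvd (K := F) (Algebra.IsIntegral.isIntegral ζ)
    rw [hK.finrank_eq] at h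
    refine ((Nat.dvd_prime Nat.prime_three).1 h).resolve_left fun e => ?_
    obtain ⟨c, rfl⟩ := minpoly.natDegree_eq_one_iff.1 e
    have h3 : c ^ 3 = 1 := by
      simpa [hF] using FiniteField.pow_card_sub_one_eq_one c fun e => hζ.ne_zero (by norm_num) (by simp [e])
    exact absurd (hζ.dvd_of_pow_eq_one 3 (by rw [← map_pow, h3, map_one])) (by decide)
  have hi : LinearIndependent F fun i : Fin 3 => ζ ^ i.val := by
    have := linearIndependent_pow (K := F) ζ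
    rwa [hd] at this
  let B := basisOfLinearIndependentOfCardEqFinrank hi (by rw [hK.finrank_eq]; simp)
  have hB : ∀ i, B i = ζ ^ i.val := fun i => by simp [B]
  let φ : (Fin 6 → F) → K →ₗ[F] F := fun v =>
    { toFun := fun k => Φ.f (k.1 *ᵥ v) v
      map_add' := fun x y => by rw [AddMemClass.coe_add, add_mulVec, Φ.add_left]
      map_smul' := fun c x => by rw [SetLike.val_smul, smul_mulVec, Φ.smul_left]; rfl }
  have φ1 : ∀ v (k l : K), Φ.f (k.1 *ᵥ v) (l.1 *ᵥ v) = φ v (k * l ^ 8) := fun v k l => a0 k l v v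
  have φ2 : ∀ v (k : K), φ v (k ^ 8) = φ v k ^ 2 := fun v k => by
    have := Φ.symm (k.1 *ᵥ v) ((1 : K).1 *ᵥ v)
    rw [φ1, φ1, one_pow, mul_one, one_mul, show Φ.ε = 1 from rfl, one_mul] at this
    exact this.symm
  have φ3 : ∀ v (c : K), c ^ 8 = c → φ v (ζ * c) = 0 → φ v (ζ ^ 2 * c) = 0 := fun v c h1 h3 => by
    rw [show ζ ^ 2 * c = ω • (ζ * c) ^ 8 by
      rw [mul_pow, h1, ← smul_one_mul, ← hω]; linear_combination -ζ ^ 2 * c * z9,
      map_smul, φ2, h3]; simp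
  have φ4 : ∀ v, φ v 1 ≠ 0 → ∀ c : K, (∀ k, φ v (k * c) = 0) → c = 0 := fun v h c e => by
    by_contra a
    exact h (by rw [← inv_mul_cancel₀ a, e])
  have ex : ∀ W, IsNondegenerateOn Φ.f W → finrank F W = 3 ∨ finrank F W = 6 →
      (∀ k ∈ K, ∀ w ∈ W, k *ᵥ w ∈ W) → ∃ v ∈ W, ∀ i, φ v (B i) = if i = 0 then 1 else 0 := by
    intro W h1 h3 h4
    obtain ⟨b, hb⟩ := Φ.exists_on (κ := Fin (finrank F W)) (H11.frob_ne_id hF) rfl h1 (by simp)
    let v := b ⟨0, by omega⟩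
    have h5 : φ v 1 ≠ 0 := by
      change Φ.f ((1 : Matrix _ _ F) *ᵥ v.1) v.1 ≠ 0
      rw [one_mulVec, hb]; simp
    obtain ⟨K₀, h6⟩ := exists_subfield_card hK'
    obtain ⟨x, y, h8, h7⟩ := Function.not_injective_iff.1 fun e : Function.Injective
      (fun c : K₀ => φ v (ζ * c)) => by simpa [h6, hF] using Nat.card_le_card_of_injective _ e
    have h9 : (x - y).1 ^ 8 = (x - y).1 := h6 ▸ pow_card_of_mem (x - y).2
    generalize hc : (x - y).1 = c at h9
    have h10 : φ v (ζ * c) = 0 := by rw [← hc, AddSubgroupClass.coe_sub, mul_sub, map_sub, h8, sub_self]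
    have h11 := φ3 v c h9 h10
    have h12 : φ v c ≠ 0 := fun e => h7 (sub_eq_zero.1 (Subtype.ext (hc.trans (φ4 v h5 c fun k =>
      LinearMap.congr_fun (B.ext (f₁ := φ v ∘ₗ LinearMap.mulRight F c) (f₂ := 0) fun i => by
        rw [hB]; fin_cases i <;> simp [e, h10, h11]) k))))
    have h13 : φ v c = 1 := mul_left_cancel₀ h12 (by rw [← sq, ← φ2, h9, mul_one])
    refine ⟨_, h4 _ (c ^ 4).2 _ v.2, fun i => ?_⟩
    have : φ ((c ^ 4).1 *ᵥ v) (B i) = φ v (B i * c) := by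
      rw [show B i * c = B i * c ^ 4 * (c ^ 4) ^ 8 by
        rw [← pow_mul, mul_comm 4, pow_mul, h9, mul_assoc, ← pow_add, h9], ← φ1,
        MulMemClass.coe_mul, ← mulVec_mulVec]; rfl
    rw [this, hB]
    fin_cases i <;> simp [h10, h11, h13]
  obtain ⟨v, -, hv⟩ := ex ⊤ (fun w _ h => by
    constructor <;> by_contra! a
    exacts [h (Φ.eq_zero_right fun u => a u trivial), h (Φ.eq_zero_left fun u => a u trivial)])
    (by simp) fun _ _ _ _ => trivial
  have v1 : φ v 1 = 1 := by simpa [hB] using hv 0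
  have v0 : v ≠ 0 := by rintro rfl; exact zero_ne_one ((Φ.zero_right _).symm.trans v1)
  obtain ⟨w, hw, hw'⟩ := ex (Φ.perp (kl K v)) (Φ.nondegOn_perp (Φ.nondegOn_iff.2
      (Submodule.disjoint_def.2 fun x h1 h3 => by
        obtain ⟨k, h4, rfl⟩ := mem_kl.1 h1
        rw [show k = 0 from congrArg Subtype.val (pow_eq_zero_iff (n := 8) (by norm_num) |>.1
          (φ4 v (by simp [v1]) (⟨k, h4⟩ ^ 8) fun l =>
            (φ1 v l _).symm.trans (Φ.swap_zero (h3 _ (mem_kl.2 ⟨l, l.2, rfl⟩))))), zero_mulVec])))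
    (Or.inl (by have := Φ.finrank_perp (kl K v); rw [finrank_kl hK v0, Fintype.card_fin] at this; omega))
    fun k hk w hw x hx => by
      obtain ⟨l, h4, rfl⟩ := mem_kl.1 hx
      rw [Φ.f_adj, mulVec_mulVec]
      exact hw _ (mem_kl.2 ⟨_, mul_mem (hs k hk) h4, rfl⟩)
  have vw : φ w = φ v := B.ext fun i => by rw [hv, hw']
  have wv : ∀ k l : K, Φ.f (k.1 *ᵥ w) (l.1 *ᵥ v) = 0 := fun k l => by
    rw [Φ.f_adj, mulVec_mulVec]
    exact hw _ (mem_kl.2 ⟨_, mul_mem (hs _ k.2) l.2, rfl⟩)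
  set τ := φ v
  let ε₀ : (Fin 2 → K) →ₗ[F] (Fin 6 → F) :=
    { toFun := fun x => (x 0).1 *ᵥ v + (x 1).1 *ᵥ w
      map_add' := fun x y => by simp only [Pi.add_apply, AddMemClass.coe_add, add_mulVec]; abel
      map_smul' := fun c x => by simp [smul_mulVec] }
  have e0 : ∀ x y, Φ.f (ε₀ x) (ε₀ y) = τ (x 0 * y 0 ^ 8 + x 1 * y 1 ^ 8) := fun x y => by
    change Φ.f (_ + _) (_ + _) = _
    rw [Φ.add_left, Φ.add_right, Φ.add_right, φ1, φ1, wv, Φ.swap_zero (wv _ _), vw, map_add]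
    simp [τ]
  have τ0 : ∀ c : K, (∀ k, τ (k * c) = 0) → c = 0 := φ4 v (v1 ▸ one_ne_zero)
  let ε := ε₀.linearEquivOfInjective ((injective_iff_map_eq_zero _).2 fun x hx => by
    have : ∀ i, x i ^ 8 = 0 := fun i => τ0 _ fun k => by
      have := e0 (Pi.single i k) x
      rw [hx, Φ.zero_right] at this
      fin_cases i <;> simpa using this.symm
    exact funext fun i => pow_eq_zero_iff (n := 8) (by norm_num) |>.1 (this i))
    (by simp [finrank_pi_fintype, hK.finrank_eq])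
  have e1 : ∀ x y, Φ.f (ε x) (ε y) = τ (x 0 * y 0 ^ 8 + x 1 * y 1 ^ 8) := e0
  have e2 : ∀ (k : K) x, ε (k • x) = k.1 *ᵥ ε x := fun k x => by
    change _ + _ = k.1 *ᵥ (_ + _)
    simp [mulVec_add]
  let ψ : (Fin 6 → F) → (Fin 6 → F) → F := fun u u' =>
    τ (ε.symm u 0 * ε.symm u' 1 + ε.symm u 1 * ε.symm u' 0)
  have e3 : ∀ x y, ψ (ε x) (ε y) = τ (x 0 * y 1 + x 1 * y 0) := fun x y => by simp [ψ]
  have e4 : ∀ g ∈ subalgebraNormalizer K, ∃ (c : F) (ρ : K →ₐ[F] K) (a b : Fin 2 → K), c ^ 3 = 1 ∧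
      ρ ζ = c • ζ ∧ ∀ x, g.val *ᵥ ε x = ε (ρ (x 0) • a + ρ (x 1) • b) := fun g hg => by
    obtain ⟨j, hj⟩ := exists_cA_pow hK hg
    obtain ⟨m, hm⟩ : 3 ∣ 4 ^ j - 1 := by simpa using Nat.sub_dvd_pow_sub_pow 4 1 j
    refine ⟨ω ^ m, ((cA g).toAlgHom.comp K.val).codRestrict K fun k => (hg k.1).1 k.2,
      ε.symm (g.val *ᵥ v), ε.symm (g.val *ᵥ w), ?_, ?_, fun x => ?_⟩
    · rw [← pow_mul, mul_comm, pow_mul, show ω ^ 3 = 1 from
        smul_left_injective F (one_ne_zero (α := K)) (by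
          simp only [← _root_.smul_pow, one_smul]; rw [← one_pow 3, ← _root_.smul_pow, ← hω, ← pow_mul, z9, one_pow]), one_pow]
    · rw [← smul_one_mul, ← one_pow m, ← _root_.smul_pow, ← hω, ← pow_mul, ← hm, ← pow_succ,
        Nat.sub_add_cancel (Nat.one_le_pow _ _ (by norm_num))]
      exact Subtype.ext ((hj _ ζ.2).trans (by rw [hF]; rfl))
    · rw [map_add, e2, e2, ε.apply_symm_apply, ε.apply_symm_apply]
      exact (mulVec_add _ _ _).trans (congrArg₂ _ (cA_mulVec g _ _).symm (cA_mulVec g _ _).symm)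
  have iso : ∀ y : Fin 2 → K, y 0 ^ 9 = 1 → y 1 ^ 9 = 1 → ∃ t ∈ GU 6 F 2 ⊓ specialLinear (Fin 6) F,
      ∀ x, t.val *ᵥ ε x = ε (x + τ (x 0 * y 0 ^ 8 + x 1 * y 1 ^ 8) • y) := fun y a b => by
    have : Φ.f (ε y) (ε y) = 0 := by
      rw [e1, ← pow_succ', ← pow_succ', a, b, one_add_one_eq_two, h2', map_zero]
    exact ⟨_, su_tv hF this (c := 1) (by linear_combination h2), fun x => by
      rw [Frm.tv_mulVec, one_mul, e1, map_add ε, map_smul]⟩
  have τ1 : τ ζ = 0 := by simpa [hB] using hv 1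
  have := eq_inf_of_max hH (M := similarityGroup ψ) (fun g hg => ?_) fun e => ?_
  · obtain ⟨t, t1, t2⟩ := iso 1 (by simp) (by simp)
    refine (e4 t (this.ge ⟨⟨1, fun u u' => ?_⟩, t1⟩).1).elim fun c ⟨ρ, a, b, _, _, h⟩ => ?_
    swap
    · have h1 := ε.injective ((h (Pi.single 0 1)).symm.trans (t2 _))
      have h3 := congrFun (ε.injective ((h (Pi.single 0 ζ)).symm.trans (t2 _))) 0
      simp [v1, τ1] at h1 h3
      exact hζ.ne_zero (by norm_num) (by
        rw [← h3, h1]; simp [one_add_one_eq_two, h2'])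
    obtain ⟨x, rfl⟩ := ε.surjective u
    obtain ⟨y, rfl⟩ := ε.surjective u'
    rw [t2, t2, e3, e3]
    simp only [Pi.add_apply, Pi.smul_apply, Pi.one_apply, one_pow, mul_one, add_mul, mul_add,
      smul_mul_assoc, mul_smul_comm, one_mul, map_add, map_smul, smul_eq_mul, Units.val_one]
    linear_combination ((τ (y 0) + τ (y 1)) * (τ (x 0) + τ (x 1)) * (1 + τ 1)) * h2
  · obtain ⟨c, ρ, a, b, h1, h3, h4⟩ := e4 g hg.1
    have h5 : τ ∘ₗ ρ.toLinearMap = τ := B.ext fun i => by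
      rw [hv, LinearMap.comp_apply, AlgHom.toLinearMap_apply, hB, map_pow, h3, _root_.smul_pow,
        map_smul, ← hB, hv]
      fin_cases i <;> simp
    have h6 : ∀ k, τ (ρ k) = τ k := LinearMap.congr_fun h5
    have h7 := fun x y => (e1 x y).symm.trans ((Φ.mem_iso.1 (su_le hH hg) (ε x) (ε y)).symm.trans
      (by rw [h4, h4, e1]))
    have h8 := Finite.surjective_of_injective ρ.toRingHom.injective
    have b1 : a 0 * a 0 ^ 8 + a 1 * a 1 ^ 8 - 1 = 0 := τ0 _ fun k => by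
      obtain ⟨k, rfl⟩ : ∃ l, ρ l = k := h8 k
      have := h7 (Pi.single 0 k) (Pi.single 0 1)
      simp at this
      rw [mul_sub, map_sub, mul_one, h6, this, mul_add, map_add, mul_assoc, mul_assoc, sub_self]
    have b2 : b 0 * b 0 ^ 8 + b 1 * b 1 ^ 8 - 1 = 0 := τ0 _ fun k => by
      obtain ⟨k, rfl⟩ : ∃ l, ρ l = k := h8 k
      have := h7 (Pi.single 1 k) (Pi.single 1 1)
      simp at this
      rw [mul_sub, map_sub, mul_one, h6, this, mul_add, map_add, mul_assoc, mul_assoc, sub_self]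
    have b3 : a 0 * b 0 ^ 8 + a 1 * b 1 ^ 8 = 0 := τ0 _ fun k => by
      obtain ⟨k, rfl⟩ : ∃ l, ρ l = k := h8 k
      have := h7 (Pi.single 0 k) (Pi.single 1 1)
      simp at this
      rw [this, mul_add, map_add, mul_assoc, mul_assoc]
    have b4 : b 0 * a 0 ^ 8 + b 1 * a 1 ^ 8 = 0 := τ0 _ fun k => by
      obtain ⟨k, rfl⟩ : ∃ l, ρ l = k := h8 k
      have := h7 (Pi.single 1 k) (Pi.single 0 1)
      simp at this
      rw [this, mul_add, map_add, mul_assoc, mul_assoc]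
    set δ := a 0 * b 1 + b 0 * a 1 with hδ
    have b5 : δ ^ 9 = 1 := by
      rw [pow_succ, hδ, p8]
      linear_combination (b 0 * b 0 ^ 8 + b 1 * b 1 ^ 8) * b1 + b2 -
        (a 0 * b 0 ^ 8 + a 1 * b 1 ^ 8) * b4 + (a 0 ^ 8 * b 1 ^ 8 * b 0 * a 1 + b 0 ^ 8 * a 1 ^ 8 * a 0 * b 1) * h2'
    have b6 : LinearMap.det ρ.toLinearMap = 1 := by
      rw [← LinearMap.det_toMatrix B, show LinearMap.toMatrix B B ρ.toLinearMap =
        diagonal fun i => c ^ i.val from ext fun i j => by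
          rw [LinearMap.toMatrix_apply, AlgHom.toLinearMap_apply, hB, map_pow, h3, _root_.smul_pow,
            ← hB, map_smul, B.repr_self, diagonal_apply]
          by_cases e : i = j <;> simp [e, Finsupp.single_apply, eq_comm], det_diagonal,
        Fin.prod_univ_three]
      simpa [← pow_succ'] using h1
    have b7 : Algebra.norm F δ = 1 := by
      have : toLin' g.val = ε.toLinearMap ∘ₗ ((toLin' !![a 0, b 0; a 1, b 1]).restrictScalars F ∘ₗ
          LinearMap.pi fun i => ρ.toLinearMap ∘ₗ LinearMap.proj i) ∘ₗ ε.symm.toLinearMap :=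
        LinearMap.ext fun u => by
          obtain ⟨x, rfl⟩ := ε.surjective u
          simp only [toLin'_apply, h4, LinearMap.comp_apply, LinearEquiv.coe_coe,
            LinearEquiv.symm_apply_apply]
          congr 1
          ext i; fin_cases i <;> simp [mulVec, dotProduct, mul_comm]
      have := congrArg LinearMap.det this
      rw [LinearMap.det_conj, LinearMap.det_toLin', mem_SL.1 hg.2.2, LinearMap.det_comp,
        LinearMap.det_restrictScalars, LinearMap.det_toLin', LinearMap.det_pi, det_fin_two_of] at this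
      rw [show δ = a 0 * b 1 - b 0 * a 1 by linear_combination b 0 * a 1 * h2']
      simpa [b6] using this.symm
    have b8 := FiniteField.algebraMap_norm_eq_pow (K := F) (x := δ)
    rw [b7, map_one, hK', hF'] at b8
    obtain ⟨d, hd⟩ := sc δ (by linear_combination -δ * b8 - δ ^ 4 * (δ ^ 9 + 1) * b5)
    refine ⟨Units.mk0 d (by rintro rfl; simp [hd] at b5), fun u u' => ?_⟩
    obtain ⟨x, rfl⟩ := ε.surjective u
    obtain ⟨y, rfl⟩ := ε.surjective u'
    rw [h4, h4, e3, e3, ← h6 (x 0 * y 1 + x 1 * y 0), Units.val_mk0, ← smul_eq_mul d, ← map_smul,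
      ← smul_one_mul d, ← hd]
    congr 1
    simp only [Pi.add_apply, Pi.smul_apply, smul_eq_mul, map_add, map_mul]
    linear_combination (ρ (x 0) * ρ (y 0) * a 0 * a 1 + ρ (x 1) * ρ (y 1) * b 0 * b 1) * h2'
  · obtain ⟨t, t1, t2⟩ := iso ![1, ζ] (by simp) z9
    obtain ⟨c, h⟩ := e t1
    have := h (ε (Pi.single 0 1)) (ε (Pi.single 0 (ζ ^ 8)))
    have a : τ (ζ ^ 8) = 0 := by rw [φ2, τ1]; simp
    rw [t2, t2, e3, e3] at this
    simp [a, v1, ← pow_succ', z9] at this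

theorem su6_field {q : ℕ} (hF : Fintype.card F = q ^ 2) {H : Subgroup (GL (Fin 6) F)}
    (hH : IsMaximalIn (GU 6 F q ⊓ specialLinear (Fin 6) F) H)
    {K : Subalgebra F (Matrix (Fin 6) (Fin 6) F)} (h : IsFieldSubalgebra 3 K ∧
      IsAdjointClosedFor (hermForm 6 F q) K ∧
      H = subalgebraNormalizer K ⊓ (GU 6 F q ⊓ specialLinear (Fin 6) F)) : 3 ≤ q := by
  obtain ⟨h1, h2, rfl⟩ := h
  have := two_le_of_sq hF
  by_contra a
  obtain rfl : q = 2 := by omega
  exact su6_field' hF h1 (Frm.st_of_closed _ (by rwa [suΦ_f])) hH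

end H27.Asch
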