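import Cfsg.Agent.H25.El19
import Cfsg.Agent.H27.Asch27
import Cfsg.Agent.H22.AutPSU

/-! Elements of prime order and normalizers of groups of symplectic type, I: conjugacy of semisimple elements. -/

set_option autoImplicit false

namespace H27.C6

open Matrix Module Polynomial Cfsg Cfsg.Geo H22 H27.Sp H27.Asch H25.El

section
variable {F K : Type*} [Field F] [Field K] [Algebra F K] {ι : Type} [Fintype ι] [DecidableEq ι]
  {x y : GL ι F} {E : Multiset K}

/-- semisimple elements of `G` which are similar are conjugate in `G` -/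
def CP (G : Subgroup (GL ι F)) : Prop :=
  ∀ x ∈ G, ∀ y ∈ G, ∀ k : ℕ, (k : F) ≠ 0 → x ^ k = 1 → Sim (glE x) (glE y) → ∃ g ∈ G, g⁻¹ * x * g = y

theorem cop {G : Type*} [Group G] {p k : ℕ} [Fact p.Prime] [CharP F p] (hk : (k : F) ≠ 0) {g : G}
    (h : g ^ k = 1) : (orderOf g).Coprime p :=
  Nat.Coprime.coprime_dvd_left (orderOf_dvd_of_pow_eq_one h)
    (((Nat.Prime.coprime_iff_not_dvd Fact.out).2 fun e => hk ((CharP.cast_eq_zero_iff F p k).2 e)).symm)

theorem conj_of {G : Type*} [Group G] {H : Subgroup (GL ι F)} (φ : G →* GL ι F) (hφ : ∀ g, φ g ∈ H) {a b : G}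
    (h : IsConj a b) : ∃ g ∈ H, g⁻¹ * φ a * g = φ b := by
  obtain ⟨c, rfl⟩ := isConj_iff.1 h
  exact ⟨φ c⁻¹, hφ _, by simp⟩

theorem cp_sl [Finite F] (n : ℕ) : CP (specialLinear (Fin n) F) := fun x hx y hy k hk h e => by
  obtain ⟨p, hp⟩ := CharP.exists F
  haveI : Fact p.Prime := ⟨CharP.char_is_prime F p⟩
  obtain ⟨x, rfl⟩ := exists_toGL hx
  obtain ⟨y, rfl⟩ := exists_toGL hy
  exact conj_of SpecialLinearGroup.toGL (fun g => mem_SL.2 g.2) (sl_isConj (cop (p := p) hk
    (SpecialLinearGroup.toGL_injective (by rw [map_pow, h, map_one]))) e)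

theorem cp_su [Fintype F] {q : ℕ} (hF : Fintype.card F = q ^ 2) (n : ℕ) :
    CP (GU n F q ⊓ specialLinear (Fin n) F) := fun x hx y hy k hk h e => by
  obtain ⟨p, hp⟩ := CharP.exists F
  haveI : Fact p.Prime := ⟨CharP.char_is_prime F p⟩
  obtain ⟨x, rfl⟩ := exists_suGL hx.1 hx.2
  obtain ⟨y, rfl⟩ := exists_suGL hy.1 hy.2
  exact conj_of (suGL n F q) (fun g => Subgroup.mem_inf.2 ⟨g.2, mem_SL.2 g.1.2⟩) (su_isConj F hF (cop (p := p) hk
    (Subtype.ext (SpecialLinearGroup.toGL_injective (by simpa using h)))) e)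

/-- the symplectic group inside `GL` -/
def spI (m : ℕ) (F : Type*) [Field F] : symplecticGroup (Fin m) F →* GL (Fin m ⊕ Fin m) F :=
  (Units.map (symplecticGroup (Fin m) F).subtype).comp toUnits.toMonoidHom

theorem mem_sp_iff {m : ℕ} {g : GL (Fin m ⊕ Fin m) F} : g ∈ spGL m F ↔ g.val ∈ symplecticGroup (Fin m) F := by
  rw [SymplecticGroup.mem_iff']
  exact ⟨fun hg => fG_injective (σ := RingHom.id F) fun u v => (fG_mulVec _ _ _ u v).symm.trans (hg u v),
    fun h u v => (fG_mulVec (σ := RingHom.id F) _ _ _ u v).trans (congrArg (fG _ · u v) h)⟩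

theorem cp_sp [Finite F] (m : ℕ) : CP (spGL m F) := fun x hx y hy k hk h e => by
  obtain ⟨p, hp⟩ := CharP.exists F
  haveI : Fact p.Prime := ⟨CharP.char_is_prime F p⟩
  have := conj_of (spI m F) (fun g => mem_sp_iff.2 g.2) (sp_isConj (g := ⟨_, mem_sp_iff.1 hx⟩)
    (h := ⟨_, mem_sp_iff.1 hy⟩) (cop (p := p) hk (Subtype.ext (by simpa using congrArg Units.val h))) e)
  rwa [show spI m F ⟨_, mem_sp_iff.1 hx⟩ = x from Units.ext rfl,
    show spI m F ⟨_, mem_sp_iff.1 hy⟩ = y from Units.ext rfl] at this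

variable [Finite F] [Algebra.IsAlgebraic F K]

theorem ev_gu [Fintype F] {q n : ℕ} (hF : Fintype.card F = q ^ 2) {x : GL (Fin n) F} (hx : x ∈ GU n F q)
    (h : EV (glE x) E) : E.map (· ^ (-q : ℤ)) = E :=
  ss_st.1 (JD.herm_inv hF (toSQ (guRep hF n).nd) (fun a b => ((guRep hF n).isom ⟨x, hx⟩).1 a b) h)

theorem ev_sp {m : ℕ} {x : GL (Fin m ⊕ Fin m) F} (hx : x ∈ spGL m F) (h : EV (glE x) E) : E.map (·⁻¹) = E :=
  ss_st.1 ((Rl.of (spRep (Fin m) F).nd ((spRep (Fin m) F).isom ⟨_, mem_sp_iff.1 hx⟩) h).inv fun _ => rfl)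

theorem ev_card (h : EV (glE x) E) : E.card = Fintype.card ι := by simpa using h.dim.symm

theorem ev_det (h : EV (glE x) E) : algebraMap F K x.val.det = E.prod := det_glE x ▸ h.det

theorem ev_charpoly (h : EV (glE x) E) : x.val.charpoly.map (algebraMap F K) = (E.map (X - C ·)).prod := by
  have := JD.charpoly h
  rw [glE_eq, charpoly_toLin', Multiset.map_map] at this
  simpa [Function.comp_def] using this

theorem ev_trace [Nonempty ι] (h : EV (glE x) E) : algebraMap F K x.val.trace = E.sum := by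
  rw [trace_eq_neg_charpoly_nextCoeff, map_neg, ← nextCoeff_map (algebraMap F K).injective, ev_charpoly h,
    multiset_prod_X_sub_C_nextCoeff, neg_neg]

theorem ev_pow (h : EV (glE x) E) {k : ℕ} (hk : k ≠ 0) {c : F} (e : (x ^ k).val = c • 1) :
    ∀ a ∈ E, a ^ k = algebraMap F K c :=
  (h.pow_iff hk c).1 (by rw [← map_pow, glE_eq, e]; ext; simp)

theorem ev_scalar (h : EV (glE x) E) {c : F} (e : ∀ a ∈ E, a = algebraMap F K c) : x.val = c • 1 :=
  toLin'.injective (((h.scalar_iff c).2 e).trans (by ext; simp))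

variable [IsAlgClosed K]

variable (K) in
theorem exists_ev {k : ℕ} (hk : (k : F) ≠ 0) {c : F} (e : (x ^ k).val = c • 1) : ∃ E : Multiset K, EV (glE x) E := by
  rcases isEmpty_or_nonempty ι with _ | _
  · exact (exists_ev_pow (u := glE x) hk one_ne_zero (Subsingleton.elim _ _)).imp fun _ h => h.1
  refine (exists_ev_pow (u := glE x) hk (c := c) ?_ (by rw [← map_pow, glE_eq, e]; ext; simp)).imp fun _ h => h.1
  rintro rfl
  exact (x ^ k).ne_zero (by simpa using e)

theorem ev_diag {k : ℕ} (hk : (k : F) ≠ 0) (h : x ^ k = 1) {d : ι → F} (e : x.val = diagonal d) :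
    EV (glE x) (Finset.univ.val.map fun i => algebraMap F K (d i)) := by
  obtain ⟨E, hE⟩ := exists_ev K hk (x := x) (c := 1) (by simp [h])
  have := congrArg roots (ev_charpoly hE)
  rw [roots_multiset_prod_X_sub_C, e, charpoly_diagonal, Polynomial.map_prod] at this
  simp only [Polynomial.map_sub, map_X, map_C] at this
  rw [Finset.prod, ← Function.comp_def (X - C ·), ← Multiset.map_map, roots_multiset_prod_X_sub_C] at this
  exact this ▸ hE

omit [Finite F] in
theorem sim_trace (h : Sim (glE x) (glE y)) : x.val.trace = y.val.trace := by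
  obtain ⟨c, rfl⟩ := isConj_iff.1 (gl_isConj_iff.2 h)
  exact (trace_units_conj c _).symm

omit [Finite F] in
theorem sim_det (h : Sim (glE x) (glE y)) : x.val.det = y.val.det := by
  obtain ⟨c, rfl⟩ := isConj_iff.1 (gl_isConj_iff.2 h)
  exact (det_units_conj c _).symm

omit [Finite F] in
theorem sim_sc (h : Sim (glE x) (glE y)) (c : Fˣ) : Sim (glE (sc ι c * x)) (glE (sc ι c * y)) := by
  obtain ⟨g, rfl⟩ := isConj_iff.1 (gl_isConj_iff.2 h)
  exact gl_isConj_iff.1 (isConj_iff.2 ⟨g, by rw [← mul_assoc, ← scalars_comm (sc_mem c) g]; group⟩)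

end

section exps
variable {K : Type*} [Field K] {k : ℕ} [NeZero k] {ζ : K}

/-- powers of a root of unity -/
def ee (ζ : K) (m : ZMod k) : K := ζ ^ m.val

theorem ee_nat (h : ζ ^ k = 1) (n : ℕ) : ee ζ (n : ZMod k) = ζ ^ n := by
  rw [ee, ZMod.val_natCast]
  conv_rhs => rw [← Nat.mod_add_div n k, pow_add, pow_mul, h, one_pow, mul_one]

theorem ee_add (h : ζ ^ k = 1) (a b : ZMod k) : ee ζ (a + b) = ee ζ a * ee ζ b := by
  rw [← ZMod.natCast_zmod_val a, ← ZMod.natCast_zmod_val b, ← Nat.cast_add, ee_nat h, ee_nat h, ee_nat h, pow_add]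

theorem ee_zero : ee ζ (0 : ZMod k) = 1 := by simp [ee]

theorem ee_mul (h : ζ ^ k = 1) (n : ℕ) (a : ZMod k) : ee ζ ((n : ZMod k) * a) = ee ζ a ^ n := by
  rw [← ZMod.natCast_zmod_val a, ← Nat.cast_mul, ee_nat h, ee_nat h, mul_comm, pow_mul]

theorem ee_neg (h : ζ ^ k = 1) (a : ZMod k) : ee ζ (-a) = (ee ζ a)⁻¹ :=
  eq_inv_of_mul_eq_one_left (by rw [← ee_add h, neg_add_cancel, ee_zero])

theorem ee_inj (h : IsPrimitiveRoot ζ k) : Function.Injective (ee (k := k) ζ) := fun a b e =>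
  ZMod.val_injective k (h.pow_inj a.val_lt b.val_lt e)

theorem ee_prod (h : ζ ^ k = 1) (M : Multiset (ZMod k)) : (M.map (ee ζ)).prod = ee ζ M.sum := by
  induction M using Multiset.induction_on with
  | empty => simp [ee_zero]
  | cons a M ih => simp [ih, ee_add h]

theorem exists_M (h : IsPrimitiveRoot ζ k) {E : Multiset K} (hE : ∀ a ∈ E, a ^ k = 1) :
    ∃ M : Multiset (ZMod k), E = M.map (ee ζ) := by
  induction E using Multiset.induction_on with
  | empty => exact ⟨0, rfl⟩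
  | cons a E ih =>
    obtain ⟨M, rfl⟩ := ih fun b hb => hE b (Multiset.mem_cons_of_mem hb)
    obtain ⟨i, -, rfl⟩ := h.eq_pow_of_pow_eq_one (hE a (Multiset.mem_cons_self _ _))
    exact ⟨(i : ZMod k) ::ₘ M, by rw [Multiset.map_cons, ee_nat h.pow_eq_one]⟩

theorem ee_st (h : IsPrimitiveRoot ζ k) {M : Multiset (ZMod k)} {φ : K → K} {ψ : ZMod k → ZMod k}
    (e : ∀ m, φ (ee ζ m) = ee ζ (ψ m)) (hM : (M.map (ee ζ)).map φ = M.map (ee ζ)) : M.map ψ = M :=
  Multiset.map_injective (ee_inj h) (by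
    rw [← hM, Multiset.map_map, Multiset.map_map]; exact Multiset.map_congr rfl fun m _ => (e m).symm)

theorem exists_prim (F : Type*) [Field F] [Algebra F K] [IsAlgClosed K] (hk : (k : F) ≠ 0) :
    ∃ ζ : K, IsPrimitiveRoot ζ k := by
  haveI : NeZero (k : K) := ⟨by rw [← map_natCast (algebraMap F K)]; exact (_root_.map_ne_zero _).2 hk⟩
  exact HasEnoughRootsOfUnity.exists_primitiveRoot K k

theorem two_val {α : Type*} {u v : α} {E : Multiset α} (h : ∀ a ∈ E, a = u ∨ a = v) :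
    ∃ i j, E = .replicate i u + .replicate j v := by
  induction E using Multiset.induction_on with
  | empty => exact ⟨0, 0, rfl⟩
  | cons a E ih =>
    obtain ⟨i, j, rfl⟩ := ih fun b hb => h b (Multiset.mem_cons_of_mem hb)
    rcases h a (Multiset.mem_cons_self _ _) with rfl | rfl
    · exact ⟨i + 1, j, by rw [Multiset.replicate_succ, Multiset.cons_add]⟩
    · exact ⟨i, j + 1, by rw [Multiset.replicate_succ, Multiset.add_cons]⟩

end exps

end H27.C6
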