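import Cfsg.Agent.H27.C6b

/-! Elements of prime order and normalizers of groups of symplectic type, III: elements of the normalizer. -/

set_option autoImplicit false

namespace H27.C6

open Matrix Module Cfsg Cfsg.Geo H27.Asch Subgroup
open scoped commutatorElement

variable {F : Type*} [Field F] {ι : Type} [Fintype ι] [DecidableEq ι] {R A B : Subgroup (GL ι F)}
  {h g x y z t s a b c d w : GL ι F} {k l : F}

local notation "𝐍" => subgroupNormalizer
local notation "𝐙" => scalars ι F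

/-- `h` normalizes `R` and is a similarity with multiplier `k` of every form preserved by `R` -/
def Sm (R : Subgroup (GL ι F)) (k : F) (h : GL ι F) : Prop :=
  h ∈ 𝐍 R ∧ ∀ (σ : F →+* F) (Φ : Frm ι σ), R ≤ Φ.iso → Φ.adj h.val = k • (h⁻¹).val

theorem Sm.mul (h1 : Sm R k g) (h2 : Sm R l h) : Sm R (k * l) (g * h) :=
  ⟨mul_mem h1.1 h2.1, fun σ Φ e => by
    rw [Units.val_mul, Φ.adj_mul, h1.2 σ Φ e, h2.2 σ Φ e, _root_.mul_inv_rev, Units.val_mul, smul_mul_smul, mul_comm]⟩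

theorem Sm.iso (h1 : Sm R 1 g) {σ : F →+* F} {Φ : Frm ι σ} (e : R ≤ Φ.iso) : g ∈ Φ.iso :=
  Φ.mem_iso_iff.2 ((h1.2 σ Φ e).trans (one_smul _ _))

theorem sm_of_mem (hx : x ∈ R) : Sm R 1 x :=
  ⟨le_normalizer hx, fun _ Φ e => (Φ.mem_iso_iff.1 (e hx)).trans (one_smul _ _).symm⟩

theorem sm_sc (u : Fˣ) (hu : ∀ σ : F →+* F, σ u = u) : Sm R (u * u) (sc ι u) :=
  ⟨sc_norm (sc_mem u), fun σ Φ _ => by simp [← map_inv, sc_val, Φ.adj_smul, Φ.adj_one, hu, smul_smul]⟩

theorem Sm.neg (h1 : Sm R k g) : Sm R k (-g) := by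
  have := (sm_sc (R := R) (-1) (by simp)).mul h1
  rwa [show sc ι (-1 : Fˣ) = -1 from Units.ext (by simp [sc_val]), neg_one_mul, Units.val_neg, neg_mul_neg, Units.val_one,
    mul_one, one_mul] at this

theorem adj_of_sq {σ : F →+* F} {Φ : Frm ι σ} (hx : x ∈ Φ.iso) (e : x * x = 1) : Φ.adj x.val = x.val := by
  rw [Φ.mem_iso_iff.1 hx, inv_eq_of_mul_eq_one_left e]

theorem adj_of_sq' {σ : F →+* F} {Φ : Frm ι σ} (hx : x ∈ Φ.iso) (e : x * x = -1) : Φ.adj x.val = -x.val := by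
  rw [Φ.mem_iso_iff.1 hx, inv_eq_of_mul_eq_one_left (show -x * x = 1 by simp [e]), Units.val_neg]

theorem norm_of [Finite F] (e : R ≤ R.comap (MulAut.conj h).toMonoidHom) : h ∈ 𝐍 R :=
  mem_normalizer_fintype fun _ hx => e hx

theorem mem_cj (e : h * x = y * h) (hy : y ∈ R) : x ∈ R.comap (MulAut.conj h).toMonoidHom := by
  change h * x * h⁻¹ ∈ R
  rwa [e, mul_inv_cancel_right]

theorem sq_an (e : x * y = -(y * x)) : x * y * (x * y) = -(x * x * (y * y)) := by
  rw [mul_assoc, ← mul_assoc y, ← neg_neg (y * x), ← e]; simp [mul_assoc]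

theorem sq_cm (e : x * y = y * x) : x * y * (x * y) = x * x * (y * y) := by
  rw [mul_assoc, ← mul_assoc y, ← e]; simp [mul_assoc]

theorem an_symm (e : x * y = -(y * x)) : y * x = -(x * y) := by rw [e, neg_neg]

theorem tr_an (h2 : (2 : F) ≠ 0) {X : Matrix ι ι F} (e : y.val * X = -(X * y.val)) : X.trace = 0 := by
  have := trace_units_conj y X
  rw [e, neg_mul, Units.mul_inv_cancel_right, trace_neg, neg_eq_iff_add_eq_zero, ← two_mul] at this
  exact (mul_eq_zero.1 this).resolve_left h2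

section
variable (E : EData 2 R)
include E

theorem bt_an (e : x * y = -(y * x)) : bt x y = 1 :=
  haveI := nonempty_of_two E.two
  bt_one.2 fun e' => ne_neg E.two_ne _ (e'.symm.trans e)

theorem ns_an (e : x * y = -(y * x)) : x ∉ 𝐙 := fun h => bt_one.1 (bt_an E e) (scalars_comm h y)

theorem neg_mem_R (hx : x ∈ R) : -x ∈ R := by
  obtain ⟨t, ht, s, -, e⟩ := exists_noncomm E.two E.top
  exact neg_mem' E ⟨t, ht, fun h => e (scalars_comm h s)⟩ hx

theorem gen2 (ha : a ∈ R) (hb : b ∈ R) (e : a * b = -(b * a)) (h1 : a ∈ B) (h2 : b ∈ B)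
    (h3 : ∀ x ∈ R, x * a = a * x → x * b = b * x → x ∈ B) : R ≤ B :=
  le_of_an E le_rfl ha hb (bt_an E (an_symm e)) h2 (le_of_an E inf_le_left hb
    ⟨ha, mem_centralizer_singleton_iff.2 rfl⟩ (bt_an E e) h1 fun x hx => h3 x hx.1.1
      (mem_centralizer_singleton_iff.1 hx.1.2) (mem_centralizer_singleton_iff.1 hx.2))

variable [Finite F]

theorem exists_w (ha : a ∈ R) (hb : b ∈ R) (e : a * b = -(b * a)) (a2 : a * a = -1) (b2 : b * b = -1) :
    ∃ w, Sm R 1 w ∧ w.val = (-2⁻¹ : F) • (1 + a.val + b.val + a.val * b.val) ∧ w.val * w.val + w.val + 1 = 0 := by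
  have h2 := E.two_ne
  have e1 : a.val * a.val = -1 := congrArg Units.val a2
  have e2 : b.val * b.val = -1 := congrArg Units.val b2
  have e3 : b.val * a.val = -(a.val * b.val) := congrArg Units.val (an_symm e)
  have e4 : ∀ X, a.val * (a.val * X) = -X := fun X => by rw [← mul_assoc, e1, neg_one_mul]
  have e5 : ∀ X, b.val * (b.val * X) = -X := fun X => by rw [← mul_assoc, e2, neg_one_mul]
  have e6 : ∀ X, b.val * (a.val * X) = -(a.val * (b.val * X)) := fun X => by rw [← mul_assoc, e3, neg_mul, mul_assoc]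
  have k : ((-2⁻¹ : F) • (1 + a.val + b.val + a.val * b.val)) * ((-2⁻¹ : F) • (1 - a.val - b.val - a.val * b.val)) = 1 := by
    simp only [mul_add, add_mul, mul_sub, smul_mul_assoc, mul_smul_comm, mul_assoc, one_mul, mul_one, mul_neg, e1, e2, e3,
      e4, e5, e6]
    match_scalars <;> grind
  refine ⟨⟨_, _, k, mul_eq_one_comm.1 k⟩, ⟨norm_of (gen2 E ha hb e (mem_cj (y := b) (Units.ext ?_) hb)
    (mem_cj (y := a * b) (Units.ext ?_) (mul_mem ha hb)) fun x hx xa xb => mem_cj (Units.ext ?_) hx), fun σ Φ i => ?_⟩, rfl, ?_⟩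
  rotate_left 2
  · have xa : Commute a.val x.val := (congrArg Units.val xa).symm
    have xb : Commute b.val x.val := (congrArg Units.val xb).symm
    exact ((((Commute.one_left _).add_left xa).add_left xb).add_left (xa.mul_left xb)).smul_left _
  · simp only [Φ.adj_smul, Φ.adj_add, Φ.adj_mul, Φ.adj_one, adj_of_sq' (i ha) a2, adj_of_sq' (i hb) b2, Units.inv_mk,
      neg_mul_neg, e3, map_neg, map_inv₀, map_ofNat]
    module
  all_goals
    simp only [Units.val_mul, mul_add, add_mul, smul_mul_assoc, mul_smul_comm, mul_assoc, one_mul, mul_one, mul_neg, e1,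
      e2, e3, e4, e5, e6]
    match_scalars <;> grind

theorem exists_S (hx : x ∈ R) (hy : y ∈ R) (e : x * y = -(y * x)) (x2 : x * x = 1) (y2 : y * y = 1) :
    ∃ s, Sm R 2 s ∧ s.val.det ^ 2 = 2 ^ Fintype.card ι ∧ s * x = -(y * s) ∧ s * y = -(x * s) ∧
      ∀ z, x * z = -(z * x) → y * z = -(z * y) → s * z = -(z * s) := by
  have h2 := E.two_ne
  have e1 : x.val * x.val = 1 := congrArg Units.val x2
  have e2 : y.val * y.val = 1 := congrArg Units.val y2
  have e3 : y.val * x.val = -(x.val * y.val) := congrArg Units.val (an_symm e)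
  have k0 : (x.val - y.val) * (x.val - y.val) = (2 : F) • 1 := by
    simp only [mul_sub, sub_mul, e1, e2, e3]; module
  have k : (x.val - y.val) * ((2⁻¹ : F) • (x.val - y.val)) = 1 := by
    rw [mul_smul_comm, k0, inv_smul_smul₀ h2]
  let s : GL ι F := ⟨_, _, k, mul_eq_one_comm.1 k⟩
  have s1 : s * x = -(y * s) := Units.ext (by simp [s, mul_sub, sub_mul, e1, e2])
  have s2 : s * y = -(x * s) := Units.ext (by simp [s, mul_sub, sub_mul, e1, e2])
  refine ⟨s, ⟨norm_of (gen2 E hx hy e (mem_cj (s1.trans (neg_mul _ _).symm) (neg_mem_R E hy))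
    (mem_cj (s2.trans (neg_mul _ _).symm) (neg_mem_R E hx)) fun z hz a b => mem_cj (Units.ext ?_) hz), fun σ Φ i => ?_⟩,
    by rw [sq, ← det_mul, k0, det_smul, det_one, mul_one], s1, s2, fun z a b => Units.ext ?_⟩
  · exact Commute.sub_left (congrArg Units.val a).symm (congrArg Units.val b).symm
  · simp [s, Φ.adj_sub, adj_of_sq (i hx) x2, adj_of_sq (i hy) y2, smul_smul, h2]
  · have a : x.val * z.val = -(z.val * x.val) := congrArg Units.val a
    have b : y.val * z.val = -(z.val * y.val) := congrArg Units.val b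
    simp only [s, Units.val_mul, Units.val_neg, mul_sub, sub_mul, a, b]; abel

end

/-- generators of a group of symplectic type in dimension four -/
structure G4 (R : Subgroup (GL ι F)) (a b c d : GL ι F) : Prop where
  E : EData 2 R
  ma : a ∈ R
  mb : b ∈ R
  mc : c ∈ R
  md : d ∈ R
  ab : a * b = -(b * a)
  cd : c * d = -(d * c)
  ac : a * c = c * a
  ad : a * d = d * a
  bc : b * c = c * b
  bd : b * d = d * b
  gen : ∀ B, a ∈ B → b ∈ B → c ∈ B → d ∈ B → R ⊓ 𝐙 ≤ B → R ≤ B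

theorem exists_G4 [Finite F] (E : EData 2 R) (hι : Fintype.card ι = 4) : ∃ a b c d, G4 R a b c d := by
  haveI := nonempty_of_two E.two
  obtain ⟨a, ha, b, hb, e⟩ := exists_noncomm E.two E.top
  have e := bt_one.2 e
  have m : ∀ {x y : GL ι F}, x ∈ centralizer {y} ↔ x * y = y * x := mem_centralizer_singleton_iff
  have c0 := E.card_eq
  rw [hι, ← card_Z E.top] at c0
  have c1 := idx2 E le_rfl ha hb ((bt_symm _ _).trans e)
  have c2 := idx2 E (A := R ⊓ centralizer {a}) inf_le_left hb ⟨ha, m.2 rfl⟩ e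
  have z0 : 0 < Nat.card (R ⊓ 𝐙 : Subgroup _) := Nat.card_pos
  obtain ⟨c, hc, c3⟩ : ∃ c ∈ R ⊓ centralizer {a} ⊓ centralizer {b}, c ∉ R ⊓ 𝐙 := by
    by_contra! h
    have := card_le_of_le (show R ⊓ centralizer {a} ⊓ centralizer {b} ≤ R ⊓ 𝐙 from h)
    omega
  obtain ⟨d, hd, e'⟩ : ∃ d ∈ R ⊓ centralizer {a} ⊓ centralizer {b}, bt d c = 1 := by
    by_contra! h
    exact c3 ⟨hc.1.1, mem_scalars_of_comm E.top fun y hy => (m.1 (gen2 E ha hb (an_of E ha hb e)
      (m.2 (m.1 hc.1.2).symm) (m.2 (m.1 hc.2).symm) (fun x hx x1 x2 =>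
        m.2 (not_not.1 (bt_one.not.1 (h x ⟨⟨hx, m.2 x1⟩, m.2 x2⟩)))) hy)).symm⟩
  have l2 : R ⊓ centralizer {a} ⊓ centralizer {b} ≤ R := inf_le_left.trans inf_le_left
  have c4 := idx2 E l2 hc.1.1 hd e'
  have c5 := idx2 E (A := R ⊓ centralizer {a} ⊓ centralizer {b} ⊓ centralizer {c}) (inf_le_left.trans l2) hd.1.1
    ⟨hc, m.2 rfl⟩ ((bt_symm _ _).trans e')
  have c6 : R ⊓ 𝐙 = R ⊓ centralizer {a} ⊓ centralizer {b} ⊓ centralizer {c} ⊓ centralizer {d} :=
    eq_of_le_of_card_ge (le_inf (le_inf (le_inf (Z_le a) ((Z_le b).trans inf_le_right)) ((Z_le c).trans inf_le_right))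
      ((Z_le d).trans inf_le_right)) (by omega)
  exact ⟨a, b, c, d, E, ha, hb, hc.1.1, hd.1.1, an_of E ha hb e, an_symm (an_of E hd.1.1 hc.1.1 e'), (m.1 hc.1.2).symm,
    (m.1 hd.1.2).symm, (m.1 hc.2).symm, (m.1 hd.2).symm, fun B h1 h2 h3 h4 h5 => gen2 E ha hb (an_of E ha hb e) h1 h2
      fun x hx x1 x2 => le_of_an E l2 hc.1.1 hd e' h4 (le_of_an E (inf_le_left.trans l2) hd.1.1 ⟨hc, m.2 rfl⟩
        ((bt_symm _ _).trans e') h3 (c6 ▸ h5)) ⟨⟨hx, m.2 x1⟩, m.2 x2⟩⟩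

namespace G4

variable (G : G4 R a b c d)
include G

theorem swap : G4 R c d a b :=
  ⟨G.E, G.mc, G.md, G.ma, G.mb, G.cd, G.ab, G.ac.symm, G.bc.symm, G.ad.symm, G.bd.symm,
    fun B h1 h2 h3 h4 => G.gen B h3 h4 h1 h2⟩

theorem flip : G4 R b a c d :=
  ⟨G.E, G.mb, G.ma, G.mc, G.md, an_symm G.ab, G.cd, G.bc, G.bd, G.ac, G.ad, fun B h1 h2 => G.gen B h2 h1⟩

theorem mul : G4 R a (a * b) c d :=
  ⟨G.E, G.ma, mul_mem G.ma G.mb, G.mc, G.md, by rw [mul_assoc, ← mul_neg, ← G.ab], G.cd, G.ac, G.ad,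
    Commute.mul_left G.ac G.bc, Commute.mul_left G.ad G.bd, fun B h1 h2 => G.gen B h1 ((mul_mem_cancel_left h1).1 h2)⟩

theorem scal (h1 : z ∈ R) (h2 : z ∈ 𝐙) : G4 R (z * a) b c d :=
  ⟨G.E, mul_mem h1 G.ma, G.mb, G.mc, G.md, by rw [mul_assoc, G.ab, mul_neg, ← mul_assoc, scalars_comm h2, mul_assoc],
    G.cd, Commute.mul_left (scalars_comm h2 c) G.ac, Commute.mul_left (scalars_comm h2 d) G.ad, G.bc, G.bd,
    fun B a1 a2 a3 a4 a5 => G.gen B ((mul_mem_cancel_left (a5 ⟨h1, h2⟩)).1 a1) a2 a3 a4 a5⟩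

theorem sgn (he : ∀ x ∈ R, x ^ 4 = 1) (h1 : z ∈ R) (h2 : z ∈ 𝐙) (h3 : z * z = -1) :
    (∃ a', G4 R a' b c d ∧ a' * a' = 1) ∧ ∃ a', G4 R a' b c d ∧ a' * a' = -1 := by
  have := sq_cm (scalars_comm h2 a)
  rcases G.E.sq_or he G.ma with e | e
  · exact ⟨⟨a, G, e⟩, _, G.scal h1 h2, by simp [this, e, h3]⟩
  · exact ⟨⟨_, G.scal h1 h2, by simp [this, e, h3]⟩, a, G, e⟩

theorem pair (he : ∀ x ∈ R, x ^ 4 = 1) : (a * a = -1 ∧ b * b = -1) ∨ ∃ a b, G4 R a b c d ∧ a * a = 1 ∧ b * b = 1 := by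
  rcases G.E.sq_or he G.ma with e | e <;> rcases G.E.sq_or he G.mb with f | f
  · exact .inr ⟨a, b, G, e, f⟩
  · exact .inr ⟨_, _, G.mul, e, by simp [sq_an G.ab, e, f]⟩
  · exact .inr ⟨_, _, G.flip.mul, f, by simp [sq_an G.flip.ab, e, f]⟩
  · exact .inl ⟨e, f⟩

theorem an_ac : a * c * b = -(b * (a * c)) := by rw [mul_assoc, ← G.bc, ← mul_assoc, G.ab, neg_mul, mul_assoc]

theorem cz [Finite F] (hι : Fintype.card ι = 4) (a2 : a * a = 1) (c2 : c * c = 1) :
    ∃ t, Sm R 1 t ∧ t * t = 1 ∧ t.val.trace = 2 ∧ t ∉ 𝐙 := by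
  have h2 := G.E.two_ne
  have e1 : a.val * a.val = 1 := congrArg Units.val a2
  have e2 : c.val * c.val = 1 := congrArg Units.val c2
  have e3 : c.val * a.val = a.val * c.val := congrArg Units.val G.ac.symm
  have e4 : ∀ X, a.val * (a.val * X) = X := fun X => by rw [← mul_assoc, e1, one_mul]
  have e5 : ∀ X, c.val * (c.val * X) = X := fun X => by rw [← mul_assoc, e2, one_mul]
  have e6 : ∀ X, c.val * (a.val * X) = a.val * (c.val * X) := fun X => by rw [← mul_assoc, e3, mul_assoc]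
  have f1 : a.val * b.val = -(b.val * a.val) := congrArg Units.val G.ab
  have f2 : c.val * b.val = b.val * c.val := congrArg Units.val G.bc.symm
  have f3 : a.val * d.val = d.val * a.val := congrArg Units.val G.ad
  have f4 : c.val * d.val = -(d.val * c.val) := congrArg Units.val G.cd
  have f5 : ∀ X, a.val * (b.val * X) = -(b.val * (a.val * X)) := fun X => by rw [← mul_assoc, f1, neg_mul, mul_assoc]
  have f6 : ∀ X, a.val * (d.val * X) = d.val * (a.val * X) := fun X => by rw [← mul_assoc, f3, mul_assoc]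
  have k : ((2⁻¹ : F) • (1 + a.val + c.val - a.val * c.val)) * ((2⁻¹ : F) • (1 + a.val + c.val - a.val * c.val)) = 1 := by
    simp only [mul_add, add_mul, mul_sub, sub_mul, smul_mul_assoc, mul_smul_comm, mul_assoc, one_mul, mul_one, e1, e2, e3,
      e4, e5, e6]
    match_scalars <;> grind
  have k2 : (⟨_, _, k, k⟩ : GL ι F) * b = b * c * ⟨_, _, k, k⟩ := Units.ext ?_
  refine ⟨⟨_, _, k, k⟩, ⟨norm_of (G.gen _ (mem_cj (Units.ext ?_) G.ma) (mem_cj k2 (mul_mem G.mb G.mc))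
    (mem_cj (Units.ext ?_) G.mc) (mem_cj (Units.ext ?_) (mul_mem G.md G.ma)) fun x hx =>
      mem_cj (scalars_comm hx.2 _).symm hx.1), fun σ Φ i => ?_⟩, Units.ext k, ?_, fun e => ?_⟩
  rotate_left 3
  · simp only [Φ.adj_smul, Φ.adj_add, Φ.adj_sub, Φ.adj_mul, Φ.adj_one, adj_of_sq (i G.ma) a2, adj_of_sq (i G.mc) c2,
      Units.inv_mk, e3, map_inv₀, map_ofNat, one_smul]
  · have := G.E.trace_eq_zero (mul_mem G.ma G.mc) (ns_an G.E G.an_ac)
    rw [Units.val_mul] at this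
    simp only [trace_smul, trace_sub, trace_add, trace_one, hι, this, G.E.trace_eq_zero G.ma (ns_an G.E G.ab),
      G.E.trace_eq_zero G.mc (ns_an G.E G.cd), smul_eq_mul]
    grind
  · rw [scalars_comm e, mul_left_inj, left_eq_mul] at k2
    exact ns_an G.E G.cd (k2 ▸ one_mem _)
  all_goals
    simp only [Units.val_mul, mul_add, add_mul, mul_sub, sub_mul, smul_mul_assoc, mul_smul_comm, mul_assoc, one_mul,
      mul_one, mul_neg, e1, e2, e3, e4, e5, e6, f1, f2, f3, f4, f5, f6] <;> module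

theorem three [Finite F] (hι : Fintype.card ι = 4) (a2 : a * a = -1) (b2 : b * b = -1) (c2 : c * c = -1)
    (d2 : d * d = -1) : (∃ w, Sm R 1 w ∧ w ^ 3 = 1 ∧ w.val.trace = -2) ∧ ∃ w, Sm R 1 w ∧ w ^ 3 = 1 ∧ w.val.trace = 1 := by
  have h2 := G.E.two_ne
  obtain ⟨w, w1, w2, w3⟩ := exists_w G.E G.ma G.mb G.ab a2 b2
  obtain ⟨v, v1, v2, v3⟩ := exists_w G.E G.mc G.md G.cd c2 d2
  have k : ∀ {w : GL ι F}, w.val * w.val + w.val + 1 = 0 → w ^ 3 = 1 := fun {w} e => Units.ext (by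
    rw [Units.val_pow_eq_pow_val, Units.val_one, ← sub_eq_zero, ← mul_zero (w.val - 1), ← e]; noncomm_ring)
  have t : ∀ {a b w : GL ι F}, a * b = -(b * a) → w.val = (-2⁻¹ : F) • (1 + a.val + b.val + a.val * b.val) →
      ∀ X, Commute a.val X → Commute b.val X → (w.val * X).trace = -2⁻¹ * X.trace := fun {a b w} e e' X h1 h3 => by
    have f : a.val * b.val = -(b.val * a.val) := congrArg Units.val e
    simp only [e', smul_mul_assoc, add_mul, trace_smul, trace_add, one_mul, smul_eq_mul]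
    rw [tr_an h2 (y := b) (X := a.val * X) (by rw [mul_assoc, ← h3.eq, ← mul_assoc, ← mul_assoc, f, neg_mul, neg_neg]),
      tr_an h2 (y := a) (X := b.val * X) (by rw [mul_assoc, ← h1.eq, ← mul_assoc, ← mul_assoc, f, neg_mul]),
      tr_an h2 (y := a) (X := a.val * b.val * X) (by
        rw [mul_assoc _ X, ← h1.eq, ← mul_assoc _ a.val X, mul_assoc a.val b.val a.val, ← neg_neg (b.val * a.val), ← f]
        simp [mul_assoc])]
    ring
  have t1 : ∀ {a b w : GL ι F}, a * b = -(b * a) → w.val = (-2⁻¹ : F) • (1 + a.val + b.val + a.val * b.val) →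
      w.val.trace = -2 := fun e e' => by
    have := t e e' 1 (Commute.one_right _) (Commute.one_right _)
    rw [mul_one, trace_one, hι] at this
    grind
  have c : ∀ {x : GL ι F}, x * c = c * x → x * d = d * x → Commute x.val v.val := fun {x} h1 h3 => by
    have h1 : Commute x.val c.val := congrArg Units.val h1
    have h3 : Commute x.val d.val := congrArg Units.val h3
    exact v2 ▸ ((((Commute.one_right _).add_right h1).add_right h3).add_right (h1.mul_right h3)).smul_right _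
  have c1 := c G.ac G.ad
  have c3 := c G.bc G.bd
  have c4 : Commute w v := Units.ext (show Commute w.val v.val from
    w2 ▸ ((((Commute.one_left _).add_left c1).add_left c3).add_left (c1.mul_left c3)).smul_left _)
  refine ⟨⟨w, w1, k w3, t1 G.ab w2⟩, w * v, by simpa using w1.mul v1, by rw [c4.mul_pow, k w3, k v3, mul_one], ?_⟩
  rw [Units.val_mul, t G.ab w2 _ c1 c3, t1 G.cd v2]
  grind

theorem five [Finite F] (hι : Fintype.card ι = 4) (a2 : a * a = 1) (b2 : b * b = 1) (c2 : c * c = -1) (d2 : d * d = -1) :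
    ∃ h, Sm R 1 h ∧ h.val.det = 1 ∧ h ^ 5 ∈ 𝐙 ∧ h ∉ 𝐙 := by
  haveI := nonempty_of_two G.E.two
  have h2 := G.E.two_ne
  have E := G.E
  have ma := G.ma
  have mb := G.mb
  have mc := G.mc
  have md := G.md
  let g : Fin 5 → GL ι F := ![a, b, a * b * c, a * b * d, a * b * (c * d)]
  have m : ∀ i, g i ∈ R := fun i => by fin_cases i <;> simp [g, mul_mem, *]
  have abc : ∀ {x}, a * x = x * a → b * x = x * b → a * b * x * (a * b * x) = -(x * x) := fun h1 h3 => by
    simp [sq_cm (Commute.mul_left h1 h3), sq_an G.ab, a2, b2]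
  have q : ∀ i, g i * g i = 1 := fun i => by
    fin_cases i
    exacts [a2, b2, (abc G.ac G.bc).trans (by simp [c2]), (abc G.ad G.bd).trans (by simp [d2]),
      (abc (Commute.mul_right G.ac G.ad) (Commute.mul_right G.bc G.bd)).trans (by simp [sq_an G.cd, c2, d2])]
  have an : ∀ i j, i ≠ j → g i * g j = -(g j * g i) := fun i j ij => an_of E (m i) (m j) (by
    have s : ∀ x : GL ι F, bt x x = 0 := fun x => bt_zero.2 rfl
    have m1 := mul_mem ma mb
    have m2 := mul_mem mc md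
    fin_cases i <;> fin_cases j <;> first | exact absurd rfl ij | simp [g, bt_mul E, bt_mul' E, m1, m2, mul_mem m1 mc,
      mul_mem m1 md, mul_mem m1 m2, ma, mb, mc, md, s,
      bt_an E G.ab, bt_an E G.cd, bt_an E G.flip.ab, bt_an E G.swap.flip.ab, bt_zero.2 G.ac, bt_zero.2 G.ad,
      bt_zero.2 G.bc, bt_zero.2 G.bd, bt_zero.2 G.ac.symm, bt_zero.2 G.ad.symm, bt_zero.2 G.bc.symm, bt_zero.2 G.bd.symm]
      <;> decide)
  have S : ∀ i j, i ≠ j → ∃ s, Sm R 2 s ∧ s.val.det ^ 2 = 2 ^ 4 ∧ ∀ k, s * g k = -(g (Equiv.swap i j k) * s) :=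
    fun i j ij => by
      obtain ⟨s, s1, s2, s3, s4, s5⟩ := exists_S E (m i) (m j) (an i j ij) (q i) (q j)
      refine ⟨s, s1, hι ▸ s2, fun k => ?_⟩
      rcases eq_or_ne k i with rfl | ki
      · simpa using s3
      rcases eq_or_ne k j with rfl | kj
      · simpa using s4
      · rw [Equiv.swap_apply_of_ne_of_ne ki kj]; exact s5 _ (an _ _ ki.symm) (an _ _ kj.symm)
  obtain ⟨s, s1, s2, s3⟩ := S 0 1 (by decide)
  obtain ⟨t, t1, t2, t3⟩ := S 1 2 (by decide)
  obtain ⟨u, u1, u2, u3⟩ := S 2 3 (by decide)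
  obtain ⟨v, v1, v2, v3⟩ := S 3 4 (by decide)
  have h4 : (4 : F) ≠ 0 := by rw [show (4 : F) = 2 * 2 by norm_num]; exact mul_ne_zero h2 h2
  obtain ⟨h, h1, h3, h5⟩ : ∃ h, Sm R 1 h ∧ h.val.det ^ 2 = 1 ∧ ∀ k, h * g k = g (k + 1) * h := by
    refine ⟨sc ι (Units.mk0 4 h4)⁻¹ * (s * (t * (u * v))), ?_, ?_, fun k => ?_⟩
    · convert (sm_sc (R := R) (Units.mk0 4 h4)⁻¹ (by simp [map_ofNat])).mul (s1.mul (t1.mul (u1.mul v1))) using 1
      simp; grind
    · simp only [Units.val_mul, det_mul, sc_val, det_smul, mul_pow, s2, t2, u2, v2, hι]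
      simp; field_simp; norm_num
    · rw [← mul_assoc (g _), ← scalars_comm (sc_mem _) (g _), mul_assoc, mul_assoc, mul_assoc, mul_assoc, v3, mul_neg,
        ← mul_assoc u, u3, neg_mul, neg_neg, mul_assoc, ← mul_assoc t, t3, neg_mul, mul_neg, mul_assoc, ← mul_assoc s, s3,
        neg_mul, neg_neg, mul_assoc, mul_assoc]
      congr 3; revert k; decide
  have h6 : ∀ n k, h ^ n * g k = g (k + Fin.ofNat 5 n) * h ^ n := fun n k => by
    induction n with
    | zero => simp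
    | succ n ih => rw [pow_succ', mul_assoc, ih, ← mul_assoc, h5, mul_assoc, add_assoc]; congr 3; simp [Fin.ext_iff, Fin.val_add]
  have h7 : ∀ k, g k ∈ centralizer {(h * h) ^ 5} := fun k => mem_centralizer_singleton_iff.2 (by
    rw [← sq, ← pow_mul, h6, show Fin.ofNat 5 (2 * 5) = 0 from rfl, add_zero])
  refine ⟨h * h, by simpa using h1.mul h1, by rw [Units.val_mul, det_mul, ← sq, h3],
    mem_scalars_of_comm E.top fun y hy => (mem_centralizer_singleton_iff.1 (G.gen _ (h7 0) (h7 1)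
      ((mul_mem_cancel_left (mul_mem (h7 0) (h7 1))).1 (h7 2)) ((mul_mem_cancel_left (mul_mem (h7 0) (h7 1))).1 (h7 3))
      ((Z_le _).trans inf_le_right) hy)).symm, fun e => ?_⟩
  have := h6 2 0
  rw [sq, scalars_comm e, mul_left_inj] at this
  exact bt_one.1 (bt_an E (an 0 2 (by decide))) (by rw [this]; rfl)

theorem minus [Finite F] (he : ∀ x ∈ R, x ^ 4 = 1) (hR : Nat.card R = 2 ^ 5) (hm : IsOfMinusType 2 R) :
    ∃ a b c d, G4 R a b c d ∧ a * a = 1 ∧ b * b = 1 ∧ c * c = -1 ∧ d * d = -1 := by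
  haveI := nonempty_of_two G.E.two
  have E := G.E
  have k : ∀ {x y}, x ∈ R → y ∈ R → x * x = 1 → y * y = 1 → x * y = y * x → x ∉ 𝐙 → y ∉ 𝐙 → x * y ∉ 𝐙 → False :=
    not_minus E.two_ne hR hm (neg_mem_R E (one_mem _))
  rcases G.pair he with ⟨a2, b2⟩ | ⟨a, b, G, a2, b2⟩ <;> rcases G.swap.pair he with ⟨c2, d2⟩ | ⟨c, d, G, c2, d2⟩
  · have s : ∀ x : GL ι F, bt x x = 0 := fun x => bt_zero.2 rfl
    have ma := G.ma
    have mb := G.mb
    have mc := G.mc
    have md := G.md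
    refine (k (mul_mem ma mc) (mul_mem mb md) (by simp [sq_cm G.ac, a2, c2]) (by simp [sq_cm G.bd, b2, d2])
      (bt_zero.1 ?_) (ns_an E G.an_ac) (ns_an E G.flip.swap.flip.swap.an_ac) fun e =>
        bt_one.1 ?_ (scalars_comm e a)).elim <;>
    simp [bt_mul E, bt_mul' E, mul_mem, ma, mb, mc, md, s, bt_an E G.ab, bt_an E G.cd, bt_an E G.flip.ab,
      bt_zero.2 G.ad, bt_zero.2 G.ac.symm, bt_zero.2 G.ad.symm, bt_zero.2 G.bc.symm]
    decide
  · exact ⟨_, _, _, _, G, c2, d2, a2, b2⟩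
  · exact ⟨_, _, _, _, G, a2, b2, c2, d2⟩
  · exact (k G.ma G.mc c2 a2 G.ac (ns_an E G.ab) (ns_an E G.cd) (ns_an E G.an_ac)).elim

end G4

end H27.C6
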