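import Cfsg.Agent.H27.C6c

/-! Elements of prime order and normalizers of groups of symplectic type, IV: classes in dimension four. -/

set_option autoImplicit false

namespace H27.C6

open Matrix Module Cfsg Cfsg.Geo H27.Sp H27.Asch H25.El Subgroup
open H22 hiding mem_scalars

variable {F : Type*} [Field F] {ι : Type} [Fintype ι] [DecidableEq ι] {R G I : Subgroup (GL ι F)}
  {h g x y z t s a b c d w : GL ι F} {r r₀ k : ℕ}

local notation "𝐍" => subgroupNormalizer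
local notation "𝐙" => scalars ι F
local notation "𝐊" => AlgebraicClosure F

/-- a conjugate of `x` normalizes `R` -/
def FP (G R : Subgroup (GL ι F)) (x : GL ι F) : Prop := ∃ g ∈ G, g⁻¹ * x * g ∈ 𝐍 R

/-- every element of order `r` modulo scalars has a conjugate normalizing `R` -/
def El (G R : Subgroup (GL ι F)) (r : ℕ) : Prop := ∀ x ∈ G, x ^ r ∈ 𝐙 → x ∉ 𝐙 → FP G R x

theorem el_iff [Nonempty ι] : (∀ x ∈ G, (∃ z : F, ((x ^ r : GL ι F) : Matrix ι ι F) = z • (1 : Matrix ι ι F)) →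
    (∀ z : F, (x : Matrix ι ι F) ≠ z • (1 : Matrix ι ι F)) → ∃ g ∈ G, g⁻¹ * x * g ∈ 𝐍 R) ↔ El G R r := by
  simp only [El, mem_scalars, not_exists]; rfl

theorem FP.of_sc (hw : w ∈ 𝐙) (h : FP G R (w * x)) : FP G R x :=
  let ⟨g, a, b⟩ := h
  ⟨g, a, (mul_mem_cancel_left (sc_norm hw)).1 (by rwa [← mul_assoc g⁻¹, ← scalars_comm hw, mul_assoc w, mul_assoc w] at b)⟩

theorem CP.fp (h : CP G) (hx : x ∈ G) (hy : y ∈ G) (hn : y ∈ 𝐍 R) (hk : (k : F) ≠ 0) (e : x ^ k = 1)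
    (s : Sim (glE x) (glE y)) : FP G R x :=
  let ⟨g, a, b⟩ := h x hx y hy k hk e s; ⟨g, a, b ▸ hn⟩

theorem El.get (h : El G R r) (hx : x ∈ G) (h1 : x ^ r ∈ 𝐙) (h2 : x ∉ 𝐙) :
    ∃ g : GL ι F, g⁻¹ * x * g ∈ 𝐍 R ∧ (g⁻¹ * x * g) ^ r ∈ 𝐙 ∧ g⁻¹ * x * g ∉ 𝐙 :=
  let ⟨g, _, b⟩ := h x hx h1 h2
  ⟨g, b, by rw [← inv_inv g, inv_inv g⁻¹, conj_pow]; exact scalars_normal.conj_mem _ h1 _,
    fun e => h2 (by simpa [mul_assoc] using scalars_normal.conj_mem _ e g)⟩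

theorem sc_pow_card (hw : w ∈ 𝐙) (h : w.val.det = 1) : w ^ Fintype.card ι = 1 := by
  obtain ⟨c, rfl⟩ := exists_sc hw
  rw [← map_pow, show c ^ Fintype.card ι = 1 from Units.ext (by simpa [sc_val] using h), map_one]

theorem El.prime [Finite F] [Fact r.Prime] (h : El G R r) (hG : G ≤ specialLinear ι F) (hΩ : r ∣ (𝐍 R).relIndex G)
    (hr : r.Coprime (Fintype.card ι)) : ∃ h ∈ 𝐍 R, h ^ r ∈ 𝐙 ∧ h ∉ 𝐙 := by
  obtain ⟨x, hx⟩ := exists_prime_orderOf_dvd_card' r (hΩ.trans (index_dvd_card _))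
  have e : x.1 ^ r = 1 := by rw [← hx, ← orderOf_coe, pow_orderOf_eq_one]
  obtain ⟨g, h⟩ := h.get x.2 (e ▸ one_mem _) fun e' => by
    rw [show x = 1 from Subtype.ext ((pow_eq_one_iff_of_coprime hr).1 ⟨e, sc_pow_card e' (mem_SL.1 (hG x.2))⟩),
      orderOf_one] at hx
    exact (Fact.out : r.Prime).one_lt.ne hx
  exact ⟨_, h⟩

theorem El.quad (h : El G R r) (E : EData r₀ R) (h6 : r.Coprime 6) (h2 : r.Coprime r₀) (hx : x ∈ G) (h1 : x ^ r ∈ 𝐙)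
    {α β : F} (e : x.val * x.val = α • x.val + β • 1) : x ∈ 𝐙 := by
  by_contra n
  obtain ⟨g, a, b, c⟩ := h.get hx h1 n
  refine c (not_quad E a b h6 h2 (α := α) (β := β) ?_)
  rw [← Units.val_mul, show g⁻¹ * x * g * (g⁻¹ * x * g) = g⁻¹ * (x * x) * g by group]
  simp [e, mul_add, add_mul]

theorem El.rank (h : El G R r) (E : EData 2 R) (h2 : r.Coprime 2) (hι : 3 ≤ Fintype.card ι) (hx : x ∈ G)
    (h1 : x ^ r ∈ 𝐙) {c : F} (φ : (ι → F) →ₗ[F] F) (e : ∀ v, φ v = 0 → x.val *ᵥ v = c • v) : x ∈ 𝐙 := by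
  by_contra n
  obtain ⟨g, a, b, d⟩ := h.get hx h1 n
  refine d (not_rank_one E a b h2 hι (c := c) (φ := φ.comp (toLin' g.val)) fun v hv => ?_)
  rw [Units.val_mul, Units.val_mul, ← mulVec_mulVec, ← mulVec_mulVec, e (g.val *ᵥ v) hv, mulVec_smul, inv_mulVec_mulVec]

theorem El.cyc [Finite F] (h : El G R 3) (E : EData 2 R) (he : ∀ x ∈ R, x ^ 4 = 1) (hR : Nat.card R = 2 ^ 5)
    (hm : IsOfMinusType 2 R) (hz : ∀ z ∈ R, z ∈ 𝐙 → z * z = 1) (ha : a ∈ R) (a2 : a * a = 1) (a0 : a ∉ 𝐙) (hx : x ∈ G)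
    (h1 : x ^ 3 ∈ 𝐙) (h2 : x ∉ 𝐙) {e : ι → F} (e0 : x.val *ᵥ e - e ≠ 0)
    (hv : ∀ u, ∃ α β : F, x.val *ᵥ u - u = α • (x.val *ᵥ e - e) + β • x.val *ᵥ (x.val *ᵥ e - e)) : False := by
  haveI := nonempty_of_two E.two
  obtain ⟨g, n, b, -⟩ := h.get hx h1 h2
  have := cyc_comm E n b ((mulVec_eq_zero_iff g⁻¹).not.2 e0) (fun t ht => by
    have c : x * (g * t * g⁻¹) = g * t * g⁻¹ * x := by
      calc _ = g * (g⁻¹ * x * g * t) * g⁻¹ := by group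
        _ = _ := by rw [ht]; group
    obtain ⟨α, β, f⟩ := hv ((g * t * g⁻¹).val *ᵥ e)
    refine ⟨α, β, ?_⟩
    rw [mulVec_mulVec, ← Units.val_mul, c, Units.val_mul, ← mulVec_mulVec, ← mulVec_sub] at f
    have := congrArg ((g⁻¹).val *ᵥ ·) f
    simp only [Units.val_mul, ← mulVec_mulVec, inv_mulVec_mulVec, mulVec_add, mulVec_smul] at this
    simp only [Units.val_mul, ← mulVec_mulVec, mulVec_inv_mulVec, this]) ha
  generalize g⁻¹ * x * g = h at *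
  have k : ∀ {a}, a * a = 1 → a ∉ 𝐙 → h * a * h⁻¹ * (h * a * h⁻¹) = 1 ∧ h * a * h⁻¹ ∉ 𝐙 := fun e f =>
    ⟨by rw [conj_mul, e, mul_one, mul_inv_cancel], fun e => f (by simpa [mul_assoc] using scalars_normal.conj_mem' _ e h)⟩
  obtain ⟨b2, b0⟩ := k a2 a0
  obtain ⟨c2, c0⟩ := k b2 b0
  have hb := nm_conj n ha
  have hc := nm_conj n hb
  generalize h * (h * a * h⁻¹) * h⁻¹ = c at *
  generalize h * a * h⁻¹ = b at *
  have e1 : a * b = a * b * c * c := by rw [mul_assoc _ c, c2, mul_one]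
  have e2 : a * b * (a * b) = 1 := by
    rw [e1, sq_cm (scalars_comm this c), hz _ (mul_mem (mul_mem ha hb) hc) this, c2, mul_one]
  refine not_minus E.two_ne hR hm (neg_mem_R E (one_mem _)) ha hb a2 b2 ?_ a0 b0 fun e =>
    c0 ((mul_mem_cancel_left e).1 this)
  rw [eq_inv_of_mul_eq_one_left e2, _root_.mul_inv_rev, inv_eq_of_mul_eq_one_left a2, inv_eq_of_mul_eq_one_left b2]

theorem cast_ne {m n : ℕ} (h : (m : F) ≠ 0) (h' : (n : F) ≠ 0) : ((m * n : ℕ) : F) ≠ 0 := by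
  push_cast; exact mul_ne_zero h h'

variable [Finite F] (hι : Fintype.card ι = 4)
include hι

theorem ne4 : Nonempty ι := nonempty_of_two (by omega)

theorem inv_cl (h2 : (2 : F) ≠ 0) (e : y * y = 1) (hy : y ∉ 𝐙) : ∃ j, EV (glE y) (.replicate (4 - j) (1 : 𝐊) + .replicate j (-1)) ∧
    (j = 1 ∧ y.val.trace = 2 ∧ y.val.det = -1 ∨ j = 2 ∧ y.val.trace = 0 ∨ j = 3 ∧ y.val.trace = -2 ∧ y.val.det = -1) := by
  haveI := ne4 hι
  have e' : (y ^ 2).val = (1 : F) • 1 := by simp [sq, e]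
  obtain ⟨E, hE⟩ := exists_ev 𝐊 (k := 2) h2 e'
  obtain ⟨i, j, rfl⟩ := two_val (E := E) (u := 1) (v := -1) fun a ha => sq_eq_one_iff.1 (by simpa using ev_pow hE two_ne_zero e' a ha)
  have c := ev_card hE
  simp only [Multiset.card_add, Multiset.card_replicate, hι] at c
  obtain rfl : i = 4 - j := by omega
  have t := ev_trace hE
  have d := ev_det hE
  have inj := (algebraMap F 𝐊).injective
  refine ⟨j, hE, ?_⟩
  have : j ≤ 4 := by omega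
  interval_cases j
  · exact (hy (mem_scalars.2 ⟨1, ev_scalar hE (by simp)⟩)).elim
  · exact .inl ⟨rfl, inj (by rw [t, map_ofNat]; norm_num), inj (by rw [d]; simp)⟩
  · exact .inr (.inl ⟨rfl, inj (by rw [t]; simp)⟩)
  · exact .inr (.inr ⟨rfl, inj (by rw [t, map_neg, map_ofNat]; norm_num), inj (by rw [d]; norm_num)⟩)
  · exact (hy (mem_scalars.2 ⟨-1, ev_scalar hE (by simp)⟩)).elim

theorem sim_inv (h2 : (2 : F) ≠ 0) (e : x * x = 1) (hx : x ∉ 𝐙) (e' : y * y = 1) (hy : y ∉ 𝐙)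
    (t : x.val.trace = y.val.trace) : Sim (glE x) (glE y) := by
  obtain ⟨i, a, b⟩ := inv_cl hι h2 e hx
  obtain ⟨j, c, d⟩ := inv_cl hι h2 e' hy
  have : (4 : F) ≠ 0 := cast_ne (m := 2) (n := 2) h2 h2
  obtain rfl : i = j := by grind
  exact a.sim c

theorem tr_inv (h2 : (2 : F) ≠ 0) (e : y * y = 1) (hy : y ∉ 𝐙) (d : y.val.det = 1) : y.val.trace = 0 := by
  obtain ⟨i, -, b⟩ := inv_cl hι h2 e hy
  grind

theorem sq_root (h2 : (2 : F) ≠ 0) {z : F} (e : (x ^ 2).val = z • 1) (d : x.val.det = 1) :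
    z * z = 1 ∨ (x.val.trace / 2) ^ 2 = z := by
  haveI := ne4 hι
  obtain ⟨E, hE⟩ := exists_ev 𝐊 (k := 2) h2 e
  have p := ev_pow hE two_ne_zero e
  have t := ev_trace hE
  have d' := ev_det hE
  obtain ⟨a, b, c, f, rfl⟩ := Multiset.card_eq_four.1 ((ev_card hE).trans hι)
  simp only [Multiset.insert_eq_cons, Multiset.mem_cons, Multiset.mem_singleton, forall_eq_or_imp, forall_eq,
    Multiset.sum_cons, Multiset.sum_singleton, Multiset.prod_cons, Multiset.prod_singleton, d, map_one] at p t d'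
  have h2' : (2 : 𝐊) ≠ 0 := by rw [← map_ofNat (algebraMap F 𝐊)]; exact (_root_.map_ne_zero _).2 h2
  simp only [← (algebraMap F 𝐊).injective.eq_iff, map_mul, map_pow, map_div₀, map_ofNat, map_one, t]
  obtain ⟨p1, p2, p3, p4⟩ := p
  rw [← p1] at p2 p3 p4 ⊢
  rcases sq_eq_sq_iff_eq_or_eq_neg.1 p2 with rfl | rfl <;> rcases sq_eq_sq_iff_eq_or_eq_neg.1 p3 with rfl | rfl <;>
    rcases sq_eq_sq_iff_eq_or_eq_neg.1 p4 with rfl | rfl <;>
    first | (left; linear_combination -d') | (right; field_simp; ring)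

theorem ev_M [NeZero k] (hk : (k : F) ≠ 0) {ζ : 𝐊} (hζ : IsPrimitiveRoot ζ k) (e : y ^ k = 1) :
    ∃ a b c d : ZMod k, EV (glE y) (({a, b, c, d} : Multiset _).map (ee ζ)) := by
  have e' : (y ^ k).val = (1 : F) • 1 := by simp [e]
  obtain ⟨E, hE⟩ := exists_ev 𝐊 hk e'
  obtain ⟨M, rfl⟩ := exists_M hζ fun a ha => by simpa using ev_pow hE (NeZero.ne k) e' a ha
  obtain ⟨a, b, c, d, rfl⟩ := Multiset.card_eq_four.1 (by simpa [hι] using ev_card hE)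
  exact ⟨a, b, c, d, hE⟩

omit hι [Finite F] in
theorem ee_pow {K : Type*} [Field K] [NeZero k] {ζ : K} (h : ζ ^ k = 1) (M : Multiset (ZMod k)) : ∀ a ∈ M.map (ee ζ), a ^ k = 1 := by
  simp only [Multiset.forall_mem_map_iff, ee]
  exact fun a _ => by rw [pow_right_comm, h, one_pow]

theorem cl3 (h3 : (3 : F) ≠ 0) {ζ : 𝐊} (hζ : IsPrimitiveRoot ζ 3) (e : y ^ 3 = 1)
    (st : ∀ E : Multiset 𝐊, EV (glE y) E → (∀ a ∈ E, a ^ 3 = 1) → E.map (·⁻¹) = E) :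
    y = 1 ∨ EV (glE y) {1, 1, ζ, ζ ^ 2} ∧ y.val.trace = 1 ∨ EV (glE y) {ζ, ζ, ζ ^ 2, ζ ^ 2} ∧ y.val.trace = -2 := by
  haveI := ne4 hι
  obtain ⟨a, b, c, d, hE⟩ := ev_M hι (k := 3) h3 hζ e
  have s := hζ.geom_sum_eq_zero (by decide)
  simp only [Finset.sum_range_succ, Finset.sum_range_zero] at s
  have inj := (algebraMap F 𝐊).injective
  rcases (by decide : ∀ a b c d : ZMod 3, ({a, b, c, d} : Multiset _).map (- ·) = {a, b, c, d} →
    ({a, b, c, d} : Multiset _) = {0, 0, 0, 0} ∨ ({a, b, c, d} : Multiset _) = {0, 0, 1, 2} ∨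
      ({a, b, c, d} : Multiset _) = {1, 1, 2, 2}) a b c d (ee_st hζ (fun m => (ee_neg hζ.pow_eq_one m).symm)
        (st _ hE (ee_pow hζ.pow_eq_one _))) with h | h | h <;> rw [h] at hE
  · exact .inl (Units.ext ((ev_scalar hE (c := 1) (by simp [ee])).trans (one_smul _ _)))
  · replace hE : EV (glE y) {1, 1, ζ, ζ ^ 2} := by simpa [ee, ZMod.val_one, show (2 : ZMod 3).val = 2 from rfl] using hE
    exact .inr (.inl ⟨hE, inj (by rw [ev_trace hE]; simp; linear_combination s)⟩)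
  · replace hE : EV (glE y) {ζ, ζ, ζ ^ 2, ζ ^ 2} := by simpa [ee, ZMod.val_one, show (2 : ZMod 3).val = 2 from rfl] using hE
    exact .inr (.inr ⟨hE, inj (by rw [ev_trace hE, map_neg, map_ofNat]; simp; linear_combination 2 * s)⟩)

theorem cl5 (h5 : (5 : F) ≠ 0) {ζ : 𝐊} (hζ : IsPrimitiveRoot ζ 5) (e : y ^ 5 = 1) (y1 : y ≠ 1) {j : ℕ} (hj : j = 2 ∨ j = 3)
    (st : ∀ E : Multiset 𝐊, EV (glE y) E → (∀ a ∈ E, a ^ 5 = 1) → E.map (· ^ j) = E) :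
    EV (glE y) (({1, 2, 3, 4} : Multiset (ZMod 5)).map (ee ζ)) := by
  obtain ⟨a, b, c, d, hE⟩ := ev_M hι (k := 5) h5 hζ e
  rcases (by decide +kernel : ∀ j : ZMod 5, j = 2 ∨ j = 3 → ∀ a b c d : ZMod 5,
    ({a, b, c, d} : Multiset _).map (j * ·) = {a, b, c, d} → ({a, b, c, d} : Multiset _) = {0, 0, 0, 0} ∨
      ({a, b, c, d} : Multiset _) = {1, 2, 3, 4}) j (by rcases hj with rfl | rfl <;> simp) a b c d
      (ee_st hζ (fun m => (ee_mul hζ.pow_eq_one j m).symm) (st _ hE (ee_pow hζ.pow_eq_one _))) with h | h <;> rw [h] at hE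
  · exact (y1 (Units.ext ((ev_scalar hE (c := 1) (by simp [ee])).trans (one_smul _ _)))).elim
  · exact hE

theorem cl4 (h2 : (2 : F) ≠ 0) {ζ : 𝐊} (hζ : IsPrimitiveRoot ζ 4) (e : y * y = -1)
    (st : ∀ E : Multiset 𝐊, EV (glE y) E → E.map (·⁻¹) = E) :
    EV (glE y) (({1, 1, 3, 3} : Multiset (ZMod 4)).map (ee ζ)) := by
  obtain ⟨a, b, c, d, hE⟩ := ev_M hι (k := 4) (cast_ne (m := 2) (n := 2) h2 h2) hζ
    (show y ^ (2 * 2) = 1 by rw [pow_mul, sq y, e, neg_one_sq])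
  have p := ev_pow hE two_ne_zero (c := -1) (by simp [sq, e])
  have k : ∀ m : ZMod 4, ee ζ m ^ 2 = algebraMap F 𝐊 (-1) → 2 * m = 2 := fun m h => ee_inj hζ (by
    rw [show 2 * m = (2 : ℕ) * m from rfl, ee_mul hζ.pow_eq_one, h, map_neg, map_one]
    exact ((hζ.pow (by decide) (show 4 = 2 * 2 from rfl)).eq_neg_one_of_two_right).symm)
  simp only [Multiset.forall_mem_map_iff] at p
  rwa [(by decide +kernel : ∀ a b c d : ZMod 4, ({a, b, c, d} : Multiset _).map (- ·) = {a, b, c, d} →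
    2 * a = 2 → 2 * b = 2 → 2 * c = 2 → 2 * d = 2 → ({a, b, c, d} : Multiset _) = {1, 1, 3, 3}) a b c d
    (ee_st hζ (fun m => (ee_neg hζ.pow_eq_one m).symm) (st _ hE)) (k _ (p _ (by simp))) (k _ (p _ (by simp)))
    (k _ (p _ (by simp))) (k _ (p _ (by simp)))] at hE

omit hι [Finite F] in
theorem ns_mul (hw : w ∈ 𝐙) (hx : x ∉ 𝐙) : w * x ∉ 𝐙 := fun e => hx ((mul_mem_cancel_left hw).1 e)

variable (hG : CP (I ⊓ specialLinear ι F)) (hI : ∀ h, Sm R 1 h → h ∈ I)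
include hG hI

theorem fp_inv (E : EData 2 R) (ha : a ∈ R) (a2 : a * a = 1) (a0 : a ∉ 𝐙) (hy : y ∈ I ⊓ specialLinear ι F)
    (e : y * y = 1) (y0 : y ∉ 𝐙) : FP (I ⊓ specialLinear ι F) R y :=
  have s := sim_inv hι E.two_ne e y0 a2 a0 ((tr_inv hι E.two_ne e y0 (mem_SL.1 hy.2)).trans (E.trace_eq_zero ha a0).symm)
  hG.fp hy ⟨hI _ (sm_of_mem ha), mem_SL.2 ((sim_det s).symm.trans (mem_SL.1 hy.2))⟩ (le_normalizer ha) (k := 2)
    E.two_ne ((sq y).trans e) s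

theorem el_two (D : G4 R a b c d) (a2 : a * a = 1) (c2 : c * c = 1) (h1 : z ∈ R) (h2 : z ∈ 𝐙) (h3 : z * z = -1)
    (hs : ∀ (u : Fˣ) (y : GL ι F), sc ι u * y ∈ I → y * y = 1 → y.val.trace = 2 → sc ι u ∈ I) :
    El (I ⊓ specialLinear ι F) R 2 := fun x hx e x0 => by
  haveI := ne4 hι
  have t2 := D.E.two_ne
  have k := fun y => fp_inv hι hG hI D.E D.ma a2 (ns_an D.E D.ab) (y := y)
  obtain ⟨u, hu⟩ := exists_sc e
  rcases sq_root hι t2 (hu ▸ sc_val u) (mem_SL.1 hx.2) with f | f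
  · rcases mul_self_eq_one_iff.1 f with f | f
    · exact k x hx (Units.ext (by simp [← sq, hu, sc_val, f])) x0
    · refine (k _ (mul_mem ⟨hI _ (sm_of_mem h1), mem_SL.2 ?_⟩ hx) ?_ (ns_mul h2 x0)).of_sc h2
      · obtain ⟨v, rfl⟩ := exists_sc h2
        have : (v : F) * v = -1 := congrArg Units.val (sc_injective (ι := ι) (a₁ := v * v) (a₂ := -1)
          (by rw [map_mul, h3]; exact Units.ext (by simp [sc_val])))
        simp only [sc_val, det_smul, hι, det_one]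
        grind
      · rw [sq_cm (scalars_comm h2 x), h3, ← sq, hu]
        exact Units.ext (by simp [sc_val, f])
  · obtain ⟨t, t1, t3, t4, t5⟩ := D.cz hι a2 c2
    obtain ⟨v, hv⟩ : ∃ v : Fˣ, v = x.val.trace / 2 := ⟨.mk0 _ fun e => u.ne_zero (by rw [← f, e]; simp), rfl⟩
    have f' : v ^ 2 = u := Units.ext (by simpa [hv] using f)
    have y2 : sc ι v⁻¹ * x * (sc ι v⁻¹ * x) = 1 := by
      rw [sq_cm (scalars_comm (sc_mem _) x), ← sq x, hu, ← f', ← map_mul, ← map_mul, ← map_one (sc ι)]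
      congr 1; group
    have y3 : (sc ι v⁻¹ * x).val.trace = 2 := by
      simp only [Units.val_mul, sc_val, smul_mul_assoc, one_mul, trace_smul, smul_eq_mul, Units.val_inv_eq_inv_val]
      have := v.ne_zero
      grind
    have s := sim_sc (sim_inv hι t2 y2 (ns_mul (sc_mem _) x0) t3 t5 (y3.trans t4.symm)) v
    have e1 : sc ι v * (sc ι v⁻¹ * x) = x := by simp
    rw [e1] at s
    refine hG.fp hx ⟨mul_mem (hs v _ (e1.symm ▸ hx.1) y2 y3) (hI _ t1), mem_SL.2 ((sim_det s).symm.trans (mem_SL.1 hx.2))⟩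
      (mul_mem (sc_norm (sc_mem _)) t1.1) (k := 2 * 4)
        (cast_ne t2 (cast_ne (m := 2) (n := 2) t2 t2)) ?_ s
    rw [pow_mul, ← hι]
    exact sc_pow_card e (mem_SL.1 (pow_mem hx.2 2))

theorem el_three (h3 : (3 : F) ≠ 0) (D : G4 R a b c d) (a2 : a * a = -1) (b2 : b * b = -1) (c2 : c * c = -1) (d2 : d * d = -1)
    (st : ∀ y ∈ I, ∀ E : Multiset 𝐊, EV (glE y) E → (∀ a ∈ E, a ^ 3 = 1) → E.map (·⁻¹) = E) :
    El (I ⊓ specialLinear ι F) R 3 := fun x hx e x0 => by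
  have t2 := D.E.two_ne
  obtain ⟨ζ, hζ⟩ := exists_prim (K := 𝐊) (k := 3) F h3
  obtain ⟨⟨v, v1, v2, v3⟩, w, w1, w2, w3⟩ := D.three hι a2 b2 c2 d2
  have hy := mul_mem (pow_mem hx 3) hx
  have y3 : (x ^ 3 * x) ^ 3 = 1 := by
    rw [← pow_succ, ← pow_mul, mul_comm, pow_mul, show 3 + 1 = _ from hι.symm]; exact sc_pow_card e (mem_SL.1 (pow_mem hx.2 3))
  have k : ∀ {w}, Sm R 1 w → Sim (glE (x ^ 3 * x)) (glE w) → FP (I ⊓ specialLinear ι F) R x := fun w1 s =>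
    (hG.fp hy ⟨hI _ w1, mem_SL.2 ((sim_det s).symm.trans (mem_SL.1 hy.2))⟩ w1.1 (k := 3) h3 y3 s).of_sc e
  have t1 : (1 : GL ι F).val.trace = 4 := by simp [hι]
  have t6 : (6 : F) ≠ 0 := cast_ne (m := 2) (n := 3) t2 h3
  rcases cl3 hι h3 hζ y3 (st _ hy.1) with f | f | f
  · exact (ns_mul e x0 (f ▸ one_mem _)).elim
  · rcases cl3 hι h3 hζ w2 (st _ (hI _ w1)) with rfl | g | g
    · grind
    · exact k w1 (f.1.sim g.1)
    · grind
  · rcases cl3 hι h3 hζ v2 (st _ (hI _ v1)) with rfl | g | g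
    · grind
    · grind
    · exact k v1 (f.1.sim g.1)

theorem el_five (h5 : (5 : F) ≠ 0) (D : G4 R a b c d) (a2 : a * a = 1) (b2 : b * b = 1) (c2 : c * c = -1) (d2 : d * d = -1)
    {j : ℕ} (hj : j = 2 ∨ j = 3) (st : ∀ y ∈ I, ∀ E : Multiset 𝐊, EV (glE y) E → (∀ a ∈ E, a ^ 5 = 1) → E.map (· ^ j) = E) :
    El (I ⊓ specialLinear ι F) R 5 := fun x hx e x0 => by
  obtain ⟨ζ, hζ⟩ := exists_prim (K := 𝐊) (k := 5) F h5
  have k : ∀ x ∈ I ⊓ specialLinear ι F, x ^ 5 ∈ 𝐙 → x ∉ 𝐙 → ((x ^ 5) ^ 3 * x) ^ 5 = 1 ∧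
      EV (glE ((x ^ 5) ^ 3 * x)) (({1, 2, 3, 4} : Multiset (ZMod 5)).map (ee ζ)) := fun x hx e x0 => by
    have : ((x ^ 5) ^ 3 * x) ^ 5 = 1 := by
      rw [show ((x ^ 5) ^ 3 * x) ^ 5 = ((x ^ 5) ^ 4) ^ 4 by group, ← hι, sc_pow_card e (mem_SL.1 (pow_mem hx.2 5)), one_pow]
    exact ⟨this, cl5 hι h5 hζ this (fun f => ns_mul (pow_mem e 3) x0 (f ▸ one_mem _)) hj
      (st _ (mul_mem (pow_mem (pow_mem hx.1 5) 3) hx.1))⟩
  obtain ⟨h, h1, h2, h3, h4⟩ := D.five hι a2 b2 c2 d2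
  have hh : h ∈ I ⊓ specialLinear ι F := ⟨hI _ h1, mem_SL.2 h2⟩
  exact (hG.fp (mul_mem (pow_mem (pow_mem hx 5) 3) hx) (mul_mem (pow_mem (pow_mem hh 5) 3) hh)
    (mul_mem (pow_mem (pow_mem h1.1 5) 3) h1.1) (k := 5) h5 (k x hx e x0).1
    ((k x hx e x0).2.sim (k h hh h3 h4).2)).of_sc (pow_mem e 3)

end H27.C6
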