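import Cfsg.Agent.H27.C6d
import Cfsg.Agent.H11.Pfaff
import Mathlib.NumberTheory.LegendreSymbol.QuadraticChar.GaussSum

/-! Elements of prime order and normalizers of groups of symplectic type, V: dimension four. -/

set_option autoImplicit false

namespace H27.C6

open Matrix Module Cfsg Cfsg.Geo H27.Sp H27.Asch H25.El Subgroup
open H22 hiding mem_scalars

variable {F : Type*} [Field F] {ι : Type} [Fintype ι] [DecidableEq ι] {R G I : Subgroup (GL ι F)}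
  {h g x y z t s a b c d w : GL ι F} {r r₀ k p : ℕ}

local notation "𝐍" => subgroupNormalizer
local notation "𝐙" => scalars ι F
local notation "𝐊" => AlgebraicClosure F

theorem G4.sg (D : G4 R a b c d) (he : ∀ x ∈ R, x ^ 4 = 1) (h1 : z ∈ R) (h2 : z ∈ 𝐙) (h3 : z * z = -1) {e : GL ι F}
    (h : e = 1 ∨ e = -1) : ∃ a', G4 R a' b c d ∧ a' * a' = e := by
  rcases h with rfl | rfl
  exacts [(D.sgn he h1 h2 h3).1, (D.sgn he h1 h2 h3).2]

theorem G4.nf (D : G4 R a b c d) (he : ∀ x ∈ R, x ^ 4 = 1) (h1 : z ∈ R) (h2 : z ∈ 𝐙) (h3 : z * z = -1) {e f : GL ι F}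
    (h : e = 1 ∨ e = -1) (h' : f = 1 ∨ f = -1) :
    ∃ a b c d, G4 R a b c d ∧ a * a = e ∧ b * b = e ∧ c * c = f ∧ d * d = f := by
  obtain ⟨a, D, a2⟩ := D.sg he h1 h2 h3 h
  obtain ⟨b, D, b2⟩ := D.flip.sg he h1 h2 h3 h
  obtain ⟨c, D, c2⟩ := D.swap.sg he h1 h2 h3 h'
  obtain ⟨d, D, d2⟩ := D.flip.sg he h1 h2 h3 h'
  exact ⟨_, _, _, _, D.swap, b2, a2, d2, c2⟩

theorem main4 [Finite F] [Fact r.Prime] (hι : Fintype.card ι = 4) (hG : CP (I ⊓ specialLinear ι F))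
    (hI : ∀ h, Sm R 1 h → h ∈ I) (E : EData 2 R) (he : ∀ x ∈ R, x ^ 4 = 1) (hz : Nat.card (center R) = 4)
    (hs : ∀ (u : Fˣ) (y : GL ι F), sc ι u * y ∈ I → y * y = 1 → y.val.trace = 2 → sc ι u ∈ I)
    (hΩ : r ∣ (𝐍 R).relIndex (I ⊓ specialLinear ι F)) {P Q : Prop}
    (s3 : P → (3 : F) ≠ 0 ∧ ∀ y ∈ I, ∀ E : Multiset 𝐊, EV (glE y) E → (∀ a ∈ E, a ^ 3 = 1) → E.map (·⁻¹) = E)
    (n3 : ¬ P → ∃ x ∈ I ⊓ specialLinear ι F, x ^ 3 = 1 ∧ x ∉ 𝐙 ∧ ∃ (c : F) (φ : (ι → F) →ₗ[F] F),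
      ∀ v, φ v = 0 → x.val *ᵥ v = c • v)
    (s5 : Q → (5 : F) ≠ 0 ∧ ∃ j, (j = 2 ∨ j = 3) ∧
      ∀ y ∈ I, ∀ E : Multiset 𝐊, EV (glE y) E → (∀ a ∈ E, a ^ 5 = 1) → E.map (· ^ j) = E)
    (n5 : ¬ Q → ∃ x ∈ I ⊓ specialLinear ι F, x ^ 5 = 1 ∧ x ∉ 𝐙 ∧ ∃ α β : F, x.val * x.val = α • x.val + β • 1) :
    El (I ⊓ specialLinear ι F) R r ↔ r = 2 ∨ r = 3 ∧ P ∨ r = 5 ∧ Q := by
  obtain ⟨ζ, h1, h2⟩ := E.exists_gen
  have h3 : sc ι ζ * sc ι ζ = -1 := by
    have := (show IsPrimitiveRoot ζ 4 from hz ▸ h1 ▸ .orderOf ζ).map_of_injective (f := Units.coeHom F) Units.val_injective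
    have := (this.pow (by decide) (show 4 = 2 * 2 from rfl)).eq_neg_one_of_two_right
    rw [← map_mul, ← sq, show ζ ^ 2 = -1 from Units.ext this]
    exact Units.ext (by simp [sc_val])
  obtain ⟨a, b, c, d, D⟩ := exists_G4 E hι
  have nf := fun e f => D.nf he ((h2 ζ).2 (mem_zpowers _)) (sc_mem _) h3 (e := e) (f := f)
  refine ⟨fun h => ?_, ?_⟩
  · by_cases r2 : r = 2
    · exact .inl r2
    obtain ⟨g, g1, g2, g3⟩ := h.prime inf_le_right hΩ (hι ▸ ((Nat.coprime_primes Fact.out Nat.prime_two).2 r2).pow_right 2)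
    rcases prime_four E hι hz.dvd g1 g2 g3 with rfl | rfl | rfl
    · exact .inl rfl
    · refine .inr (.inl ⟨rfl, not_not.1 fun n => ?_⟩)
      obtain ⟨x, x1, x2, x3, c, φ, e⟩ := n3 n
      exact x3 (h.rank E (by decide) (by omega) x1 (x2 ▸ one_mem _) φ e)
    · refine .inr (.inr ⟨rfl, not_not.1 fun n => ?_⟩)
      obtain ⟨x, x1, x2, x3, α, β, e⟩ := n5 n
      exact x3 (h.quad E (by decide) (by decide) x1 (x2 ▸ one_mem _) e)
  · rintro (rfl | ⟨rfl, h⟩ | ⟨rfl, h⟩)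
    · obtain ⟨a, b, c, d, D, a2, -, c2, -⟩ := nf 1 1 (.inl rfl) (.inl rfl)
      exact el_two hι hG hI D a2 c2 ((h2 ζ).2 (mem_zpowers _)) (sc_mem _) h3 hs
    · obtain ⟨a, b, c, d, D, a2, b2, c2, d2⟩ := nf (-1) (-1) (.inr rfl) (.inr rfl)
      exact el_three hι hG hI (s3 h).1 D a2 b2 c2 d2 (s3 h).2
    · obtain ⟨a, b, c, d, D, a2, b2, c2, d2⟩ := nf 1 (-1) (.inl rfl) (.inr rfl)
      obtain ⟨h5, j, hj, st⟩ := s5 h
      exact el_five hι hG hI h5 D a2 b2 c2 d2 hj st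

theorem ord5 (p : ℕ) : orderOf (p : ZMod 5) = 4 ↔ p % 5 = 2 ∨ p % 5 = 3 := by
  rw [← ZMod.natCast_mod, orderOf_eq_iff (by decide)]
  have := Nat.mod_lt p (show 0 < 5 by decide)
  generalize p % 5 = j at *
  interval_cases j <;> decide

theorem exists_tau [Fact p.Prime] [CharP F p] (h2 : p ≠ 2) (h : ¬ orderOf (p : ZMod 5) = 4) :
    ∃ a : F, (2 * a) ^ 2 + 2 * a - 1 = 0 ∧ a ^ p = a := by
  haveI := Fact.mk Nat.prime_five
  have : IsSquare ((5 : ℕ) : ZMod p) := by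
    rw [FiniteField.isSquare_odd_prime_iff (by rwa [ZMod.ringChar_zmod_n]) (by decide), ZMod.card, Ne,
      quadraticChar_neg_one_iff_not_isSquare, not_not, ← ZMod.natCast_mod p 5, ZMod.χ₄_nat_eq_if_mod_four]
    rw [ord5] at h
    have := Nat.mod_lt p (show 0 < 5 by decide)
    generalize p % 5 = j at *
    interval_cases j <;> first | omega | (split_ifs <;> decide +revert)
  obtain ⟨s, hs⟩ := this
  have t : (2 : F) ≠ 0 := fun e => h2 ((Nat.prime_dvd_prime_iff_eq Fact.out Nat.prime_two).1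
    ((CharP.cast_eq_zero_iff F p 2).1 e))
  have t4 : (4 : F) ≠ 0 := cast_ne (m := 2) (n := 2) t t
  have := congrArg (ZMod.castHom (dvd_refl p) F) hs
  rw [map_natCast, map_mul] at this
  refine ⟨ZMod.castHom (dvd_refl p) F ((s - 1) / 4), ?_, by rw [← map_pow, ZMod.pow_card]⟩
  rw [map_div₀, map_sub, map_one, map_ofNat]
  push_cast at this
  grind

theorem exists_quad {M : Matrix ι ι F} {τ : F} (hτ : τ ^ 2 + τ - 1 = 0) (e : M * M = τ • M + (-1 : F) • 1) :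
    ∃ x : GL ι F, x.val = M ∧ x ^ 5 = 1 := by
  have k : M * (τ • 1 - M) = 1 := by rw [mul_sub, e]; simp
  refine ⟨⟨M, _, k, mul_eq_one_comm.1 k⟩, rfl, Units.ext ?_⟩
  simp only [Units.val_mul, pow_succ, pow_zero, one_mul, e, add_mul, smul_mul_assoc, Units.val_one]
  match_scalars <;> grind

theorem wit5 {a b c : F} (h1 : (2 * a) ^ 2 + 2 * a - 1 = 0) (h2 : a * a - b * c = 1) (h3 : b ≠ 0) :
    ∃ x : GL (Fin 4) F, x.val = !![a, b, 0, 0; c, a, 0, 0; 0, 0, a, b; 0, 0, c, a] ∧ x.val.det = 1 ∧ x ^ 5 = 1 ∧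
      x ∉ scalars _ F ∧ ∃ α β : F, x.val * x.val = α • x.val + β • 1 := by
  have e : !![a, b, 0, 0; c, a, 0, 0; 0, 0, a, b; 0, 0, c, a] * !![a, b, 0, 0; c, a, 0, 0; 0, 0, a, b; 0, 0, c, a] =
      (2 * a) • !![a, b, 0, 0; c, a, 0, 0; 0, 0, a, b; 0, 0, c, a] + (-1 : F) • 1 := by
    ext i j; fin_cases i <;> fin_cases j <;> simp <;> grind
  obtain ⟨x, a1, a2⟩ := exists_quad h1 e
  refine ⟨x, a1, by simp [a1, H11.det_fin_four]; grind, a2, fun h => ?_, _, _, a1 ▸ e⟩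
  obtain ⟨z, hz⟩ := mem_scalars.1 h
  simpa [a1, h3] using congrFun (congrFun hz 0) 1

theorem wit3 {ω : F} (h1 : ω ^ 3 = 1) (h2 : ω ≠ 1) :
    ∃ x : GL (Fin 4) F, x.val = diagonal ![1, ω, ω, ω] ∧ x.val.det = 1 ∧ x ^ 3 = 1 ∧ x ∉ scalars _ F ∧
      ∃ (c : F) (φ : (Fin 4 → F) →ₗ[F] F), ∀ v, φ v = 0 → x.val *ᵥ v = c • v := by
  have e : diagonal ![1, ω, ω, ω] ^ 3 = 1 := by
    rw [diagonal_pow, ← diagonal_one]; congr 1; ext i; fin_cases i <;> simp [h1]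
  refine ⟨.ofPowEqOne _ 3 e (by decide), rfl, by simp [Fin.prod_univ_four, ← pow_three', h1], Units.ext e, fun h => ?_, ω,
    .proj 0, fun v hv => ?_⟩
  · obtain ⟨z, hz⟩ := mem_scalars.1 h
    have a := congrFun (congrFun hz 0) 0
    have b := congrFun (congrFun hz 1) 1
    simp at a b
    exact h2 (b.trans a.symm)
  · ext i; fin_cases i <;> simp_all [mulVec_diagonal]

theorem exists_root [Fintype F] [Fact r.Prime] (h : r ∣ Fintype.card F - 1) : ∃ ω : F, ω ^ r = 1 ∧ ω ≠ 1 := by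
  classical
  obtain ⟨u, hu⟩ := exists_prime_orderOf_dvd_card (G := Fˣ) r (by rwa [Fintype.card_units])
  refine ⟨u, by rw [← Units.val_pow_eq_pow_val, ← hu, pow_orderOf_eq_one, Units.val_one], fun e => ?_⟩
  rw [Units.val_eq_one.1 e, orderOf_one] at hu
  exact (Fact.out : r.Prime).one_lt.ne hu

theorem cast_ne' [Fact p.Prime] [CharP F p] (hr : r.Prime) (h : p ≠ r) : (r : F) ≠ 0 := fun e =>
  h ((Nat.prime_dvd_prime_iff_eq Fact.out hr).1 ((CharP.cast_eq_zero_iff F p r).1 e))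

theorem st_congr {K : Type*} {E : Multiset K} {φ ψ : K → K} (h : E.map φ = E) (e : ∀ a ∈ E, ψ a = φ a) : E.map ψ = E :=
  (Multiset.map_congr rfl e).trans h

theorem st_fr [Fintype F] (hF : Fintype.card F = p) {E : Multiset 𝐊} (hE : EV (glE y) E) (h : ∀ a ∈ E, a ^ k = 1) :
    E.map (· ^ (p % k)) = E :=
  st_congr hE.st fun a ha => by rw [fr, Nat.card_eq_fintype_card, hF, ← pow_eq_pow_mod _ (h a ha)]

theorem st_gu [Fintype F] {n : ℕ} (hF : Fintype.card F = p ^ 2) {y : GL (Fin n) F} (hy : y ∈ GU n F p) {E : Multiset 𝐊}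
    (hE : EV (glE y) E) (h : ∀ a ∈ E, a ^ k = 1) {j : ℕ} (e : j + p % k = k) : E.map (· ^ j) = E :=
  st_congr (ev_gu hF hy hE) fun a ha => by
    rw [_root_.zpow_neg, zpow_natCast, pow_eq_pow_mod p (h a ha)]
    exact eq_inv_of_mul_eq_one_left (by rw [← pow_add, e, h a ha])

theorem st_inv {K : Type*} [Field K] {E : Multiset K} (h : ∀ a ∈ E, a ^ 3 = 1) (e : E.map (· ^ 2) = E) : E.map (·⁻¹) = E :=
  st_congr e fun a ha => inv_eq_of_mul_eq_one_left (by rw [← pow_succ, h a ha])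

variable [Fintype F] [Fact p.Prime] [CharP F p] [Fact r.Prime]

theorem sl4 (hF : Fintype.card F = p) (hp : p % 4 = 1) {R : Subgroup (GL (Fin 4) F)} (hR : IsLinearSymplecticTypeData 2 R)
    (h6 : Nat.card R = 2 ^ 6) (hΩ : r ∣ (𝐍 R).relIndex (specialLinear (Fin 4) F)) :
    El (specialLinear (Fin 4) F) R r ↔ r = 2 ∨ r = 3 ∧ p % 3 = 2 ∨ r = 5 ∧ orderOf (p : ZMod 5) = 4 := by
  have E := eData_of (by simp) hR.1 hR.2
  have := E.card_eq
  rw [← top_inf_eq (specialLinear (Fin 4) F)] at hΩ ⊢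
  refine main4 rfl (by simpa using cp_sl 4) (fun _ _ => mem_top _) E (fun _ => exp_four hR.1) (by simp at this; omega)
    (fun _ _ _ _ _ => mem_top _) hΩ (fun h => ⟨cast_ne' (p := p) Nat.prime_three (show p ≠ 3 by omega), fun y _ E hE a =>
      st_inv a (h ▸ st_fr hF hE a)⟩) (fun h => ?_) (fun h => ⟨cast_ne' (p := p) Nat.prime_five (show p ≠ 5 from ?_), p % 5, (ord5 p).1 h,
      fun y _ E hE a => st_fr hF hE a⟩) fun h => ?_
  · haveI := Fact.mk Nat.prime_three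
    have : p % 3 ≠ 0 := fun e => by
      have := (Nat.prime_dvd_prime_iff_eq Nat.prime_three Fact.out).1 (Nat.dvd_of_mod_eq_zero e); omega
    obtain ⟨ω, a, b⟩ := exists_root (F := F) (r := 3) (by omega)
    obtain ⟨x, -, x1, x2⟩ := wit3 a b
    exact ⟨x, ⟨trivial, mem_SL.2 x1⟩, x2⟩
  · have := (ord5 p).1 h; omega
  · obtain ⟨a, a1, -⟩ := exists_tau (F := F) (by omega) h
    obtain ⟨x, -, x1, x2⟩ := wit5 (b := 1) (c := a * a - 1) a1 (by ring) one_ne_zero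
    exact ⟨x, ⟨trivial, mem_SL.2 x1⟩, x2⟩

omit [Fintype F] in
theorem sc_iso [Nonempty ι] {σ : F →+* F} (Φ : Frm ι σ) (h2 : (2 : F) ≠ 0) (u : Fˣ) (y : GL ι F) (h : sc ι u * y ∈ Φ.iso)
    (e : y * y = 1) (t : y.val.trace = 2) : sc ι u ∈ Φ.iso := by
  have := congrArg trace (Φ.mem_iso_iff.1 h)
  rw [Φ.trace_adj, _root_.mul_inv_rev, inv_eq_of_mul_eq_one_left e, ← _root_.map_inv] at this
  simp only [Units.val_mul, sc_val, smul_mul_assoc, mul_smul_comm, one_mul, mul_one, trace_smul, t, smul_eq_mul, map_mul,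
    map_ofNat, Units.val_inv_eq_inv_val] at this
  rw [Φ.sc_mem_iso, mul_right_cancel₀ h2 this, mul_inv_cancel₀ u.ne_zero]

theorem su4 (hF : Fintype.card F = p ^ 2) (hp : p % 4 = 3) {R : Subgroup (GL (Fin 4) F)} (hR : IsSymplecticTypeGroup 2 R)
    (hi : ActsAbsolutelyIrreducibly (matrixSet R)) (hU : R ≤ GU 4 F p) (hz : Nat.card (center R) = 4)
    (hΩ : r ∣ (𝐍 R).relIndex (GU 4 F p ⊓ specialLinear (Fin 4) F)) :
    El (GU 4 F p ⊓ specialLinear (Fin 4) F) R r ↔ r = 2 ∨ r = 3 ∧ p % 3 = 1 ∨ r = 5 ∧ orderOf (p : ZMod 5) = 4 := by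
  have E := eData_of (by simp) hR hi
  have h2 := E.two_ne
  refine main4 rfl (cp_su hF 4) (fun _ h => suΦ_iso hF ▸ h.iso (suΦ_iso hF ▸ hU)) E (fun _ => exp_four hR) hz
    (suΦ_iso hF ▸ sc_iso _ h2) hΩ (fun h => ⟨cast_ne' (p := p) Nat.prime_three (show p ≠ 3 by omega), fun y hy E hE a =>
      st_inv a (st_gu hF hy hE a (by omega))⟩) (fun h => ?_) (fun h => ?_) fun h => ?_
  · haveI := Fact.mk Nat.prime_three
    by_cases h3 : p % 3 = 0
    · obtain rfl := (Nat.prime_dvd_prime_iff_eq Nat.prime_three (Fact.out : p.Prime)).1 (Nat.dvd_of_mod_eq_zero h3)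
      have t : (3 : F) = 0 := CharP.cast_eq_zero F 3
      obtain ⟨i, hi⟩ : IsSquare (-1 : F) := FiniteField.isSquare_neg_one_iff.2 (by rw [hF]; decide)
      have e : !![1 + i, i, i, 0; i, 1 + i, i, 0; i, i, 1 + i, 0; 0, 0, 0, 1] ^ 3 = 1 := by
        ext a b; fin_cases a <;> fin_cases b <;> simp [pow_three] <;> grind
      refine ⟨.ofPowEqOne _ 3 e (by decide), ⟨(H11.mem_GU_iff_matrix hF _ _).2 ?_, mem_SL.2 ?_⟩, Units.ext e, fun h => ?_, 1,
        .proj 0 + .proj 1 + .proj 2, fun v hv => ?_⟩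
      · ext a b; fin_cases a <;> fin_cases b <;> simp [mul_apply, Fin.sum_univ_four] <;> grind
      · simp [H11.det_fin_four]; grind
      · obtain ⟨z, hz⟩ := mem_scalars.1 h
        have := congrFun (congrFun hz 0) 1
        simp at this
        simp [this] at hi
      · simp at hv
        ext a; fin_cases a <;> simp [mulVec, dotProduct, Fin.sum_univ_four] <;> grind
    · have h4 : 3 ∣ p + 1 := by omega
      obtain ⟨ω, a, b⟩ := exists_root (F := F) (r := 3) (by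
        rw [hF, ← one_pow 2, Nat.sq_sub_sq]; exact h4.mul_right _)
      obtain ⟨x, x0, x1, x2⟩ := wit3 a b
      have : ω * ω ^ p = 1 := by obtain ⟨m, hm⟩ := h4; rw [← pow_succ', hm, pow_mul, a, one_pow]
      exact ⟨x, ⟨H11.diagonal_mem_GU hF x _ x0 fun i => by fin_cases i <;> simp [this], mem_SL.2 x1⟩, x2⟩
  · rw [ord5] at h
    exact ⟨cast_ne' (p := p) Nat.prime_five (show p ≠ 5 by omega), 5 - p % 5, by omega, fun y hy E hE a => st_gu hF hy hE a (by omega)⟩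
  · obtain ⟨a, a1, a2⟩ := exists_tau (F := F) (by omega) h
    obtain ⟨b, hb⟩ := H11.exists_norm_eq hF (c := 1 - a * a) (by rw [sub_pow_char, mul_pow, a2, one_pow])
    have h5 : (5 : F) ≠ 0 := cast_ne' (p := p) Nat.prime_five (show p ≠ 5 by omega)
    obtain ⟨x, x0, x1, x2⟩ := wit5 (b := b) (c := -b ^ p) a1 (by grind) (by rintro rfl; grind)
    refine ⟨x, ⟨(H11.mem_GU_iff_matrix hF _ _).2 ?_, mem_SL.2 x1⟩, x2⟩
    have e1 : H11.frob hF a = a := a2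
    have e2 : H11.frob hF (b ^ p) = b := H11.frob_frob hF b
    have e3 : H11.frob hF b = b ^ p := rfl
    rw [x0]
    ext i j; fin_cases i <;> fin_cases j <;> simp [mul_apply, Fin.sum_univ_four, -H11.frob_apply, -map_pow, e1, e2, e3] <;> grind

theorem sp4 (hF : Fintype.card F = p) {R : Subgroup (GL (Fin 2 ⊕ Fin 2) F)} (hR : IsSymplecticTypeGroup 2 R)
    (hi : ActsAbsolutelyIrreducibly (matrixSet R)) (hU : R ≤ spGL 2 F) (h5 : Nat.card R = 2 ^ 5)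
    (hz : Nat.card (center R) = 2) (hm : IsOfMinusType 2 R) (hΩ : r ∣ (𝐍 R).relIndex (spGL 2 F)) :
    El (spGL 2 F) R r ↔ r = 2 ∨ r = 5 ∧ orderOf (p : ZMod 5) = 4 := by
  have E := eData_of (by simp) hR hi
  have h2 := E.two_ne
  have he := fun x => exp_four hR (x := x)
  have hι : Fintype.card (Fin 2 ⊕ Fin 2) = 4 := rfl
  obtain ⟨a, b, c, d, D⟩ := exists_G4 E hι
  obtain ⟨a, b, c, d, D, a2, b2, c2, d2⟩ := D.minus he h5 hm
  have eG : spGL 2 F ⊓ specialLinear _ F = spGL 2 F := inf_eq_left.2 spGL_le_SL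
  have hG := cp_sp (F := F) 2
  have hI : ∀ h, Sm R 1 h → h ∈ spGL 2 F := fun _ h => h.iso (Φ := spΦ 2 F) hU
  have sq : ∀ z ∈ spGL 2 F, z ∈ scalars _ F → z = 1 ∨ z = -1 := fun z h1 h2 => by
    obtain ⟨u, rfl⟩ := exists_sc h2
    exact (mul_self_eq_one_iff.1 ((spΦ 2 F).sc_mem_iso.1 h1)).imp (fun e => Units.ext (by simp [sc_val, e]))
      fun e => Units.ext (by simp [sc_val, e])
  refine ⟨fun h => ?_, ?_⟩
  · by_cases r2 : r = 2
    · exact .inl r2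
    obtain ⟨g, g1, g2, g3⟩ := h.prime spGL_le_SL hΩ (hι ▸ ((Nat.coprime_primes Fact.out Nat.prime_two).2 r2).pow_right 2)
    rcases prime_four E hι (by rw [hz]; decide) g1 g2 g3 with rfl | rfl | rfl
    · exact .inl rfl
    · have e : fromBlocks !![0, 0; 0, 1] !![-1, 0; 0, 0] !![1, 0; 0, 0] !![(-1 : F), 0; 0, 1] ^ 3 = 1 := by
        ext (i | i) (j | j) <;> fin_cases i <;> fin_cases j <;> simp [pow_three, mul_apply, one_apply]
      refine (h.cyc E he h5 hm (fun z h1 h2 => by rcases sq z (hU h1) h2 with rfl | rfl <;> simp) D.ma a2 (ns_an E D.ab)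
        (x := .ofPowEqOne _ 3 e (by decide)) (mem_sp_iff.2 ?_) (mem_scalars.2 ⟨1, e.trans (one_smul _ _).symm⟩) (fun h => ?_)
        (e := Pi.single (.inl 0) 1) (fun h => ?_) fun u => ⟨u (.inl 0), u (.inr 0), ?_⟩).elim
      · rw [SymplecticGroup.mem_iff]
        ext (i | i) (j | j) <;> fin_cases i <;> fin_cases j <;> simp [J, mul_apply, one_apply]
      · obtain ⟨z, hz⟩ := mem_scalars.1 h
        simpa using congrFun (congrFun hz (.inl 0)) (.inr 0)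
      · simpa using congrFun h (.inl 0)
      · ext (i | i) <;> fin_cases i <;> simp [mulVec, dotProduct] <;> ring
    · refine .inr ⟨rfl, not_not.1 fun n => ?_⟩
      obtain ⟨a, a1, -⟩ := exists_tau (F := F) (by rintro rfl; exact h2 (CharP.cast_eq_zero F 2)) n
      have e : fromBlocks 0 (-1) 1 ((2 * a) • 1) * fromBlocks 0 (-1) 1 ((2 * a) • 1) = (2 * a) •
          (fromBlocks 0 (-1) 1 ((2 * a) • 1) : Matrix (Fin 2 ⊕ Fin 2) (Fin 2 ⊕ Fin 2) F) + (-1 : F) • 1 := by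
        simp [fromBlocks_multiply, ← fromBlocks_one, fromBlocks_smul, fromBlocks_add, fromBlocks_neg, add_comm]
      obtain ⟨x, x1, x2⟩ := exists_quad a1 e
      obtain ⟨z, hz⟩ := mem_scalars.1 (h.quad E (by decide) (by decide) (x := x) (mem_sp_iff.2 (by
        simp [x1, SymplecticGroup.mem_iff, J, fromBlocks_transpose, fromBlocks_multiply])) (x2 ▸ one_mem _) (x1 ▸ e))
      simpa [x1] using congrFun (congrFun hz (.inl 0)) (.inr 0)
  · rintro (rfl | ⟨rfl, h⟩)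
    · intro x hx e x0
      rcases sq _ (pow_mem hx 2) e with f | f
      · exact eG ▸ fp_inv hι (eG.symm ▸ hG) hI E D.ma a2 (ns_an E D.ab) (eG.symm ▸ hx) ((pow_two x).symm.trans f) x0
      · have t4 := cast_ne (m := 2) (n := 2) h2 h2
        obtain ⟨ζ, hζ⟩ := exists_prim (K := 𝐊) (k := 4) F t4
        exact hG.fp hx (hU D.mc) (le_normalizer D.mc) t4 (by rw [pow_mul, f, neg_one_sq])
          ((cl4 hι h2 hζ ((pow_two x).symm.trans f) fun _ => ev_sp hx).sim (cl4 hι h2 hζ c2 fun _ => ev_sp (hU D.mc)))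
    · rw [ord5] at h
      exact eG ▸ el_five hι (eG.symm ▸ hG) hI (cast_ne' (p := p) Nat.prime_five (show p ≠ 5 by omega)) D a2 b2 c2 d2 h
        fun y _ E hE a => st_fr hF hE a

end H27.C6
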