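import Cfsg.Agent.H27.Cov2

/-! Coverings by two conjugacy classes of subgroups, III: `SU₃` in characteristic three. -/

set_option autoImplicit false

namespace H27.Cov

open Module Polynomial Function H22 H12 H12.CForm H11 H27.Sp Submodule

variable {F : Type*} [Field F] {V W : Type*} [AddCommGroup V] [Module F V] [AddCommGroup W] [Module F W]
  {T : FormType F} {C : CForm T V} {u e e' : End F V} {c : F}

/-- the Artin-Schreier cubic -/
noncomputable def f3 (c : F) : F[X] := X ^ 3 - X - Polynomial.C c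

theorem f3_monic : (f3 c).Monic := by unfold f3; monicity!

theorem f3_deg : (f3 c).natDegree = 3 := by unfold f3; compute_degree!

theorem f3_iff : aeval e (f3 c) = 0 ↔ ∀ x, e (e (e x)) = e x + c • x := by
  simp [f3, LinearMap.ext_iff, pow_succ, sub_sub, sub_eq_zero]

theorem f3_ne (hc : ∀ x, x ^ 3 - x ≠ c) (x : F) : (f3 c).eval x ≠ 0 := by simpa [f3, sub_eq_zero] using hc x

theorem f3_irr (hc : ∀ x, x ^ 3 - x ≠ c) : Irreducible (f3 c) :=
  (irreducible_iff_roots_eq_zero_of_degree_le_three (by simp [f3_deg]) f3_deg.le).2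
    (Multiset.eq_zero_of_forall_notMem fun x hx => f3_ne hc x (isRoot_of_mem_roots hx))

theorem exists_as [Finite F] : ∃ c : F, ∀ x, x ^ 3 - x ≠ c := by
  by_contra! H
  exact zero_ne_one ((Finite.injective_iff_surjective.2 H) (by simp : (0 : F) ^ 3 - 0 = 1 ^ 3 - 1))

/-- self-adjoint roots of the cubic -/
def SA (C : CForm T V) (c : F) (e : End F V) : Prop := (∀ x y, C.B (e x) y = C.B x (e y)) ∧ aeval e (f3 c) = 0

theorem SA.conj {C' : CForm T W} (h : SA C c e) {g : End F V} {g' : End F W} (hf : FSim C g C' g') {a : F}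
    (ha : ∀ x, g (e x) = e (g x) + a • g x) : ∃ e', SA C' c e' ∧ ∀ x, g' (e' x) = e' (g' x) + a • g' x := by
  obtain ⟨ψ, h1, h2⟩ := hf
  refine ⟨ψ.conj e, ⟨fun x y => ?_, f3_iff.2 fun x => by simp [f3_iff.1 h.2]⟩, fun x => ?_⟩
  · obtain ⟨x, rfl⟩ := ψ.surjective x
    obtain ⟨y, rfl⟩ := ψ.surjective y
    simp [h1.1, h.1]
  · obtain ⟨x, rfl⟩ := ψ.surjective x
    simp [← h2, ha]

/-- multiplication by the generator of the cubic extension -/
def mA (c : F) : End F (Fin 3 → F) := Matrix.toLin' !![0, 0, c; 1, 0, 1; 0, 1, 0]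

variable (F) in
/-- the Galois automorphism -/
def mP : End F (Fin 3 → F) := Matrix.toLin' !![1, 1, 1; 0, 1, -1; 0, 0, 1]

/-- the trace form -/
def bL (σ : F →+* F) : (Fin 3 → F) →ₛₗ[σ] (Fin 3 → F) →ₗ[F] F :=
  LinearMap.mk₂'ₛₗ σ (RingHom.id F) (fun x y => σ (x 1) * y 1 + σ (x 0) * y 2 + σ (x 2) * y 0 + σ (x 2) * y 2)
    (by intros; simp; ring) (by intros; simp; ring) (by intros; simp; ring) (by intros; simp; ring)

theorem mA_apply (x : Fin 3 → F) : mA c x = ![c * x 2, x 0 + x 2, x 1] := by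
  ext i; fin_cases i <;> simp [mA, Matrix.mulVec, dotProduct, Fin.sum_univ_three]

theorem mP_apply (x : Fin 3 → F) : mP F x = ![x 0 + x 1 + x 2, x 1 - x 2, x 2] := by
  ext i; fin_cases i <;> simp [mP, Matrix.mulVec, dotProduct, Fin.sum_univ_three, sub_eq_add_neg]

theorem bL_apply (σ : F →+* F) (x y : Fin 3 → F) :
    bL σ x y = σ (x 1) * y 1 + σ (x 0) * y 2 + σ (x 2) * y 0 + σ (x 2) * y 2 := rfl

theorem bL_nd {σ : F →+* F} {x : Fin 3 → F} (h : ∀ y, bL σ x y = 0) : x = 0 := by
  have h0 := h ![1, 0, 0]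
  have h1 := h ![0, 1, 0]
  have h2 := h ![0, 0, 1]
  simp [bL_apply] at h0 h1 h2
  ext i; fin_cases i <;> simp_all

theorem bL_A {σ : F →+* F} (h : σ c = c) (x y : Fin 3 → F) : bL σ (mA c x) y = bL σ x (mA c y) := by
  simp [bL_apply, mA_apply, h]; ring

theorem mA_f3 (x : Fin 3 → F) : mA c (mA c (mA c x)) = mA c x + c • x := by
  ext i; fin_cases i <;> simp [mA_apply] <;> ring

section
variable (h3 : (3 : F) = 0)
include h3

theorem bL_P (σ : F →+* F) (x y : Fin 3 → F) : bL σ (mP F x) (mP F y) = bL σ x y := by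
  simp [bL_apply, mP_apply]; linear_combination (σ (x 2) * y 2) * h3

theorem mP_A (x : Fin 3 → F) : mP F (mA c x) = mA c (mP F x) + mP F x := by
  ext i; fin_cases i <;> simp [mA_apply, mP_apply]
  · ring
  · linear_combination (-x 1) * h3
end

theorem mP_three : (mP F - 1) ^ 3 = 0 := by
  refine LinearMap.ext fun x => funext fun i => ?_
  fin_cases i <;> simp [pow_succ, mP_apply, Matrix.vecHead, Matrix.vecTail]

theorem mP_two : (mP F - 1) ^ 2 ≠ 0 := fun h => by
  simpa [pow_succ, mP_apply] using congrFun (LinearMap.congr_fun h ![0, 0, 1]) 0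

variable [FiniteDimensional F V]

theorem nz_not_le (hC : C.Nondeg) (h3 : 3 ≤ finrank F V) {G : Subgroup (V ≃ₗ[F] V)} (hG : C.isom ⊓ SLV F V ≤ G) {k : F}
    (hk : TvOk T k) (h0 : k ≠ 0) {v : V} (hv : C.N v = 0) (v0 : v ≠ 0) (hc : ∀ x, x ^ 3 - x ≠ c) (h : SA C c e) :
    ¬ G ≤ Nz ⊤ e := fun H => by
  obtain ⟨a, -, ha⟩ := H (hG (x := (tv C hv hk).1) ⟨(tv C hv hk).2, det_tv hv hk⟩)
  obtain ⟨x, h1, h2⟩ := exists_mem_ne_zero_of_ne_bot (p := C.perp (span F {v, e v})) fun e' => by
    have := hC.finrank_add_finrank_perp (span F {v, e v})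
    have := finrank_range_le_card (R := F) ![v, e v]
    rw [Matrix.range_cons_cons_empty, Set.finrank, Fintype.card_fin] at this
    have := finrank_eq_zero.2 e'
    omega
  obtain ⟨h4, h5⟩ := C.mem_perp_pair.1 h1
  obtain rfl : a = 0 := by simpa [tv_apply, h4, ← h.1, h5, h2] using ha x
  obtain ⟨y, hy⟩ := hC.exists_eq v0 1
  exact v0 (no_ev h.2 (f3_ne hc) (c := C.B v (e y)) (smul_right_injective V h0 (by
    simpa [tv_apply, hy, mul_smul] using (ha y).symm)))

variable [Finite F]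

theorem comm_field {f : F[X]} (hm : f.Monic) (hf : Irreducible f) (h : aeval e f = 0) (hd : finrank F V = f.natDegree)
    {d : End F V} (hc : Commute d e) : d = 0 ∨ IsUnit d := by
  obtain ⟨n, -, hn⟩ := type_irr hm hf (aeval_restrict h (U := LinearMap.ker d) fun x hx => by
    rw [LinearMap.mem_ker, ← End.mul_apply, hc.eq, End.mul_apply, hx, map_zero])
  rcases n with _ | n
  · exact .inr ((LinearMap.isUnit_iff_ker_eq_bot _).2 (finrank_eq_zero.1 (by simpa using hn)))
  · exact .inl (LinearMap.ker_eq_top.1 (eq_top_of_finrank_eq (le_antisymm (finrank_le _) (by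
      rw [hn, hd]; exact Nat.le_mul_of_pos_left _ n.succ_pos))))

variable [Fintype F] {q : ℕ} {hF : Fintype.card F = q ^ 2} {C : CForm (hermT hF) V} (hC : C.Nondeg)
  (hc : ∀ x, x ^ 3 - x ≠ c)
include hC hc

omit hC [Finite F] in
theorem exists_cay {w : F} (hw : w ^ q ≠ w) : ∃ P : F[X], ∀ {e : End F V}, SA C c e →
    C.IsIsomTo C (aeval e P) ∧ Injective (aeval e P - 1 : End F V) ∧
      ∀ x, (aeval e P - 1 : End F V) (e x) = w ^ q • aeval e P x - w • x := by
  have h0 := sub_ne_zero.2 (hc (w ^ q)).symm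
  obtain ⟨P, hP⟩ : ∃ P : F[X], P = .C (c - ((w ^ q) ^ 3 - w ^ q))⁻¹ * (X - .C w) *
    (X ^ 2 + .C (w ^ q) * X + .C ((w ^ q) ^ 2 - 1)) := ⟨_, rfl⟩
  refine ⟨P, fun {e} h => ?_⟩
  have h1 : ∀ x, aeval e P (e x - w ^ q • x) = e x - w • x := fun x => by
    generalize w ^ q = w' at *
    have h1 := mul_inv_cancel₀ h0
    generalize (c - (w' ^ 3 - w'))⁻¹ = d at *
    simp [hP, sq, f3_iff.1 h.2]
    match_scalars <;> first | ring1 | linear_combination h1 | linear_combination (-w) * h1
  generalize aeval e P = u at h1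
  have h2 : Surjective fun x => e x - w ^ q • x :=
    (LinearMap.injective_iff_surjective (f := e - w ^ q • 1)).1 ((injective_iff_map_eq_zero _).2 fun x hx =>
      no_ev h.2 (f3_ne hc) (sub_eq_zero.1 hx))
  have h3 : ∀ x y, C.B (u x) (u y) = C.B x y := fun x y => by
    obtain ⟨x, rfl⟩ := h2 x
    obtain ⟨y, rfl⟩ := h2 y
    simp only [h1]
    simp only [C.B_sub_left, H11.herm_B_smul_left]
    simp only [map_sub, map_smul, smul_eq_mul, h.1]
    rw [← frob_apply hF (w ^ q), ← frob_apply hF w, frob_frob]; ring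
  refine ⟨⟨h3, fun x => by rw [← H11.herm_B_self, h3, H11.herm_B_self]⟩, (injective_iff_map_eq_zero _).2 fun x hx => ?_,
    fun x => by have := h1 x; simp at this ⊢; linear_combination (norm := module) this⟩
  obtain ⟨x, rfl⟩ := h2 x
  have : (w ^ q - w) • x = 0 := by simp [h1] at hx; linear_combination (norm := module) hx
  simp [(smul_eq_zero.1 this).resolve_left (sub_ne_zero.2 hw)]

variable [CharP F 3] (hn : finrank F V = 3)
include hn

theorem fam_sa : Fam (C.isom ⊓ SLV F V) (Nz ⊤) (SA C c) := by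
  refine fam_nz (fun e e' h h' => ?_) fun e h => ?_
  · obtain ⟨w, hw⟩ : ∃ w : F, w ^ q ≠ w := by
      by_contra! H
      exact frob_ne_id hF (RingHom.ext H)
    obtain ⟨P, hP⟩ := exists_cay (C := C) hc hw
    obtain ⟨ψ, hψ⟩ := sim_irr f3_monic (f3_irr hc) h.2 h'.2
    obtain ⟨y, y1, y2⟩ := herm_fsim (frob_ne_id hF) hC hC (hP h).1 (hP h').1 ⟨ψ, aeval_intertw hψ P⟩
    have y3 : ∀ x, y (e x) = e' (y x) := fun x => (hP h').2.1 (by
      rw [(hP h').2.2, ← y2, ← map_smul y, ← map_smul y, ← map_sub y, ← (hP h).2.2]; simp [y2])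
    obtain ⟨a, ha⟩ := surjective_frobenius F 3 (LinearEquiv.det y : F)⁻¹
    have d := herm_det_norm hC ⟨y, y1⟩
    have a1 : a * a ^ q = 1 := frobenius_inj F 3 (by
      rw [map_mul, map_pow, ha, map_one, inv_pow, ← mul_inv, d, _root_.inv_one])
    refine ⟨(hermScalar C a1).1 * y, ⟨C.isom.mul_mem (hermScalar C a1).2 y1, Units.ext ?_⟩, fun v => by
      simp [hermScalar_apply, y3]⟩
    rw [map_mul, Units.val_mul, det_of_scalar (hermScalar_apply a1), hn, ← frobenius_def, ha, Units.inv_mul']; rfl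
  · obtain ⟨v, v0, hv⟩ := herm_exists_singular hC (by omega)
    obtain ⟨k, k1, k2⟩ := exists_trace_zero hF
    exact nz_not_le hC hn.ge le_rfl (tvOk_hermT.2 k2) k1 hv v0 hc h

theorem sa_of_irr (hσ : c ^ q = c) (hu : C.IsIsomTo C u) (H : ∀ c, u.charpoly.eval c ≠ 0) :
    ∃ e, SA C c e ∧ ∀ x, u (e x) = e (u x) := by
  have h0 := u.charpoly_monic.ne_zero
  obtain ⟨h, he⟩ := exists_root (f3_irr hc) h0 u.aeval_self_charpoly fun p a b => by
    have := deg_or h0 H a b
    rw [LinearMap.charpoly_natDegree, hn] at this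
    rw [f3_deg]; omega
  refine ⟨_, ⟨?_, he⟩, comm_aeval u h⟩
  set S := toSQ hC
  obtain ⟨a1, a2⟩ := S.adj_of_inv hu.1
  have c1 : Commute (S.adj (aeval u h)) (aeval u h) := by
    rw [S.adj_aeval]
    exact LinearMap.ext fun x => (aeval_intertw (fun y => (aeval_intertw (e := S.adj u)
      (LinearMap.congr_fun (a1.trans a2.symm)) h y).symm) _ x).symm
  generalize aeval u h = e at he c1
  have c2 : aeval (S.adj e) (f3 c) = 0 := by
    have := S.adj_aeval e (f3 c)
    rw [he, show S.adj 0 = 0 from S.adj_eq (by simp)] at this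
    simpa [f3, hermT_sigma, hσ] using this.symm
  haveI := nontrivial_of_finrank_pos (R := F) (M := V) (by omega)
  haveI := charP_of_injective_algebraMap (algebraMap F (End F V)).injective 3
  have c3 : (S.adj e - e) * ((S.adj e - e - 1) * (S.adj e - e + 1)) = 0 := by
    have := sub_pow_char_of_commute 3 c1
    simp only [f3, map_sub, aeval_X_pow, aeval_X, aeval_C, sub_eq_zero, sub_eq_iff_eq_add] at he c2
    rw [he, c2, add_sub_add_left_eq_sub] at this
    generalize S.adj e - e = d at this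
    linear_combination (norm := noncomm_ring) this
  have c4 : Commute (S.adj e - e) e := c1.sub_left rfl
  have key : ∀ k : F, S.adj e = e + k • 1 → k ^ q = k → ∀ x y, C.B (e x) y = C.B x (e y) := fun k hk k1 x y => by
    have s : ∀ x y, C.B (e x) y + k * C.B x y = C.B x (e y) := fun x y => by
      simpa [hk, hermT_sigma, k1, show S.β = C.B from rfl] using S.adj_spec e x y
    obtain ⟨v, hv⟩ := herm_exists_norm hC (by omega) (c := 1) (one_pow _) one_ne_zero
    have t := s v v
    have t' := congrArg (frob hF) t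
    rw [map_add, map_mul, frob_apply, frob_apply, frob_apply, frob_apply, ← H11.herm_symm, ← H11.herm_symm,
      ← H11.herm_symm, k1] at t'
    have h3 : (3 : F) = 0 := CharP.cast_eq_zero F 3
    rw [H11.herm_B_self, hv] at t t'
    simpa [show k = 0 by linear_combination k * h3 - t - t'] using s x y
  have irr := fun {d} => comm_field (d := d) f3_monic (f3_irr hc) he (hn.trans f3_deg.symm)
  rcases irr c4 with h | h
  · exact key 0 (by simpa [sub_eq_zero] using h) (zero_pow (by have := two_le_of_card_sq hF; omega))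
  rcases irr (c4.sub_left (Commute.one_left e)) with h' | h'
  · exact key 1 (by rw [one_smul, add_comm, ← sub_eq_iff_eq_add, ← sub_eq_zero, h']) (one_pow _)
  · exact key (-1) (by
      have := h'.mul_right_eq_zero.1 (h.mul_right_eq_zero.1 c3)
      rw [neg_smul, one_smul]; linear_combination (norm := noncomm_ring) this) (by simpa using map_neg (frob hF) 1)

theorem sa_of_uni (hσ : c ^ q = c) (hu : C.IsIsomTo C u) (hd : LinearMap.det u = 1)
    (H : ∀ v (c : F), u v = c • v → C.N v = 0) {e : V} (e0 : e ≠ 0) {a : F} (he : u e = a • e) :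
    ∃ e, SA C c e ∧ ∀ x, u (e x) = e (u x) + (1 : F) • u x := by
  have h3 : (3 : F) = 0 := CharP.cast_eq_zero F 3
  obtain ⟨f, hf⟩ := exists_hypPair hC e0 (H e a he)
  obtain ⟨k, k1, k2⟩ := exists_quot hC hu hf he
  have d := hf.finrank_perp hC
  obtain ⟨w, w0, w1⟩ := finrank_eq_one_iff'.1 (show finrank F (C.perp (span F {e, f})) = 1 by omega)
  obtain ⟨b, hb⟩ := w1 (k w)
  obtain ⟨w3, w5⟩ := C.mem_perp_pair.1 w.2
  have w2 : C.N w ≠ 0 := fun h => w0 (hf.nondeg_perp hC w fun y => by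
    obtain ⟨t, rfl⟩ := w1 y
    simp [C.B_self_of_zero h])
  have w4 := k2 w
  rw [← hb] at w4
  generalize C.B f (u w) = s at w4
  obtain rfl : b = a := by
    by_contra h
    have := H (w + (s / (b - a)) • e) b (by
      rw [map_add, map_smul, he, w4, Submodule.coe_smul]
      have := sub_ne_zero.2 h
      match_scalars <;> field)
    exact w2 (by rwa [C.N_add_of_orth (by simp [C.B_swap_zero w3]), C.N_smul_of_zero hf.left, add_zero] at this)
  have b1 : b * b ^ q = 1 := by
    have := hu.2 w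
    rw [w4, C.N_add_of_orth (by simp [C.B_smul_left, C.B_swap_zero w3]), C.N_smul_of_zero hf.left, add_zero,
      Submodule.coe_smul, H11.herm_N_smul] at this
    exact mul_right_cancel₀ w2 (by rw [this, one_mul])
  obtain ⟨x, y, z, hz⟩ := hf.exists_decomp (u f)
  obtain ⟨t, rfl⟩ := w1 z
  obtain rfl : y = b := by
    have := hu.1 e f
    rw [he, H11.herm_B_smul_left, hz, hf.B_left_comb _ _ (t • w).2, hf.pair] at this
    linear_combination b * this - y * b1
  have n : (u - algebraMap F _ y) ^ 3 = 0 := LinearMap.ext fun v => by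
    obtain ⟨α, β, z, rfl⟩ := hf.exists_decomp v
    obtain ⟨γ, rfl⟩ := w1 z
    simp [pow_succ, he, w4, hz]
    module
  obtain rfl : y = 1 := frobenius_inj F 3 (by
    rw [map_one, frobenius_def, ← hn, ← det_add_nilp ⟨_, n⟩, add_sub_cancel, hd])
  rw [map_one] at n
  have n2 : (u - 1) ^ 2 ≠ 0 := fun h => by
    have h1 : C.TS (LinearMap.ker (u - 1)) := by
      have h1 : ∀ x ∈ LinearMap.ker (u - 1), C.N x = 0 := fun x hx => H x 1 (by simpa [sub_eq_zero] using hx)
      refine ⟨h1, fun x hx y hy => by_contra fun h => ?_⟩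
      obtain ⟨r, hr⟩ := exists_trace_eq (frob_ne_id hF) (frob_frob hF) (map_one _)
      have := C.N_add x ((r / C.B x y) • y)
      rw [h1 _ (add_mem hx (smul_mem _ _ hy)), h1 x hx, h1 _ (smul_mem _ _ hy), C.B_smul_right, div_mul_cancel₀ _ h] at this
      exact zero_ne_one (this.trans (by simpa [hermT_tau] using hr))
    have := h1.two_mul_finrank_le hC
    have := (u - 1).finrank_range_add_finrank_ker
    have := finrank_mono (LinearMap.range_le_ker_iff.2 (by rwa [sq] at h) :
      LinearMap.range (u - 1) ≤ LinearMap.ker (u - 1))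
    omega
  let C0 := ofHerm (frob hF) (frob_ne_id hF) (frob_frob hF) (bL (frob hF)) ⟨fun x y => by
    simp only [bL_apply, map_add, map_mul, frob_frob]; ring⟩
  exact SA.conj (C := C0) ⟨bL_A hσ, f3_iff.2 mA_f3⟩ (herm_fsim (frob_ne_id hF) (fun _ => bL_nd) hC
    ⟨bL_P h3 _, fun x => bL_P h3 _ x x⟩ hu ((jd_reg (K := AlgebraicClosure F) (k := 2) (by simp) mP_three mP_two).sim
      (jd_reg hn n n2))) fun x => by rw [one_smul, mP_A h3]

omit hC hc hn in
theorem cov_su3 {F : Type*} [Field F] [Fintype F] {q a : ℕ} (hF : Fintype.card F = q ^ 2) (ha : 1 ≤ a) (hq : q = 3 ^ a) :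
    Cov (Cfsg.PSU 3 F q) := by
  haveI : CharP F 3 := charP_of_card_eq_prime_pow (f := a * 2) (by rw [hF, hq, pow_mul])
  have h3 : (3 : F) = 0 := CharP.cast_eq_zero F 3
  obtain ⟨c, hc⟩ := exists_as (F := F)
  have h1 : ∀ n, ∃ y : F, c ^ 3 ^ n - c = y ^ 3 - y := fun n => by
    induction n with
    | zero => exact ⟨0, by simp⟩
    | succ n ih =>
      obtain ⟨y, hy⟩ := ih
      exact ⟨y + c ^ 3 ^ n, by rw [add_pow_char, pow_succ, pow_mul]; linear_combination hy⟩
  obtain ⟨y, hy⟩ := h1 a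
  have h2 : ∀ x, x ^ 3 - x ≠ c + c ^ q := fun x e => hc (y - x) (by
    rw [sub_pow_char]; subst hq; linear_combination -e - hy - c * h3)
  have hσ : (c + c ^ q) ^ q = c + c ^ q := by
    rw [← frob_apply hF, ← frob_apply hF, map_add, frob_frob, add_comm]
  refine cov_su (hF := hF) le_rfl (fam_sa (hermC_nondeg hF) h2 (by simp)) fun g hg H => ?_
  rcases ev_or g with ⟨W, h4, h5⟩ | h
  · obtain ⟨e, -, e0, t, he⟩ := ev_of_one (u := g.toLinearMap) h4 fun x hx => (h5 x).1 hx
    exact (sa_of_uni (u := g.toLinearMap) (hermC_nondeg hF) h2 (by simp) hσ hg.1 (mem_SLV.1 hg.2) H e0 he).imp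
      fun e h => ⟨h.1, 1, trivial, h.2⟩
  · exact (sa_of_irr (u := g.toLinearMap) (hermC_nondeg hF) h2 (by simp) hσ hg.1 h).imp
      fun e h => ⟨h.1, 0, trivial, by simpa using h.2⟩

end H27.Cov
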