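import Cfsg.Agent.H27.Cov3

/-! Coverings by two conjugacy classes of subgroups, V: `Sp₆` in characteristic three, the subgroups. -/

set_option autoImplicit false

namespace H27.Cov

open Module Polynomial Function H22 H12 H12.CForm H11 H27.Sp Submodule

variable {F : Type*} [Field F] {V : Type*} [AddCommGroup V] [Module F V] {c : F}

variable (F) in
/-- the model space -/
def C6 : CForm (altType F) ((Fin 3 → F) × (Fin 3 → F)) :=
  ofAlt ((bL (RingHom.id F)).compl₁₂ (.fst F _ _) (.snd F _ _) - (bL (RingHom.id F)).compl₁₂ (.snd F _ _) (.fst F _ _))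
    fun x => by simp [bL_apply]; ring

theorem C6_B (x y : (Fin 3 → F) × (Fin 3 → F)) :
    (C6 F).B x y = bL (RingHom.id F) x.1 y.2 - bL (RingHom.id F) x.2 y.1 := rfl

theorem C6_nd : (C6 F).Nondeg := fun x h =>
  Prod.ext (bL_nd fun y => by simpa [C6_B] using h (0, y)) (bL_nd fun y => by simpa [C6_B] using h (y, 0))

theorem sa6 : SA (C6 F) c ((mA c).prodMap (mA c)) :=
  ⟨fun x y => by simp [C6_B, bL_A], f3_iff.2 fun x => Prod.ext (mA_f3 _) (mA_f3 _)⟩

theorem alt_σ (a : F) : (altType F).σ a = a := rfl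

variable [CharP F 3] {C : CForm (altType F) V} {u z e : End F V}

theorem eq_zero_of_neg {a : F} (h : a = -a) : a = 0 := by grind

theorem sa_pow (hz : ∀ x y, C.B (z x) y = C.B x (z y)) (k : ℕ) (x y : V) : C.B ((z ^ k) x) y = C.B x ((z ^ k) y) := by
  induction k generalizing y with
  | zero => rfl
  | succ k ih => rw [pow_succ', End.mul_apply, hz, ih, ← pow_succ', pow_succ, End.mul_apply]

theorem sa_aeval (hz : ∀ x y, C.B (z x) y = C.B x (z y)) (f : F[X]) (x y : V) :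
    C.B (aeval z f x) y = C.B x (aeval z f y) := by
  induction f using Polynomial.induction_on' with
  | add p q hp hq => simp [hp, hq]
  | monomial n a => simp [aeval_monomial, alt_σ, sa_pow hz]

theorem sa_self (hz : ∀ x y, C.B (z x) y = C.B x (z y)) (x : V) : C.B x (z x) = 0 :=
  eq_zero_of_neg (by rw [← alt_B_swap, hz])

variable [FiniteDimensional F V] (hC : C.Nondeg) (hn : finrank F V = 6)
include hC

omit [CharP F 3] in
theorem perp_ker (h : ∀ w, z w = 0 → ∀ y, C.B w (z y) = 0) : C.perp (LinearMap.ker z) = LinearMap.range z := by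
  refine (eq_of_le_of_finrank_eq ?_ ?_).symm
  · rintro _ ⟨y, rfl⟩
    exact C.mem_perp.2 fun w hw => h w hw y
  · have := hC.finrank_add_finrank_perp (LinearMap.ker z)
    have := z.finrank_range_add_finrank_ker
    omega

include hn

theorem fsim_sa (hc : ∀ x, x ^ 3 - x ≠ c) (h : SA C c e) : FSim (C6 F) ((mA c).prodMap (mA c)) C e := by
  haveI := nontrivial_of_finrank_pos (R := F) (M := V) (by omega)
  obtain ⟨v, v0⟩ := exists_ne (0 : V)
  have h3 := f3_iff.1 h.2
  obtain ⟨w, w1, w2⟩ := hC.exists_perp_eq (W := span F {v, e v}) (x := e (e v)) (fun hx => by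
    obtain ⟨a, b, hx⟩ := mem_span_pair.1 hx
    have : aeval e (X ^ 2 - .C b * X - .C a : F[X]) v = 0 := by simp [sq, ← hx]
    obtain ⟨r, s, hrs⟩ := (f3_irr hc).coprime_iff_not_dvd.2 fun hd : f3 c ∣ X ^ 2 - .C b * X - .C a => by
      have := natDegree_le_of_dvd hd (Monic.ne_zero (by monicity!))
      rw [f3_deg, show (X ^ 2 - .C b * X - .C a : F[X]).natDegree = 2 by compute_degree!] at this; omega
    exact v0 (by simpa only [map_add, map_mul, h.2, mul_zero, zero_add, End.mul_apply, this, map_zero, map_one,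
      End.one_apply] using (congrArg (aeval e · v) hrs).symm)) 1
  obtain ⟨w3, w4⟩ := C.mem_perp_pair.1 w1
  let θ : V → (Fin 3 → F) →ₗ[F] V := fun v => Fintype.linearCombination F ![v, e v, e (e v)]
  have t : ∀ v x, θ v x = x 0 • v + x 1 • e v + x 2 • e (e v) := fun v x => by
    simp [θ, Fintype.linearCombination_apply, Fin.sum_univ_three]
  have t1 : ∀ v x y, C.B (θ v x) (θ v y) = 0 := fun v x y => by
    have := sa_self (sa_pow h.1 2) v
    simp [t, alt_σ, h.1, h3, H11.alt_B_self, sa_self h.1 v, show C.B v (e (e v)) = 0 from this]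
  have t2 : ∀ x y, C.B (θ v x) (θ w y) = bL (RingHom.id F) x y := fun x y => by
    rw [h.1] at w4; rw [h.1, h.1] at w2
    simp [t, alt_σ, h.1, h3, w2, w3, w4, bL_apply]; ring
  have t3 : ∀ x y, C.B ((θ v).coprod (θ w) x) ((θ v).coprod (θ w) y) = (C6 F).B x y := fun x y => by
    simp [t1, t2, alt_B_swap (θ v _) (θ w _), C6_B, bL_apply]; ring
  refine ⟨LinearMap.linearEquivOfInjective _ (C6_nd.injective_of_isIsomTo t3) (by simp [hn]),
    ⟨t3, fun x => (H11.alt_N _).trans (H11.alt_N _).symm⟩, fun x => ?_⟩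
  simp [t, mA_apply, h3]
  module

theorem fam_sa6 (hc : ∀ x, x ^ 3 - x ≠ c) : Fam C.isom (Nz ⊤) (SA C c) := by
  refine fam_nz (fun e e' h h' => ?_) fun e h => ?_
  · obtain ⟨a, a1, a2⟩ := fsim_sa hC hn hc h
    obtain ⟨b, b1, b2⟩ := fsim_sa hC hn hc h'
    refine ⟨a.symm.trans b, ⟨fun x y => (b1.1 _ _).trans (a1.symm.1 _ _), fun x => (H11.alt_N _).trans (H11.alt_N _).symm⟩,
      fun v => ?_⟩
    obtain ⟨v, rfl⟩ := a.surjective v
    rw [← a2]; simpa using b2 v
  · haveI := nontrivial_of_finrank_pos (R := F) (M := V) (by omega)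
    obtain ⟨v, v0⟩ := exists_ne (0 : V)
    exact nz_not_le hC (by omega) inf_le_left (tvOk_alt 1) one_ne_zero (H11.alt_N v) v0 hc h

omit [CharP F 3] in
theorem fam_hyp : Fam C.isom glStab fun W => ∃ e f, IsHypPair C e f ∧ W = span F {e, f} := by
  refine fam_stab ?_ ?_
  · rintro _ _ ⟨e, f, h, rfl⟩ ⟨e', f', h', rfl⟩
    obtain ⟨g, g1, g2, g3⟩ := exists_isom_hypPair hC h h'
    exact ⟨g, g1, by simp [map_span, Set.image_pair, g2, g3]⟩
  · rintro _ ⟨e, f, h, rfl⟩
    obtain ⟨z, z1, z2⟩ := exists_mem_ne_zero_of_ne_bot (p := C.perp (span F {e, f})) fun e' => by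
      have := h.finrank_perp hC
      have := finrank_eq_zero.2 e'
      omega
    refine tv_not_le inf_le_left (tvOk_alt 1) one_ne_zero (v := f + z) (H11.alt_N _) (fun e' => z2 (disjoint_def.1
      (h.isCompl hC).disjoint z ((Submodule.add_mem_iff_right _ (subset_span (by simp))).1 e') z1)) (w := e)
      (subset_span (by simp)) (C.B_swap_ne ?_)
    simp [h.pair, (C.mem_perp_pair.1 z1).1]

/-- no invariant hyperbolic plane -/
def NP (C : CForm (altType F) V) (u : End F V) : Prop :=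
  ∀ x y, u x ∈ span F {x, y} → u y ∈ span F {x, y} → C.B x y = 0

omit [CharP F 3] hC hn in
theorem NP.two (H : NP C u) {W : Submodule F V} (h1 : C.NondegOn W) (h2 : finrank F W = 2) :
    ¬ ∀ x ∈ W, u x ∈ W := fun h => by
  obtain ⟨x, x1, x0⟩ := exists_mem_ne_zero_of_ne_bot (p := W) (by rintro rfl; simp at h2)
  obtain ⟨y, y1, y0⟩ := h1.exists_eq x1 x0 1
  have : span F {x, y} = W := eq_of_le_of_finrank_eq (span_le.2 (Set.pair_subset x1 y1)) ((finrank_pair x0 fun a e => by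
    simp [← e, H11.alt_B_self] at y0).trans h2.symm)
  exact one_ne_zero (y0.symm.trans (H x y (this ▸ h x x1) (this ▸ h y y1)))

variable (hu : C.IsIsomTo C u) (H : NP C u) (hz : ∀ x y, C.B (z x) y = C.B x (z y)) (hc : ∀ x, u (z x) = z (u x))
include hu H hz hc

theorem nil_or : IsNilpotent z ∨ IsUnit z := by
  obtain ⟨N, h, h0⟩ := (z.eventually_isCompl_ker_pow_range_pow.and (Filter.eventually_ge_atTop 1)).exists
  have n : C.NondegOn (LinearMap.ker (z ^ N)) := C.nondegOn_iff.2 (by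
    rw [perp_ker hC fun w hw y => by rw [← sa_pow hz, hw, map_zero, LinearMap.zero_apply]]; exact h.disjoint)
  have i : ∀ x ∈ LinearMap.ker (z ^ N), u x ∈ LinearMap.ker (z ^ N) := fun x hx => by
    rw [LinearMap.mem_ker, ← pow_intertw hc, hx, map_zero]
  obtain ⟨m, hm⟩ := alt_even (C.restrict_nondeg_iff.2 n)
  have d := hC.finrank_add_finrank_perp (LinearMap.ker (z ^ N))
  have := mt (H.two n) (not_not.2 i)
  have := mt (H.two (hC.nondegOn_perp n)) (not_not.2 (perp_inv hC hu i))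
  rcases (by omega : m = 0 ∨ m = 3) with rfl | rfl
  · exact .inr ((isUnit_pow_iff (by omega)).1 ((LinearMap.isUnit_iff_ker_eq_bot _).2 (finrank_eq_zero.1 hm)))
  · exact .inl ⟨N, LinearMap.ker_eq_top.1 (eq_top_of_finrank_eq (hm.trans hn.symm))⟩

variable [Finite F]

theorem dich (h0 : ∀ x, x ^ 3 - x ≠ c) :
    (∃ t : F, IsNilpotent (z - algebraMap F _ t)) ∨ ∃ e, SA C c e ∧ ∀ x, u (e x) = e (u x) := by
  haveI := nontrivial_of_finrank_pos (R := F) (M := V) (by omega)
  have hi := Algebra.IsIntegral.isIntegral (R := F) z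
  obtain ⟨p, p1, p2, r, hr⟩ := exists_monic_irreducible_factor _ (minpoly.not_isUnit F z)
  obtain ⟨N, hN⟩ := (nil_or hC hn hu H (sa_aeval hz p) (aeval_intertw hc p)).resolve_right fun h => by
    have := natDegree_le_of_dvd (minpoly.dvd F z (h.mul_right_eq_zero.1 (by rw [← map_mul, ← hr, minpoly.aeval])))
      (right_ne_zero_of_mul (hr ▸ minpoly.ne_zero hi))
    rw [hr, natDegree_mul p2.ne_zero (right_ne_zero_of_mul (hr ▸ minpoly.ne_zero hi))] at this
    have := p2.natDegree_pos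
    omega
  rw [← map_pow] at hN
  obtain ⟨W, ⟨W1, W2⟩, hW⟩ := set_has_maximal_iff_noetherian.2 inferInstance
    {W : Submodule F V | C.TS W ∧ ∀ x ∈ W, z x ∈ W} ⟨⊥, ts_bot, by simp⟩
  have h1 : C.perp W ≤ W := fun v hv => by
    have a : ∀ k, (z ^ k) v ∈ span F (Set.range fun k => (z ^ k) v) := fun k => subset_span ⟨k, rfl⟩
    refine (eq_of_le_of_not_lt le_sup_left (hW (W ⊔ span F (Set.range fun k => (z ^ k) v)) ⟨W1.sup (ts_span
      (fun x _ => H11.alt_N x) ?_) (span_le.2 ?_), fun x hx => ?_⟩)).ge (mem_sup_right (a 0))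
    · rintro _ ⟨i, rfl⟩ _ ⟨j, rfl⟩
      rw [sa_pow hz, ← End.mul_apply, ← pow_add, sa_self (sa_pow hz _)]
    · rintro _ ⟨i, rfl⟩
      exact C.mem_perp.2 fun x hx => (sa_pow hz i x v).symm.trans (C.mem_perp.1 hv _ (End.pow_apply_mem_of_forall_mem i W2 x hx))
    · obtain ⟨x, h1, y, h2, rfl⟩ := mem_sup.1 hx
      rw [map_add]
      refine add_mem_sup (W2 x h1) (span_inv ?_ y h2)
      rintro _ ⟨i, rfl⟩
      exact pow_apply_succ z i v ▸ a (i + 1)
  have h2 : p.natDegree ∣ 3 := by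
    obtain ⟨s, s1, s2⟩ := exists_hasType (z.restrict W2)
    have := hC.finrank_add_finrank_perp W
    rw [le_antisymm h1 W1.le_perp] at this
    rw [← show finrank F W = 3 by omega, s2.finrank]
    refine Multiset.dvd_sum fun _ ha => ?_
    obtain ⟨a, ha', rfl⟩ := Multiset.mem_map.1 ha
    obtain ⟨i, -, hi⟩ := (dvd_prime_pow p2.prime N).1 ((s2.aeval_eq_zero_iff (fun a ha => (s1 a ha).ne_zero) _).1
      (aeval_restrict hN W2) a ha')
    rw [natDegree_eq_of_degree_eq (degree_eq_degree_of_associated hi), natDegree_pow]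
    exact dvd_mul_left _ _
  rcases (Nat.dvd_prime Nat.prime_three).1 h2 with h | h
  · rw [p1.eq_X_add_C h] at hN
    exact .inl ⟨-p.coeff 0, N, by simpa using hN⟩
  · obtain ⟨f, hf⟩ := exists_root (f3_irr h0) (pow_ne_zero _ p2.ne_zero) hN fun r a b => by
      rw [f3_deg, ← h, natDegree_eq_of_degree_eq (degree_eq_degree_of_associated
        (a.associated_of_dvd p2 (a.prime.dvd_of_dvd_pow b)))]
    exact .inr ⟨_, ⟨sa_aeval hz f, hf⟩, aeval_intertw hc f⟩

omit hz hc

theorem lift (h0 : ∀ x, x ^ 3 - x ≠ c) {g : End F _} (g1 : ∀ x y, (C6 F).B (g x) (g y) = (C6 F).B x y)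
    (g2 : ∀ x, g ((mA c).prodMap (mA c) x) = (mA c).prodMap (mA c) (g x) + g x) (h : Sim g u) :
    ∃ e, SA C c e ∧ ∃ a : F, ∀ x, u (e x) = e (u x) + a • u x := by
  obtain ⟨ψ, hψ⟩ := h
  obtain ⟨z, hz⟩ := (toSQ hC).exists_lin ((C6 F).comap ψ.symm).B
  replace hz : ∀ x y, C.B (z (ψ x)) (ψ y) = (C6 F).B x y := fun x y => (hz (ψ x) (ψ y)).trans (by simp)
  have z1 : ∀ x y, C.B (z x) y = C.B x (z y) := fun x y => by
    obtain ⟨x, rfl⟩ := ψ.surjective x
    obtain ⟨y, rfl⟩ := ψ.surjective y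
    rw [alt_B_swap (z _), hz, hz, alt_B_swap]
  have z2 : ∀ x, u (z x) = z (u x) := fun x => hC.ext fun y => by
    obtain ⟨y, rfl⟩ := (End.isUnit_iff _).1 (isUnit_of_isom hC hu) |>.2 y
    obtain ⟨x, rfl⟩ := ψ.surjective x
    obtain ⟨y, rfl⟩ := ψ.surjective y
    rw [hu.1, ← hψ, ← hψ, hz, hz, g1]
  refine (dich hC hn hu H z1 z2 h0).elim ?_ fun h => h.imp fun e h => ⟨h.1, 0, by simpa using h.2⟩
  rintro ⟨t, ht⟩
  haveI := nontrivial_of_finrank_pos (R := F) (M := V) (by omega)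
  haveI := charP_of_injective_algebraMap (algebraMap F (End F V)).injective 3
  have h9 : z ^ 3 ^ 2 = algebraMap F _ (t ^ 3 ^ 2) := by
    rw [← sub_eq_zero, map_pow, ← sub_pow_char_pow_of_commute 3 2 (Algebra.commute_algebraMap_right _ _)]
    exact pow_eq_zero_of_le (by omega) (pow_finrank_nilp ht)
  have k : ∀ x y, C.B ((z ^ 5) (ψ x)) ((z ^ 5) (ψ y)) = t ^ 3 ^ 2 * (C6 F).B x y := fun x y => by
    rw [← sa_pow z1, ← End.mul_apply, ← pow_add, show 5 + 5 = 3 ^ 2 + 1 from rfl, pow_succ, h9, ← hz,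
      End.mul_apply, algebraMap_end_apply, H11.alt_B_smul_left]
  have t0 : t ^ 3 ^ 2 ≠ 0 := fun e => by
    have : IsUnit z := (LinearMap.isUnit_iff_ker_eq_bot _).2 (LinearMap.ker_eq_bot'.2 fun x hx => by
      obtain ⟨x, rfl⟩ := ψ.surjective x
      rw [C6_nd x fun y => by simp [← hz, hx], map_zero])
    exact (this.pow _).ne_zero (by rw [h9, e, map_zero])
  obtain ⟨θ, hθ⟩ : ∃ θ : _ ≃ₗ[F] V, ∀ x, θ x = (z ^ 5) (ψ x) :=
    ⟨LinearMap.linearEquivOfInjective ((z ^ 5) ∘ₗ ψ.toLinearMap) ((injective_iff_map_eq_zero _).2 fun x hx =>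
    C6_nd x fun y => (mul_eq_zero.1 ((k x y).symm.trans (by simp [show (z ^ 5) (ψ x) = 0 from hx]))).resolve_left t0)
    ψ.finrank_eq, fun _ => rfl⟩
  have θ1 : ∀ x y, C.B (θ x) (θ y) = t ^ 3 ^ 2 * (C6 F).B x y := fun x y => by rw [hθ, hθ, k]
  have θ2 : ∀ x, u (θ x) = θ (g x) := fun x => by rw [hθ, hθ, hψ, pow_intertw z2]
  have s := sa6 (c := c)
  generalize (mA c).prodMap (mA c) = e at s g2
  refine ⟨θ.conj e, ⟨fun x y => ?_, f3_iff.2 fun x => by simp [f3_iff.1 s.2]⟩, 1, fun x => ?_⟩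
  · obtain ⟨x, rfl⟩ := θ.surjective x
    obtain ⟨y, rfl⟩ := θ.surjective y
    simp [θ1, s.1]
  · obtain ⟨x, rfl⟩ := θ.surjective x
    simp [θ2, g2]

end H27.Cov
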