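import Cfsg.Agent.H27.Cov4
import Cfsg.Agent.H27.Cov5
import Cfsg.Agent.H27.Spec16

/-! Coverings by two conjugacy classes of subgroups, VI: `Sp₆` in characteristic three, the elements. -/

set_option autoImplicit false

namespace H27.Cov

open Module Polynomial Function H22 H12 H12.CForm H11 H27.Sp Submodule

variable {F : Type*} [Field F] {V : Type*} [AddCommGroup V] [Module F V] {c t : F}

/-- a regular unipotent element -/
def gU (c : F) : End F ((Fin 3 → F) × (Fin 3 → F)) :=
  .prod (mP F ∘ₗ .fst F _ _ + mA c ∘ₗ mA c ∘ₗ mP F ∘ₗ .snd F _ _) (mP F ∘ₗ .snd F _ _)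

/-- a regular element with given trace -/
def gT (t : F) : End F ((Fin 3 → F) × (Fin 3 → F)) :=
  .prod (-mP F ∘ₗ .snd F _ _) (mP F ∘ₗ .fst F _ _ + t • mP F ∘ₗ .snd F _ _)

theorem gU_apply (x : (Fin 3 → F) × (Fin 3 → F)) : gU c x = (mP F x.1 + mA c (mA c (mP F x.2)), mP F x.2) := rfl

theorem gT_apply (x : (Fin 3 → F) × (Fin 3 → F)) : gT t x = (-mP F x.2, mP F x.1 + t • mP F x.2) := rfl

/-- the quadratic polynomial -/
noncomputable def m2 (t : F) : F[X] := X ^ 2 - .C t * X + 1

theorem m2_ne : m2 t ≠ 0 := Monic.ne_zero (by unfold m2; monicity!)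

theorem m2_apply (u : End F V) (x : V) : aeval u (m2 t) x = u (u x) - t • u x + x := by simp [m2, sq]

theorem gT_m (x : (Fin 3 → F) × (Fin 3 → F)) : aeval (gT t) (m2 t) x =
    (![-2 * x.1 1 - x.1 2 - t * x.2 1, 2 * x.1 2 + t * x.2 2, 0],
      ![(t ^ 2 - 2) * x.2 1 - x.2 2 + t * x.1 1, (2 - t ^ 2) * x.2 2 - t * x.1 2, 0]) := by
  refine Prod.ext (funext fun i => ?_) (funext fun i => ?_) <;> fin_cases i <;>
    simp [m2_apply, gT_apply, mP_apply] <;> ring

variable [CharP F 3]

theorem gU_three (x : (Fin 3 → F) × (Fin 3 → F)) : ((gU c - 1) ^ 3 : End F _) x = (-x.2, 0) := by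
  rw [show (gU c - 1) ^ 3 = _ from sub_one_pow_char F 3 _ 1]
  refine Prod.ext (funext fun i => ?_) (funext fun i => ?_) <;> fin_cases i <;>
    simp [pow_succ, gU_apply, mP_apply, mA_apply] <;> grind

variable [FiniteDimensional F V] {C : CForm (altType F) V} {u : End F V}

omit [CharP F 3] in
theorem rk {M A : End F V} (h : LinearMap.ker M ≤ LinearMap.range A) :
    finrank F (LinearMap.range (M * A)) + finrank F (LinearMap.ker M) = finrank F (LinearMap.range A) := by
  rw [← (M.domRestrict (LinearMap.range A)).finrank_range_add_finrank_ker, LinearMap.range_domRestrict,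
    LinearMap.ker_domRestrict, (comapSubtypeEquivOfLe h).finrank_eq, End.mul_eq_comp, LinearMap.range_comp]

variable [Finite F] (hC : C.Nondeg) (hn : finrank F V = 6) (hu : C.IsIsomTo C u)
include hC hn hu

omit [CharP F 3] in
theorem jd_t {K : Type*} [Field K] [Algebra F K] [IsAlgClosed K] [Algebra.IsAlgebraic F K] {a : K}
    (ha : aeval a (m2 t) = 0) (ht : t ^ 2 ≠ 4) (h1 : IsNilpotent (aeval u (m2 t))) (h2 : aeval u (m2 t) ^ 2 ≠ 0) :
    JD u {(a, 3), (a⁻¹, 3)} := by
  obtain ⟨D, hD⟩ := exists_jd (K := K) u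
  have s := (Rl.of hC hu hD).inv fun _ => rfl
  obtain ⟨N, hN⟩ := h1
  have r : ∀ x ∈ D, aeval x.1 (m2 t) = 0 := fun x hx => eq_zero_of_pow_eq_zero (n := N) (by
    rw [← map_pow, ← mu_pos (pow_ne_zero _ m2_ne)]
    exact (hD.pos x hx).trans_le ((hD.aeval_eq_zero_iff (pow_ne_zero _ m2_ne)).1 (by rwa [map_pow]) x hx))
  have := mt (hD.aeval_eq_zero_iff (pow_ne_zero 2 m2_ne)).2 (by rwa [map_pow])
  push Not at this
  obtain ⟨⟨b, k⟩, hx, hk⟩ := this
  have b1 := r _ hx
  have := (mu_pos m2_ne).2 b1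
  rw [mu_pow _ m2_ne] at hk
  simp only [m2, map_add, map_sub, aeval_X_pow, map_mul, aeval_C, aeval_X, map_one] at ha b1 hk this
  have b0 : b ≠ 0 := by rintro rfl; simp at b1
  have a0 : a ≠ 0 := by rintro rfl; simp at ha
  have b2 : b⁻¹ ≠ b := fun e => ht ((algebraMap F K).injective (by
    rw [map_pow, map_ofNat]; field_simp at e; grind))
  obtain ⟨D, rfl⟩ := Multiset.exists_cons_of_mem hx
  obtain ⟨D, rfl⟩ := Multiset.exists_cons_of_mem ((Multiset.mem_cons.1 (s ▸ Multiset.mem_map_of_mem (pm (·⁻¹))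
    hx)).resolve_left fun e => b2 (congrArg Prod.fst e))
  have d := hD.dim
  have := card_le_dimD (D := D) fun x hx => hD.pos x (by simp [hx])
  simp only [dimD_cons, pm_snd, hn] at d
  obtain rfl : D = 0 := Multiset.card_eq_zero.1 (by omega)
  obtain rfl : k = 3 := by omega
  rcases (by field_simp; grind : b = a ∨ b = a⁻¹) with rfl | rfl
  exacts [hD, by rw [Multiset.pair_comm]; simpa using hD]

variable (H : NP C u) (h0 : ∀ x, x ^ 3 - x ≠ c)
include H

omit hn [Finite F] in
theorem ker_le (h : IsNilpotent (u - 1)) : LinearMap.ker (u - 1) ≤ LinearMap.range ((u - 1) * (u - 1)) := by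
  have m : ∀ x y : V, x ∈ span F {x, y} ∧ y ∈ span F {x, y} := fun x y => ⟨subset_span (by simp), subset_span (by simp)⟩
  have h1 : ∀ v, ((u - 1) * (u - 1)) v = 0 → C.B v (u v) = 0 := fun v hv => H _ _ (m _ _).2 (mem_span_pair.2 ⟨-1, 2, by
    simp at hv; linear_combination (norm := module) -hv⟩)
  intro x hx
  replace hx : u x = x := sub_eq_zero.1 hx
  obtain ⟨y, hy⟩ : x ∈ LinearMap.range (u - 1) := by
    rw [← perp_ker hC fun w hw y => by
      have := hu.1 w y; rw [show u w = w from sub_eq_zero.1 hw] at this; simp [this]]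
    exact C.mem_perp.2 fun w hw => H _ _ ((sub_eq_zero.1 hw : u w = w).symm ▸ (m _ _).1) (hx.symm ▸ (m _ _).2)
  replace hy : u y = y + x := by rw [← hy]; simp
  rw [← perp_ker hC fun w hw y => by
    have a := hu.1 w y
    have b := hu.1 (u w) (u y)
    have d := hu.1 w (u y)
    have := congrArg (C.B · (u (u y))) hw
    simp at this ⊢; linear_combination this - b - a + 2 * d]
  refine C.mem_perp.2 fun w hw => ?_
  have a := h1 y (by simp [hy, hx])
  have b := h1 (w + y) (by rw [map_add, hw]; simp [hy, hx])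
  have d := hu.1 w (y - x)
  rw [map_sub, hy, hx, add_sub_cancel_right, alt_B_swap] at d
  simp only [map_add, LinearMap.add_apply, h1 w hw, a] at b
  simp only [hy, map_add, map_sub] at b d
  exact eq_zero_of_neg (by linear_combination b + d)

include h0

theorem uni (h : IsNilpotent (u - 1)) : ∃ e, SA C c e ∧ ∃ a : F, ∀ x, u (e x) = e (u x) + a • u x := by
  have h3 : (3 : F) = 0 := CharP.cast_eq_zero F 3
  have k2 := ker_le hC hu H h
  have r1 := (u - 1).finrank_range_add_finrank_ker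
  have r2 := rk (k2.trans (LinearMap.range_comp_le_range _ _))
  have r3 := rk k2
  obtain ⟨D, hD⟩ := exists_jd (K := AlgebraicClosure F) u
  have s := fun j => hD.sub_pow 1 j
  simp only [map_one] at s
  have f := hD.fix
  rw [c1_uni fun x hx => ((s _).1 (pow_finrank_nilp h) x hx).1] at f
  have d := hD.dim
  rw [hn] at d
  obtain e | e | e : D.card = 0 ∨ D.card = 1 ∨ D.card = 2 := by omega
  · simp [Multiset.card_eq_zero.1 e] at d
  · obtain ⟨⟨a, k⟩, rfl⟩ := Multiset.card_eq_one.1 e
    obtain ⟨rfl, -⟩ := (s _).1 (pow_finrank_nilp h) _ (Multiset.mem_singleton_self _)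
    obtain rfl : 5 + 1 = k := by simpa using d
    refine lift hC hn hu H h0 (g := gU c) (fun x y => by simp [gU_apply, C6_B, bL_P h3, bL_A]) (fun x => ?_)
      ((jd_reg (by simp) (LinearMap.ext fun x => ?_) fun e => mP_two (F := F) (LinearMap.ext fun x => ?_)).sim hD)
    · simp [gU_apply, mP_A h3]; abel
    · rw [show 5 + 1 = 3 + 3 from rfl, pow_add, End.mul_apply, gU_three, gU_three]; simp
    · have := LinearMap.congr_fun e (0, -x)
      rw [show 5 = 2 + 3 from rfl, pow_add, End.mul_apply, gU_three] at this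
      simpa [sq, gU_apply] using this
  · obtain ⟨⟨a, k⟩, ⟨b, l⟩, rfl⟩ := Multiset.card_eq_two.1 e
    have := (s 3).1 (by rw [pow_three]; exact LinearMap.range_eq_bot.1 (finrank_eq_zero.1 (by omega)))
    obtain ⟨rfl, a1⟩ := this (a, k) (by simp)
    obtain ⟨rfl, a2⟩ := this (b, l) (by simp)
    obtain ⟨rfl, rfl⟩ : k = 2 + 1 ∧ l = 2 + 1 := by simp [dimD] at d a1 a2; omega
    have := jd_reg (K := AlgebraicClosure F) (k := 2) (by simp) (mP_three (F := F)) mP_two
    exact lift hC hn hu H h0 (fun x y => by simp [C6_B, bL_P h3]) (fun x => by simp [mP_A h3]) ((this.prod this).sim hD)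

theorem sp6_main : ∃ e, SA C c e ∧ ∃ a : F, ∀ x, u (e x) = e (u x) + a • u x := by
  have h3 : (3 : F) = 0 := CharP.cast_eq_zero F 3
  obtain ⟨a1, a2⟩ := (toSQ hC).adj_of_inv hu.1
  generalize (toSQ hC).adj u = v at a1 a2
  have b1 : ∀ x, v (u x) = x := LinearMap.congr_fun a1
  have b2 : ∀ x, u (v x) = x := LinearMap.congr_fun a2
  have b3 : ∀ x y, C.B (u x) y = C.B x (v y) := fun x y => by rw [← hu.1 x, b2]
  have b4 : ∀ x y, C.B (v x) y = C.B x (u y) := fun x y => by rw [← hu.1 _ y, b2]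
  refine (dich hC hn hu H (z := u + v) (fun x y => by simp [b3, b4, add_comm]) (fun x => by simp [b1, b2]) h0).elim ?_
    fun h => h.imp fun e h => ⟨h.1, 0, by simpa using h.2⟩
  rintro ⟨t, ht⟩
  have e : aeval u (m2 t) = u * (u + v - algebraMap F _ t) := LinearMap.ext fun x => by simp [m2_apply, b2]; abel
  have n : IsNilpotent (aeval u (m2 t)) :=
    e ▸ Commute.isNilpotent_mul_left (LinearMap.ext fun x => by simp [b1, b2]) ht
  by_cases t2 : t ^ 2 = 4
  · rcases (by grind : t = 2 ∨ t = -2) with rfl | rfl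
    · exact uni hC hn hu H h0 (.of_pow (m := 2) (by
        rwa [show (u - 1) ^ 2 = aeval u (m2 (2 : F)) from LinearMap.ext fun x => by simp [m2_apply, sq]; module]))
    · obtain ⟨e, h1, a, h2⟩ := uni (u := -u) hC hn ⟨by simpa using hu.1, fun x => (H11.alt_N _).trans (H11.alt_N _).symm⟩
        (fun x y a b => H x y (neg_mem_iff.1 a) (neg_mem_iff.1 b)) h0
        (.of_pow (m := 2) (by
        rwa [show (-u - 1) ^ 2 = aeval u (m2 (-2 : F)) from LinearMap.ext fun x => by simp [m2_apply, sq]; module]))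
      exact ⟨e, h1, a, fun x => by have := h2 x; simp at this; linear_combination (norm := module) -this⟩
  obtain ⟨a, ha⟩ := IsAlgClosed.exists_aeval_eq_zero (AlgebraicClosure F) (m2 t) (by
    rw [show (m2 t).degree = 2 by unfold m2; compute_degree!]; simp)
  have g1 : ∀ x y, (C6 F).B (gT t x) (gT t y) = (C6 F).B x y := fun x y => by simp [gT_apply, C6_B, bL_P h3]; ring
  refine lift hC hn hu H h0 g1 (fun x => by simp [gT_apply, mP_A h3]; constructor <;> abel) ((jd_t C6_nd (by simp)
    ⟨g1, fun _ => rfl⟩ ha t2 ⟨3, LinearMap.ext fun x => by simp [pow_succ, gT_m]⟩ fun e => t2 ?_).sim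
      (jd_t hC hn hu ha t2 n fun h => ?_))
  · have := congrFun (congrArg Prod.fst (LinearMap.congr_fun e (![0, 0, 1], 0))) 0
    simp [sq, gT_m] at this; grind
  set N := u + v - algebraMap F _ t with hN
  have n1 : ∀ x y, C.B (N x) y = C.B x (N y) := fun x y => by simp [hN, b3, b4, alt_σ]; ring
  have n2 : LinearMap.range N ≤ LinearMap.ker N := LinearMap.range_le_ker_iff.2 (LinearMap.ext fun x => by
    have := congrArg (v ∘ v) (LinearMap.congr_fun h x)
    simpa [e, sq, b1, show ∀ x, N (u x) = u (N x) from fun x => by simp [hN, b1, b2]] using this)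
  have n3 : ∀ x, N x = 0 ↔ v x = t • x - u x := fun x => by
    simp only [hN, LinearMap.sub_apply, LinearMap.add_apply, algebraMap_end_apply, sub_eq_zero, eq_sub_iff_add_eq']
  have n4 : ∀ x, N x = 0 → C.B x (u x) = 0 := fun x hx => H _ _ (subset_span (by simp)) (mem_span_pair.2 ⟨-1, t, by
    have := congrArg u ((n3 x).1 hx); simp [b2] at this; linear_combination (norm := module) -this⟩)
  have n5 : ∀ x y, N x = 0 → N y = 0 → 2 * C.B x (u y) = t * C.B x y := fun x y hx hy => by
    have := n4 (x + y) (by simp [hx, hy])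
    simp only [map_add, LinearMap.add_apply, n4 x hx, n4 y hy, alt_B_swap (u x) y, b3, (n3 y).1 hy, map_sub,
      map_smul, smul_eq_mul] at this
    linear_combination this
  have n6 : C.TS (LinearMap.ker N) := ⟨fun x _ => H11.alt_N x, fun x hx y hy => by
    have a := n5 x y hx hy
    have b := n5 x (u y) hx (by simpa [hN, b1, b2] using congrArg u hy)
    have d := congrArg (C.B x ∘ u) ((n3 y).1 hy)
    simp [b2] at d
    exact (mul_eq_zero.1 (by linear_combination -t * a + 2 * b - 4 * d)).resolve_left (sub_ne_zero.2 t2)⟩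
  obtain ⟨U, hU⟩ := (LinearMap.ker N).exists_isCompl
  obtain ⟨m, hm⟩ := alt_even (C := (ofAlt (LinearMap.compl₂ C.B N) (sa_self n1)).restrict U)
    ((restrict_nondeg_iff _).2 fun x hx h => disjoint_def.1 hU.disjoint x (hC _ fun y => by
      obtain ⟨y, z, rfl⟩ := exists_add_of_isCompl hU y
      rw [n1, map_add, y.2, zero_add]; exact h z z.2) hx)
  have := n6.two_mul_finrank_le hC
  have := finrank_mono n2
  have := N.finrank_range_add_finrank_ker
  have := finrank_add_eq_of_isCompl hU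
  omega

omit hC hn hu H h0 [CharP F 3] [Finite F] in
theorem cov_sp6 {F : Type*} [Field F] [Fintype F] {a : ℕ} (hF : Fintype.card F = 3 ^ a) : Cov (Cfsg.PSp 3 F) := by
  haveI : CharP F 3 := charP_of_card_eq_prime_pow hF
  obtain ⟨c, hc⟩ := exists_as (F := F)
  refine cov_spf (by omega) (fam_hyp spForm_nondeg (by simp)) (fam_sa6 spForm_nondeg (by simp) hc) fun g hg =>
    or_iff_not_imp_left.2 fun h => (sp6_main (u := g.toLinearMap) spForm_nondeg (by simp) hg (fun x y a b => ?_) hc).imp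
      fun e ⟨h1, a, h2⟩ => ⟨h1, a, trivial, h2⟩
  by_contra e
  refine h ⟨_, ⟨x, ((spForm (Fin 3) F).B x y)⁻¹ • y, ⟨rfl, rfl, by simp [e]⟩, ?_⟩,
    mem_glStab_of_mapsTo (span_inv (u := g.toLinearMap) (s := {x, y}) (by rintro _ (rfl | rfl) <;> assumption))⟩
  rw [span_insert, span_insert, span_singleton_smul_eq (IsUnit.mk0 _ (inv_ne_zero e))]

end H27.Cov
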