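/-
Quadratic elements in dimension four, part 1: pairs of unipotent elements of `SL₂ × SL₂`.
-/
import Cfsg.Agent.S0801

set_option autoImplicit false
set_option linter.unusedSectionVars false
set_option linter.style.haveILetI false

namespace H27.D4
open Matrix
open scoped MatrixGroups

theorem pw {A : Type*} [Ring A] {g z z' : A} (h : g * g - (z + z') * g + z * z' = 0) (h' : z * z' = z' * z) (n : ℕ) :
    (z - z') * g ^ n = z ^ n * (g - z') - z' ^ n * (g - z) := by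
  induction n with
  | zero => simp
  | succ n ih =>
    have a : (g - z') * g = z * (g - z') := by rw [← sub_eq_zero, ← h]; noncomm_ring
    have b : (g - z) * g = z' * (g - z) := by rw [← sub_eq_zero, ← h, h']; noncomm_ring
    rw [pow_succ, ← mul_assoc, ih, sub_mul, mul_assoc, mul_assoc, a, b, pow_succ, pow_succ, mul_assoc, mul_assoc]

variable {k : Type*} [Field k]

theorem rt {ζ : k} {n : ℕ} (hn : 0 < n) (h : ζ ^ n = 1) : ∃ m : ℕ, (m : k) ≠ 0 ∧ ζ ^ m = 1 := by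
  have h0 : orderOf ζ ≠ 0 := (isOfFinOrder_iff_pow_eq_one.2 ⟨n, hn, h⟩).orderOf_pos.ne'
  haveI := NeZero.mk h0
  exact ⟨orderOf ζ, (IsPrimitiveRoot.neZero' (IsPrimitiveRoot.orderOf ζ)).out, pow_orderOf_eq_one ζ⟩

theorem ex_root [IsAlgClosed k] (t : k) : ∃ ζ ζ' : k, ζ * ζ' = 1 ∧ ζ + ζ' = t := by
  obtain ⟨ζ, h⟩ := IsAlgClosed.exists_root (Polynomial.X ^ 2 - Polynomial.C t * Polynomial.X + 1 : Polynomial k) (by
    rw [show (Polynomial.X ^ 2 - Polynomial.C t * Polynomial.X + 1 : Polynomial k) =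
      Polynomial.C 1 * Polynomial.X ^ 2 + Polynomial.C (-t) * Polynomial.X + Polynomial.C 1 by simp [sub_eq_add_neg],
      Polynomial.degree_quadratic one_ne_zero]; decide)
  simp only [Polynomial.IsRoot.def, Polynomial.eval_add, Polynomial.eval_sub, Polynomial.eval_pow, Polynomial.eval_X,
    Polynomial.eval_mul, Polynomial.eval_C, Polynomial.eval_one] at h
  exact ⟨ζ, t - ζ, by linear_combination -h, by ring⟩

abbrev M2 (k : Type*) := Matrix (Fin 2) (Fin 2) k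

theorem ext2 {A B : M2 k} (h00 : A 0 0 = B 0 0) (h01 : A 0 1 = B 0 1) (h10 : A 1 0 = B 1 0) (h11 : A 1 1 = B 1 1) :
    A = B := by ext i j; fin_cases i <;> fin_cases j <;> assumption

theorem det2 (g : SL(2, k)) : g 0 0 * g 1 1 - g 0 1 * g 1 0 = 1 := by rw [← det_fin_two]; exact g.2

theorem sext {A B : SL(2, k)} (h00 : A 0 0 = B 0 0) (h01 : A 0 1 = B 0 1) (h10 : A 1 0 = B 1 0) (h11 : A 1 1 = B 1 1) :
    A = B := Subtype.ext (ext2 h00 h01 h10 h11)

theorem smul2 (g h : SL(2, k)) (i j : Fin 2) : (g * h) i j = g i 0 * h 0 j + g i 1 * h 1 j := by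
  change (g.1 * h.1) i j = _
  rw [mul_apply, Fin.sum_univ_two]

theorem sinv00 (g : SL(2, k)) : g⁻¹ 0 0 = g 1 1 := by simp [SpecialLinearGroup.SL2_inv_expl]
theorem sinv01 (g : SL(2, k)) : g⁻¹ 0 1 = -g 0 1 := by simp [SpecialLinearGroup.SL2_inv_expl]
theorem sinv10 (g : SL(2, k)) : g⁻¹ 1 0 = -g 1 0 := by simp [SpecialLinearGroup.SL2_inv_expl]
theorem sinv11 (g : SL(2, k)) : g⁻¹ 1 1 = g 0 0 := by simp [SpecialLinearGroup.SL2_inv_expl]

/-- the trace -/
def tr (g : SL(2, k)) : k := g 0 0 + g 1 1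

theorem sl_pw (g : SL(2, k)) {ζ ζ' : k} (h1 : ζ * ζ' = 1) (h2 : ζ + ζ' = tr g) (n : ℕ) :
    (ζ - ζ') • (g ^ n).1 = ζ ^ n • (g.1 - ζ' • 1) - ζ' ^ n • (g.1 - ζ • 1) := by
  have := pw (g := g.1) (z := ζ • 1) (z' := ζ' • 1) (by
    have := det2 g
    rw [tr] at h2
    apply ext2 <;> simp [mul_apply, Fin.sum_univ_two, one_apply]
    · linear_combination h1 - g 0 0 * h2 - this
    · linear_combination -g 0 1 * h2
    · linear_combination -g 1 0 * h2
    · linear_combination h1 - g 1 1 * h2 - this) (by simp [smul_smul, mul_comm]) n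
  simpa [← sub_smul, _root_.smul_pow] using this

theorem root_of (g : SL(2, k)) {ζ ζ' : k} (h1 : ζ * ζ' = 1) (h2 : ζ + ζ' = tr g) {n : ℕ} (h : g ^ n = 1) :
    ζ ^ (n * 2) = 1 ∨ ζ ^ 2 = 1 := by
  have := sl_pw g h1 h2 n
  rw [h] at this
  have a := congrFun (congrFun this 0) 0
  have b := congrFun (congrFun this 1) 1
  simp [tr] at a b h2
  have c : ζ ^ n * ζ' ^ n = 1 := by rw [← mul_pow, h1, one_pow]
  by_cases e : ζ - ζ' = 0
  · exact .inr (by linear_combination ζ * e + h1)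
  · have d : ζ ^ n + ζ' ^ n = 2 := mul_left_cancel₀ e (by linear_combination -a - b + (ζ ^ n - ζ' ^ n) * h2)
    have : ζ ^ n - 1 = 0 := pow_eq_zero_iff two_ne_zero |>.1 (by linear_combination ζ ^ n * d - c)
    exact .inl (by rw [pow_mul]; linear_combination (ζ ^ n + 1) * this)

/-- a semisimple element has order prime to the characteristic -/
theorem ord_ss [IsAlgClosed k] {g : SL(2, k)} (hf : IsOfFinOrder g) (h1 : tr g ≠ 2) (h2 : tr g ≠ -2) :
    ∃ m : ℕ, (m : k) ≠ 0 ∧ g ^ m = 1 := by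
  obtain ⟨n, hn, h⟩ := isOfFinOrder_iff_pow_eq_one.1 hf
  obtain ⟨ζ, ζ', a, b⟩ := ex_root (tr g)
  have e : ζ - ζ' ≠ 0 := fun e => by
    rcases mul_self_eq_one_iff.1 (show ζ * ζ = 1 by linear_combination ζ * e + a) with c | c
    · exact h1 (by linear_combination -b - e + 2 * c)
    · exact h2 (by linear_combination -b - e + 2 * c)
  obtain ⟨m, hm, c⟩ := rt (Nat.mul_pos hn two_pos) ((root_of g a b h).resolve_right fun c => e (by
    linear_combination ζ' * c - ζ * a))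
  have d : ζ' ^ m = 1 := by linear_combination (exp := 1) -ζ' ^ m * c + (by rw [← mul_pow, a, one_pow] : ζ ^ m * ζ' ^ m = 1)
  have := sl_pw g a b m
  rw [c, d] at this
  refine ⟨m, hm, Subtype.ext (smul_right_injective _ e ?_)⟩
  simp only [this, SpecialLinearGroup.coe_one]; module

/-- upper transvection -/
def U (t : k) : SL(2, k) := ⟨!![1, t; 0, 1], by simp⟩
/-- lower transvection -/
def L (t : k) : SL(2, k) := ⟨!![1, 0; t, 1], by simp⟩

@[simp] theorem U00 (t : k) : U t 0 0 = 1 := rfl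
@[simp] theorem U01 (t : k) : U t 0 1 = t := rfl
@[simp] theorem U10 (t : k) : U t 1 0 = 0 := rfl
@[simp] theorem U11 (t : k) : U t 1 1 = 1 := rfl
@[simp] theorem L00 (t : k) : L t 0 0 = 1 := rfl
@[simp] theorem L01 (t : k) : L t 0 1 = 0 := rfl
@[simp] theorem L10 (t : k) : L t 1 0 = t := rfl
@[simp] theorem L11 (t : k) : L t 1 1 = 1 := rfl

theorem U_pow (t : k) (n : ℕ) : U t ^ n = U (n * t) := by
  induction n with
  | zero => apply sext <;> simp
  | succ n ih => rw [pow_succ, ih]; apply sext <;> simp only [smul2, U00, U01, U10, U11] <;> push_cast <;> ring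

theorem L_pow (t : k) (n : ℕ) : L t ^ n = L (n * t) := by
  induction n with
  | zero => apply sext <;> simp
  | succ n ih => rw [pow_succ, ih]; apply sext <;> simp only [smul2, L00, L01, L10, L11] <;> push_cast <;> ring

/-- Dickson's lemma over an algebraically closed field -/
theorem dick [IsAlgClosed k] (p : ℕ) [Fact p.Prime] [CharP k p] (h2 : (2 : k) ≠ 0) (X : Subgroup SL(2, k)) {l : k}
    (h0 : l ≠ 0) (h1 : ¬ ((3 : k) = 0 ∧ l ^ 2 = -1)) (hL : L 1 ∈ X) (hU : U l ∈ X) (hf : IsOfFinOrder (L 1 * U l)) :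
    U 1 ∈ X := by
  let E := Subfield.closure {l}
  haveI : Finite E := by
    letI := ZMod.algebra k p
    obtain ⟨n, hn, h⟩ := isOfFinOrder_iff_pow_eq_one.1 hf
    obtain ⟨ζ, ζ', a, b⟩ := ex_root (tr (L 1 * U l))
    have i : ∀ {ζ ζ' : k}, ζ * ζ' = 1 → ζ + ζ' = tr (L 1 * U l) → IsIntegral (ZMod p) ζ := fun a b =>
      (root_of _ a b h).elim (fun c => IsIntegral.of_pow (Nat.mul_pos hn two_pos) (c ▸ isIntegral_one))
        fun c => IsIntegral.of_pow two_pos (c ▸ isIntegral_one)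
    have j : IsIntegral (ZMod p) l := by
      have : l = ζ + ζ' - 1 - 1 := by rw [b, tr]; simp only [smul2, L00, L01, L10, L11, U00, U01, U10, U11]; ring
      rw [this]
      exact (((i a b).add (i (mul_comm ζ ζ' ▸ a) (add_comm ζ ζ' ▸ b))).sub isIntegral_one).sub isIntegral_one
    haveI := IntermediateField.adjoin.finiteDimensional j
    haveI : Finite (IntermediateField.adjoin (ZMod p) {l}) := Module.finite_of_finite (ZMod p)
    have : E ≤ (IntermediateField.adjoin (ZMod p) {l}).toSubfield :=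
      Subfield.closure_le.2 (IntermediateField.subset_adjoin _ _)
    exact Finite.of_injective (fun x : E => (⟨x.1, this x.2⟩ : IntermediateField.adjoin (ZMod p) {l}))
      fun x y e => Subtype.ext (by simpa using e)
  have := Fintype.ofFinite E
  let l' : E := ⟨l, Subfield.subset_closure rfl⟩
  have h := ((Cfsg.Agent.S0801.result (F := E) (fun e => h2 (congrArg Subtype.val e)) l'
    (fun e => h0 (congrArg Subtype.val e)) (eq_top_iff.2 fun x _ => by
      have : x.1 ∈ (Subfield.closure {l'}).map E.subtype := by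
        rw [RingHom.map_field_closure, Set.image_singleton]; exact x.2
      obtain ⟨y, a, b⟩ := this
      exact Subtype.ext b ▸ a)).resolve_right fun e => h1 ⟨?_, congrArg Subtype.val e.2.1⟩).1
  · let f : SL(2, E) →* SL(2, k) := SpecialLinearGroup.map E.subtype
    have hf : ∀ (g : SL(2, E)) i j, f g i j = (g i j).1 := fun _ _ _ => rfl
    have h3 : ⊤ ≤ X.comap f := by
      rw [← h, Subgroup.closure_le]
      rintro g (e | e)
      · change f g ∈ X
        rwa [show f g = L 1 by apply sext <;> simp [hf, e]]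
      · change f g ∈ X
        rwa [show f g = U l by apply sext <;> simp [hf, e, l']]
    have : f (U 1) ∈ X := h3 (Subgroup.mem_top _)
    convert this using 1
    apply sext <;> rw [hf] <;> simp
  · have h3 := FiniteField.cast_card_eq_zero E
    rw [e.1] at h3
    have h4 := congrArg E.subtype h3
    rw [map_natCast, map_zero] at h4
    exact (pow_eq_zero_iff two_ne_zero).1 (by push_cast at h4; linear_combination h4)

/-- finite, without transvections -/
structure Pr (X : Subgroup (SL(2, k) × SL(2, k))) : Prop where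
  fin : ∀ x ∈ X, IsOfFinOrder x
  h1 : ∀ z, (z, 1) ∈ X → tr z = 2 → z = 1
  h2 : ∀ z, (1, z) ∈ X → tr z = 2 → z = 1

variable {X : Subgroup (SL(2, k) × SL(2, k))}

theorem Pr.swap (h : Pr X) : Pr (X.comap (MulEquiv.prodComm : _ ≃* _).toMonoidHom) :=
  ⟨fun x hx => (MulEquiv.prodComm (M := SL(2, k)) (N := SL(2, k))).symm.toMonoidHom.isOfFinOrder (h.fin _ hx),
    fun z hz => h.h2 z hz, fun z hz => h.h1 z hz⟩

variable [IsAlgClosed k]

theorem Pr.qa (h : Pr X) (h2 : (2 : k) ≠ 0) {a z z' : SL(2, k)} (ha : ∀ m : ℕ, (m : k) ≠ 0 → (a ^ m, 1) ∉ X)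
    (hz : (a, z) ∈ X) (hz' : (a, z') ∈ X) {ν : k} (t1 : tr (z * z') = 2 + ν) (t2 : tr (z * z * z') = 2 + 2 * ν) :
    ν = 0 ∨ ((3 : k) = 0 ∧ ν = -1) := by
  have key : ∀ {i : ℕ} {g}, (a ^ i, g) ∈ X → (i : k) ≠ 0 → tr g = 2 ∨ tr g = -2 := fun {i g} hg hi => by
    by_contra! c
    obtain ⟨m, hm, e⟩ := ord_ss ((MonoidHom.snd _ _).isOfFinOrder (h.fin _ hg)) c.1 c.2
    refine ha (i * m) (by exact_mod_cast mul_ne_zero hi hm) ?_
    have := pow_mem hg m
    rwa [Prod.pow_mk, show g ^ m = 1 from e, ← pow_mul] at this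
  refine or_iff_not_imp_left.2 fun h0 => ?_
  have a1 : ν = -4 := by
    rcases key (i := 2) (g := z * z') (by simpa [sq] using mul_mem hz hz') (by exact_mod_cast h2) with e | e
    · exact (h0 (by linear_combination e - t1)).elim
    · linear_combination e - t1
  have a2 : (3 : k) = 0 := by
    by_contra h3
    rcases key (i := 3) (g := z * z * z') (by simpa [pow_succ] using mul_mem (mul_mem hz hz) hz')
      (by exact_mod_cast h3) with e | e
    · exact h0 (mul_left_cancel₀ h2 (by linear_combination e - t2))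
    · exact h2 (mul_left_cancel₀ h2 (by linear_combination t2 - e + 2 * a1))
  exact ⟨a2, by linear_combination a1 - a2⟩

omit [IsAlgClosed k] in
theorem se : (∀ g : SL(2, k), tr g = g 0 0 + g 1 1) ∧
    (∀ (g h : SL(2, k)) (i j : Fin 2), (g * h) i j = g i 0 * h 0 j + g i 1 * h 1 j) ∧
    (∀ g : SL(2, k), g⁻¹ 0 0 = g 1 1 ∧ g⁻¹ 0 1 = -g 0 1 ∧ g⁻¹ 1 0 = -g 1 0 ∧ g⁻¹ 1 1 = g 0 0) ∧
    (∀ t : k, U t 0 0 = 1 ∧ U t 0 1 = t ∧ U t 1 0 = 0 ∧ U t 1 1 = 1 ∧ L t 0 0 = 1 ∧ L t 0 1 = 0 ∧ L t 1 0 = t ∧ L t 1 1 = 1) ∧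
    ((1 : SL(2, k)) 0 0 = 1 ∧ (1 : SL(2, k)) 0 1 = 0 ∧ (1 : SL(2, k)) 1 0 = 0 ∧ (1 : SL(2, k)) 1 1 = 1) ∧
    (∀ a b c d : SL(2, k), (a, b) * (c, d) = (a * c, b * d)) ∧ (∀ a b : SL(2, k), (a, b)⁻¹ = (a⁻¹, b⁻¹)) :=
  ⟨fun _ => rfl, smul2, fun g => ⟨sinv00 g, sinv01 g, sinv10 g, sinv11 g⟩, fun _ => ⟨rfl, rfl, rfl, rfl, rfl, rfl, rfl, rfl⟩,
    ⟨by simp, by simp, by simp, by simp⟩, fun _ _ _ _ => rfl, fun _ _ => rfl⟩

section
variable {G H : Type*} [Group G] [Group H] {Y : Subgroup (G × H)} {a a' : G} {b b' : H}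
theorem mu (h : (a, b) ∈ Y) (h' : (a', b') ∈ Y) : (a * a', b * b') ∈ Y := mul_mem h h'
theorem iv (h : (a, b) ∈ Y) : (a⁻¹, b⁻¹) ∈ Y := inv_mem h
theorem pm (h : (a, b) ∈ Y) (n : ℕ) : (a ^ n, b ^ n) ∈ Y := pow_mem h n
theorem em (h : (a, b) ∈ Y) (e : a = a') : (a', b) ∈ Y := e ▸ h
theorem cj1 (hn : (1, b') ∈ Y) (h : (a, b) ∈ Y) : (1, b * b' * b⁻¹) ∈ Y := em (mu (mu h hn) (iv h)) (by simp)
theorem cj2 (hn : (1, b') ∈ Y) (h : (a, b) ∈ Y) : (a, b' * b * b'⁻¹) ∈ Y := em (mu (mu hn h) (iv hn)) (by simp)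
end

theorem Pr.nb (h : Pr X) (h2 : (2 : k) ≠ 0) {l μ : k} (hL : (L 1, L 1) ∈ X) (hU : (U l, U μ) ∈ X) (l0 : l ≠ 0)
    (μ0 : μ ≠ 0) (h3 : ¬ ((3 : k) = 0 ∧ μ ^ 2 = 1)) {n : SL(2, k)} (hn : (1, n) ∈ X) :
    n 0 1 = 0 ∧ n 1 0 = 0 ∧ n 0 0 = n 1 1 := by
  have a1 : ∀ {n}, (1, n) ∈ X → n 0 1 = 0 ∨ ((3 : k) = 0 ∧ n 0 1 ^ 2 = 1) := fun {n} hn => by
    have d := det2 n
    refine (h.qa h2 (fun m hm c => ?_) hL (cj2 hn hL) (ν := -n 0 1 ^ 2) ?_ ?_).imp (by simp)
      fun e => ⟨e.1, neg_injective e.2⟩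
    · rw [L_pow] at c
      exact hm (by simpa using congrArg (· 1 0) (h.h1 _ c (by simp only [se]; ring)))
    · simp only [se]; linear_combination 2 * d
    · simp only [se]; linear_combination 2 * d
  have a2 : ∀ {n}, (1, n) ∈ X → (n 1 0 * μ) ^ 3 = n 1 0 * μ := fun {n} hn => by
    have d := det2 n
    rcases h.qa h2 (fun m hm c => by
        rw [U_pow] at c
        exact mul_ne_zero hm l0 (by simpa using congrArg (· 0 1) (h.h1 _ c (by simp only [se]; ring))))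
      hU (cj2 hn hU) (ν := -(n 1 0 * μ) ^ 2) (by simp only [se]; linear_combination 2 * d)
      (by simp only [se]; linear_combination 2 * d) with e | e
    · linear_combination -(n 1 0 * μ) * e - (by simpa using e : n 1 0 * μ = 0)
    · linear_combination -(n 1 0 * μ) * e.2
  have key : ∀ x y z s : k, (3 : k) = 0 → x ^ 3 = x → y ^ 3 = y → z ^ 3 = z → s = x + y + z → s ^ 3 = s := by
    rintro x y z _ h a b c rfl
    linear_combination a + b + c + (x + y) * (y + z) * (z + x) * h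
  have a3 : ∀ {n}, (1, n) ∈ X → n 0 1 = 0 := fun {n} hn => (a1 hn).elim id fun e => by
    have b := key _ _ _ (n 0 1 * μ) e.1 (a2 hn) (a2 (cj1 hn hL)) (a2 (cj1 hn (iv hL))) (by
      simp only [se]; linear_combination (n 0 1 - n 1 0) * μ * e.1)
    have : (n 0 1 * μ) * (μ ^ 2 - 1) = 0 := by linear_combination b - n 0 1 * μ ^ 3 * e.2
    rcases mul_eq_zero.1 this with c | c
    · exact (mul_eq_zero.1 c).resolve_right μ0
    · exact (h3 ⟨e.1, by linear_combination c⟩).elim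
  have b1 := a3 hn
  have b2 := a3 (cj1 hn hU)
  have b3 := a3 (cj1 hn (iv hU))
  simp only [se] at b2 b3
  have c : n 1 0 = 0 := mul_left_cancel₀ (mul_ne_zero h2 (pow_ne_zero 2 μ0)) (by linear_combination 2 * b1 - b2 - b3)
  exact ⟨b1, c, mul_left_cancel₀ μ0 (by linear_combination b1 - b2 - μ ^ 2 * c)⟩

theorem Pr.pr (h : Pr X) (p : ℕ) [hp : Fact p.Prime] [CharP k p] (h2 : (2 : k) ≠ 0) {l μ : k} (hL : (L 1, L 1) ∈ X)
    (hU : (U l, U μ) ∈ X) (l0 : l ≠ 0) (μ0 : μ ≠ 0) (h3 : ¬ ((3 : k) = 0 ∧ μ ^ 2 = 1)) {y : SL(2, k)}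
    (hy : (U 1, y) ∈ X) : (U 1, U 1) ∈ X := by
  have d := det2 y
  have a := h.nb h2 hL hU l0 μ0 h3 (em (mu (mu (mu hy hU) (iv hy)) (iv hU)) (by
    apply sext <;> simp only [se] <;> ring))
  have b := h.nb h2 hL hU l0 μ0 h3 (em (mu (mu (mu hL (iv hy)) hL) (iv (mu (mu (iv hy) hL) (iv hy)))) (by
    apply sext <;> simp only [se] <;> ring))
  simp only [se] at a b
  obtain ⟨a1, a2, a3⟩ := a
  obtain ⟨b1, b2, b3⟩ := b
  have c1 : y 1 0 = 0 := pow_eq_zero_iff two_ne_zero |>.1 (mul_left_cancel₀ μ0 (by linear_combination -a2))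
  simp only [c1] at d a1 b1 b2 b3
  have c2 : y 0 0 ^ 2 = 1 := mul_left_cancel₀ μ0 (by linear_combination a1 + μ * d)
  have c3 : y 1 1 = y 0 0 := by linear_combination y 0 0 * d - y 1 1 * c2
  have c4 : y 0 1 = y 0 0 := by rw [c3] at b1 b2 b3; grind
  obtain ⟨m, hm⟩ : ∃ m, p + 1 = 2 * m := by
    rcases hp.out.eq_two_or_odd' with e | ⟨m, e⟩
    · subst e; exact (h2 (by exact_mod_cast CharP.cast_eq_zero k 2)).elim
    · exact ⟨m + 1, by omega⟩
  have e : y * y = U 2 := by apply sext <;> simp only [se, c1, c3, c4] <;> grind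
  have e' : U (1 : k) * U 1 = U 2 := by apply sext <;> simp only [se] <;> ring
  have := pm (mu hy hy) m
  rwa [e, e', U_pow, show (m : k) * 2 = 1 by
    have := congrArg (Nat.cast : ℕ → k) hm
    push_cast at this; rw [CharP.cast_eq_zero] at this; linear_combination -this] at this

/-- the pair lemma -/
theorem Pr.main (h : Pr X) (p : ℕ) [hp : Fact p.Prime] [CharP k p] (h2 : (2 : k) ≠ 0) {l μ : k} (hL : (L 1, L 1) ∈ X)
    (hU : (U l, U μ) ∈ X) (l0 : l ≠ 0) (μ0 : μ ≠ 0) (h3 : ¬ ((3 : k) = 0 ∧ l ^ 2 = -1 ∧ μ ^ 2 = -1)) :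
    (U 1, U 1) ∈ X := by
  have key : ∀ {X : Subgroup (SL(2, k) × SL(2, k))} {l μ : k}, Pr X → (L 1, L 1) ∈ X → (U l, U μ) ∈ X → l ≠ 0 → μ ≠ 0 →
      ¬ ((3 : k) = 0 ∧ l ^ 2 = -1) → ¬ ((3 : k) = 0 ∧ μ ^ 2 = 1) → (U 1, U 1) ∈ X :=
    fun {X l μ} h hL hU l0 μ0 a b => by
      obtain ⟨⟨x, y⟩, hy, e⟩ := dick p h2 (X.map (MonoidHom.fst _ _)) l0 a ⟨_, hL, rfl⟩ ⟨_, hU, rfl⟩
        (h.fin _ (mu hL hU)).fst
      exact h.pr p h2 hL hU l0 μ0 b (em hy e)
  have n : ∀ {l : k}, l ^ 2 = 1 → l ^ 2 ≠ -1 := fun a b => h2 (by linear_combination b - a)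
  by_cases a : (3 : k) = 0 ∧ μ ^ 2 = 1
  · by_cases b : l ^ 2 = 1
    · have i : (U (-l), U (-μ)) ∈ X := by
        rw [show U (-l) = (U l)⁻¹ by apply sext <;> simp only [se, neg_zero],
          show U (-μ) = (U μ)⁻¹ by apply sext <;> simp only [se, neg_zero]]
        exact iv hU
      have mx : (U (1 : k), U (-1 : k)) ∉ X := fun c => by
        have c2 := mu (mu hL c) (mu hL c)
        have := h.h2 _ (em (mu c2 c2) (by apply sext <;> simp only [se] <;> grind)) (by simp only [se]; grind)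
        have := congrArg (· 0 1) this
        simp only [se] at this
        exact one_ne_zero (by linear_combination this : (1 : k) = 0)
      rcases sq_eq_one_iff.1 b with rfl | rfl <;> rcases sq_eq_one_iff.1 a.2 with rfl | rfl
      · exact hU
      · exact (mx hU).elim
      · exact (mx (by simpa using i)).elim
      · simpa using i
    · have := key (l := μ) (μ := l) h.swap hL hU μ0 l0 (fun c => n a.2 c.2) fun c => b c.2
      exact this
  · by_cases b : (3 : k) = 0 ∧ l ^ 2 = -1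
    · have := key (l := μ) (μ := l) h.swap hL hU μ0 l0 (fun c => h3 ⟨c.1, b.2, c.2⟩) fun c => n c.2 b.2
      exact this
    · exact key h hL hU l0 μ0 b a

end H27.D4
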