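import Cfsg.Agent.H27.O7a
import Mathlib.Data.Nat.Choose.Lucas

/-! S5815: the irreducible 7-dimensional modules of `SL₂(F)` in defining characteristic; the piece `L2G`. -/

set_option autoImplicit false
set_option linter.unusedSectionVars false

open Module QuadraticMap H12 Cfsg MatrixGroups H26.O7 Finset
namespace H27.O7
universe u v
local notation "up" => H26.O7.up

section
variable (p : ℕ) [hp : Fact p.Prime]
/-- the number of binomial coefficients prime to `p` -/
def rho (n : ℕ) : ℕ := #{k ∈ range (n + 1) | ¬ p ∣ n.choose k}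

theorem nd_choose (n k : ℕ) : ¬ p ∣ n.choose k ↔ k % p ≤ n % p ∧ ¬ p ∣ (n / p).choose (k / p) := by
  rw [(Choose.choose_modEq_choose_mod_mul_choose_div_nat (n := n) (k := k) (p := p)).dvd_iff dvd_rfl, hp.out.dvd_mul,
    not_or, and_congr_left_iff]
  refine fun _ => ⟨fun h => not_lt.1 fun l => h (by rw [Nat.choose_eq_zero_of_lt l]; exact dvd_zero _), fun h e => ?_⟩
  exact absurd (hp.out.dvd_factorial.1 (e.trans ⟨_, (Nat.choose_mul_factorial_mul_factorial h).symm.trans (mul_assoc _ _ _)⟩))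
    (not_le.2 (Nat.mod_lt _ hp.out.pos))

theorem rho_eq (n : ℕ) : rho p n = (n % p + 1) * rho p (n / p) := by
  have le : ∀ {n k : ℕ}, ¬ p ∣ n.choose k → k < n + 1 := fun h => Nat.lt_succ_of_le (not_lt.1 fun l => h (by
    rw [Nat.choose_eq_zero_of_lt l]; exact dvd_zero _))
  have p0 := hp.out.pos
  rw [rho, rho, ← card_range (n % p + 1), ← card_product]
  refine card_bij' (fun k _ => (k % p, k / p)) (fun x _ => x.1 + p * x.2) (fun k hk => ?_) (fun x hx => ?_)
    (fun k _ => Nat.mod_add_div k p) fun x hx => ?_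
  · have := (nd_choose p n k).1 (mem_filter.1 hk).2
    exact mem_product.2 ⟨mem_range.2 (Nat.lt_succ_of_le this.1), mem_filter.2 ⟨mem_range.2 (le this.2), this.2⟩⟩
  all_goals
    have a := mem_range.1 (mem_product.1 hx).1
    have b := Nat.mod_lt n p0
    have c : (x.1 + p * x.2) % p = x.1 := by rw [Nat.add_mul_mod_self_left, Nat.mod_eq_of_lt (by omega)]
    have d : (x.1 + p * x.2) / p = x.2 := by rw [Nat.add_mul_div_left _ _ p0, Nat.div_eq_of_lt (by omega), zero_add]
  · have : ¬ p ∣ n.choose (x.1 + p * x.2) := (nd_choose p n _).2 (by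
      rw [c, d]; exact ⟨by omega, (mem_filter.1 (mem_product.1 hx).2).2⟩)
    exact mem_filter.2 ⟨mem_range.2 (le this), this⟩
  · exact Prod.ext c d

theorem rho_one {n : ℕ} (h : rho p n = 1) : n = 0 := by
  have := card_le_one.1 h.le 0 (by simp [hp.out.ne_one]) n (by simp [hp.out.ne_one])
  exact this.symm

theorem rho_seven (n : ℕ) (h : rho p n = 7) : 7 ≤ p ∧ ∃ i, n = 6 * p ^ i := by
  induction n using Nat.strong_induction_on with
  | _ n ih =>
    have n0 : n ≠ 0 := by rintro rfl; simp [rho, filter_singleton, hp.out.ne_one] at h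
    rw [rho_eq] at h
    have e := Nat.mod_add_div n p
    rcases (by decide : Nat.Prime 7).eq_one_or_self_of_dvd _ ⟨_, h.symm⟩ with k | k <;> rw [k] at h
    · obtain ⟨a, i, b⟩ := ih _ (Nat.div_lt_self (by omega) hp.out.one_lt) (by omega)
      exact ⟨a, i + 1, by rw [← e, b, show n % p = 0 by omega]; ring⟩
    · have := Nat.mod_lt n hp.out.pos
      rw [rho_one p (show rho p (n / p) = 1 by omega)] at e
      exact ⟨by omega, 0, by rw [pow_zero]; omega⟩
end

theorem sum_pow {F K : Type*} [Field F] [Fintype F] [Field K] (ι : F →+* K) {i : ℕ} (h : i ≠ 0) :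
    ∑ x : F, ι x ^ i = if Fintype.card F - 1 ∣ i then -1 else 0 := by
  classical
  have := congrArg ι (FiniteField.sum_pow_units F i)
  rw [apply_ite ι, map_neg, map_one, map_zero, map_sum] at this
  rw [← this, ← add_sum_erase _ _ (mem_univ 0), map_zero, zero_pow h, zero_add]
  exact sum_bij' (fun x hx => .mk0 x (ne_of_mem_erase hx)) (fun x _ => x) (by simp) (by simp) (by simp) (by simp) (by simp)

theorem pl_sum {K ι : Type*} [Field K] {M : Type*} [AddCommGroup M] [Module K M] (q : QuadraticForm K M) (A : Finset ι)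
    (c : ι → K) (w : ι → M) (y : M) : polar q (∑ s ∈ A, c s • w s) y = ∑ s ∈ A, c s * polar q (w s) y :=
  (map_sum ((polarBilin q).flip y) _ _).trans (sum_congr rfl fun _ _ => polar_smul_left q _ _ _)

theorem poly_z {K F A : Type*} [Field K] [Fintype F] [Fintype A] (e : F → K) (he : Function.Injective e) (d : A → ℕ)
    (hd : Function.Injective d) (hl : ∀ j, d j < Fintype.card F) (c : A → K) (h : ∀ t, ∑ j, c j * e t ^ d j = 0) (j : A) :
    c j = 0 := by
  classical
  have : ∑ j, Polynomial.monomial (d j) (c j) = 0 := Polynomial.eq_zero_of_natDegree_lt_card_of_eval_eq_zero _ he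
    (fun t => by simpa only [Polynomial.eval_finset_sum, Polynomial.eval_monomial] using h t)
    ((Polynomial.natDegree_sum_le_of_forall_le _ _ (n := Fintype.card F - 1) fun j _ =>
      (Polynomial.natDegree_monomial_le _).trans (by have := hl j; omega)).trans_lt (by have := hl j; omega))
  have := congrArg (·.coeff (d j)) this
  simp only [Polynomial.finset_sum_coeff, Polynomial.coeff_monomial, Polynomial.coeff_zero] at this
  rwa [sum_eq_single j (fun l _ e => if_neg fun k => e (hd k)) (by simp), if_pos rfl] at this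

set_option maxHeartbeats 800000 in
theorem l2g : L2G.{u, v} := fun K _ _ p _ _ G _ R F _ _ _ φ h9 hs h1 hI => by
  classical
  let ψ := R.ρ.comp φ
  have hψ : ∀ g, R.ρ (φ g) = ψ g := fun _ => rfl
  have ψ1 : ψ (-1) = 1 := by rw [← hψ, h1, map_one]
  have B : ∀ g x y, polar (Q K) (ψ g x) (ψ g y) = polar (Q K) x y := fun g => R.polar_ρ _
  have nn : ∀ y, ψ (wy F) (ψ (wy F) y) = y := fun y => by rw [← mul_ap, wy_wy, ψ1]; rfl
  let _ := ZMod.algebra F p
  let _ := ZMod.algebra K p
  let ι : F →+* K := (IsAlgClosed.lift : F →ₐ[ZMod p] K)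
  obtain ⟨x, x0, xu, μ, hμ, xd⟩ : ∃ x : V K, x ≠ 0 ∧ (∀ t, ψ (up t) x = x) ∧ ∃ μ < Fintype.card F - 1,
      ∀ a : Fˣ, ψ (dg a) x = ι a ^ μ • x := by
    let C : Submodule K (V K) := ⨅ t, fix (ψ (up t))
    have mC : ∀ x, x ∈ C ↔ ∀ t, ψ (up t) x = x := fun x => by simp [C, mem_fix]
    obtain ⟨g, hg⟩ := IsCyclic.exists_monoid_generator (α := Fˣ)
    have og : orderOf g = Fintype.card F - 1 := by
      rw [orderOf_eq_card_of_forall_mem_powers hg, Nat.card_eq_fintype_card, Fintype.card_units]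
    obtain ⟨y, -, y0, hy⟩ := ex_fix' ψ (p := p) (W := ⊤) (fun _ _ _ => trivial) top_ne_bot
    have : Nontrivial C := Submodule.nontrivial_iff_ne_bot.2 ((Submodule.ne_bot_iff _).2 ⟨y, (mC y).2 hy, y0⟩)
    obtain ⟨c, hc⟩ := End.exists_eigenvalue ((ψ (dg g) : V K →ₗ[K] V K).restrict (p := C) fun x hx => (mC _).2 fun t => by
      have := congrArg (ψ · x) (dg_up g (((g * g)⁻¹ : Fˣ) * t))
      simp only [mul_ap] at this
      rwa [(mC x).1 hx, ← Units.val_mul, Units.mul_inv_cancel_left, eq_comm] at this)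
    obtain ⟨x, hx⟩ := hc.exists_hasEigenvector
    have e : ∀ k, ψ (dg (g ^ k)) x = c ^ k • (x : V K) := fun k => by
      induction k with
      | zero => simp [dg_one]
      | succ k ih => rw [pow_succ, dg_mul, mul_ap, show ψ (dg g) x = c • (x : V K) from congrArg Subtype.val hx.apply_eq_smul,
          map_smul, ih, smul_smul, pow_succ']
    have x0 : (x : V K) ≠ 0 := by simpa using hx.2
    have pr : IsPrimitiveRoot (ι g) (Fintype.card F - 1) :=
      og ▸ (IsPrimitiveRoot.coe_units_iff.2 (.orderOf g)).map_of_injective ι.injective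
    have : NeZero (Fintype.card F - 1) := ⟨by omega⟩
    obtain ⟨μ, h1, h2⟩ := pr.eq_pow_of_pow_eq_one (ξ := c) (smul_left_injective K x0 (by
      simp only; rw [← e, ← og, pow_orderOf_eq_one, dg_one, map_one, one_smul]; rfl))
    refine ⟨x, x0, (mC _).1 x.2, μ, h1, fun a => ?_⟩
    obtain ⟨k, rfl⟩ := hg a
    simp only; rw [e, ← h2, Units.val_pow_eq_pow_val, map_pow, pow_right_comm]
  let w : F → V K := fun t => ψ (up t) (ψ (wy F) x)
  have orb : ∀ g, ∃ c : K, ψ g x = c • x ∨ ∃ t, ψ g x = c • w t := fun g => by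
    obtain ⟨a, t, rfl⟩ | ⟨s, a, t, rfl⟩ := bru g
    · exact ⟨_, .inl (by rw [mul_ap, xu, xd])⟩
    · exact ⟨_, .inr ⟨s, by simp only [mul_ap, xu, xd, map_smul]; rfl⟩⟩
  have top : ∀ W : Submodule K (V K), x ∈ W → (∀ t, w t ∈ W) → W = ⊤ := fun W a b => by
    refine eq_top_iff.2 (((hI (Submodule.span K (Set.range fun g => ψ g x)) fun g y hy => ?_).resolve_left fun e =>
      x0 ((Submodule.eq_bot_iff _).1 e _ (Submodule.subset_span ⟨1, by simp⟩))).ge.trans (Submodule.span_le.2 ?_))
    · obtain ⟨g, rfl⟩ := hs g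
      refine (Submodule.span_le (p := (Submodule.span K _).comap (ψ g : V K →ₗ[K] V K))).2 ?_ hy
      rintro _ ⟨h, rfl⟩
      exact Submodule.subset_span ⟨g * h, mul_ap _ _ _ _⟩
    · rintro _ ⟨g, rfl⟩
      obtain ⟨c, e | ⟨t, e⟩⟩ := orb g <;> simp only [e]
      exacts [W.smul_mem c a, W.smul_mem c (b t)]
  have nd : ∀ y, polar (Q K) y x = 0 → (∀ t, polar (Q K) y (w t) = 0) → y = 0 := fun y a b =>
    Q_nd R.two y fun z => (top (LinearMap.ker (polarBilin (Q K) y)) a b).ge trivial
  set κ := polar (Q K) x (ψ (wy F) x) with hκ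
  have xw : ∀ t, polar (Q K) x (w t) = κ := fun t => by rw [← xu t, B]
  have ww : ∀ s t, polar (Q K) (w s) (w t) = polar (Q K) (w (s - t)) (w 0) := fun s t => by
    rw [← B (up t) (w (s - t))]; simp only [w, ← mul_ap, ← mul_assoc, ← up_add]; simp
  have sg : (-1 : K) ^ μ = 1 := smul_left_injective K x0 (by simpa [dg_neg, ψ1] using (xd (-1)).symm)
  have f1 : ∀ c, c ≠ 0 → polar (Q K) (w c) (w 0) = κ * ι c ^ μ := fun c c0 => by
    have := congrArg (ψ · x) (wuw (.mk0 c c0))
    simp only [mul_ap, xu, xd, map_smul, Units.val_mk0, Units.val_neg, map_neg, neg_pow (ι c), sg, one_mul] at this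
    rw [← B (wy F), this, polar_smul_left, show ψ (wy F) (w 0) = x by simp [w, up_zero, nn], polar_comm, xw, smul_eq_mul,
      mul_comm]
  have f0 : polar (Q K) (w 0) (w 0) = polar (Q K) x x := by simp only [w, B]
  have f2 : polar (Q K) x x + κ * ∑ c ∈ univ.erase 0, ι c ^ μ = 0 := by
    have := congrArg (polarBilin (Q K) (w 0)) (circ ψ (p := p) (by rw [finrank_V]; omega) (ψ (wy F) x))
    rw [map_zero, map_sum, ← add_sum_erase _ _ (mem_univ 0)] at this
    rw [← this, ← f0, mul_sum]
    exact congrArg _ (sum_congr rfl fun c hc => by rw [← f1 c (ne_of_mem_erase hc), polar_comm]; rfl)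
  have μ0 : μ ≠ 0 := by
    rintro rfl
    have e : polar (Q K) x x = κ := by
      have : ((Fintype.card F - 1 : ℕ) : K) = -1 := by
        rw [Nat.cast_sub (by omega), ← map_natCast ι, FiniteField.cast_card_eq_zero]; simp
      simp only [pow_zero, sum_const, card_erase_of_mem (mem_univ _), card_univ, nsmul_eq_mul, this] at f2
      linear_combination f2
    have k : x = w 0 := sub_eq_zero.1 (nd _ (by rw [polar_sub_left, e, polar_comm, xw, sub_self]) fun t => by
      rw [polar_sub_left, xw, ww]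
      by_cases c : 0 - t = 0
      · rw [c, f0, e, sub_self]
      · rw [f1 _ c, pow_zero, mul_one, sub_self])
    refine x0 (hI.fixed fun g => ?_)
    obtain ⟨g, rfl⟩ := hs g
    exact (eq_top (H := (MulAction.stabilizer _ x).comap ψ) xu (by simpa [w, up_zero] using k.symm)).ge (Subgroup.mem_top g)
  have xx : polar (Q K) x x = 0 := by
    have := sum_pow ι μ0
    rw [if_neg fun e => absurd (Nat.le_of_dvd (by omega) e) (by omega), ← add_sum_erase _ _ (mem_univ 0), map_zero,
      zero_pow μ0, zero_add] at this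
    simpa [this] using f2
  have κ0 : κ ≠ 0 := fun e => x0 (nd x xx fun t => (xw t).trans e)
  have f3 : ∀ s t, polar (Q K) (w s) (w t) = κ * (ι s - ι t) ^ μ := fun s t => by
    rw [ww, ← map_sub]
    by_cases c : s - t = 0
    · rw [c, f0, xx, map_zero, zero_pow μ0, mul_zero]
    · exact f1 _ c
  let v : ℕ → V K := fun j => ∑ s, ι s ^ (Fintype.card F - 1 - j) • w s
  have v1 : ∀ j ≤ μ, ∀ t, polar (Q K) (v j) (w t) = -κ * (μ.choose j * (-ι t) ^ (μ - j)) := fun j hj t => by
    have : ∀ s, ι s ^ (Fintype.card F - 1 - j) * polar (Q K) (w s) (w t) = ∑ m ∈ range (μ + 1),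
        κ * ((-ι t) ^ (μ - m) * μ.choose m) * ι s ^ (Fintype.card F - 1 - j + m) := fun s => by
      rw [f3, sub_eq_add_neg, add_pow, mul_sum, mul_sum]
      exact sum_congr rfl fun m _ => by ring
    rw [pl_sum, sum_congr rfl fun s _ => this s,
      sum_comm, sum_eq_single j (fun m hm e => ?_) (by simp; omega), ← mul_sum, sum_pow ι (by omega), if_pos ⟨1, by omega⟩]
    · ring
    have := mem_range.1 hm
    rw [← mul_sum, sum_pow ι (by omega), if_neg, mul_zero]
    rintro ⟨_ | _ | c, hc⟩
    · omega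
    · omega
    · rw [mul_add, mul_add] at hc; omega
  have v2 : ∀ j ≤ μ, polar (Q K) (v j) x = if j = 0 then -κ else 0 := fun j hj => by
    rw [pl_sum, sum_congr rfl fun s _ => show _ * polar (Q K) (w s) x = κ * ι s ^ (Fintype.card F - 1 - j) by
        rw [polar_comm, xw, mul_comm], ← mul_sum, sum_pow ι (by omega)]
    by_cases e : j = 0
    · simp [e]
    · rw [if_neg e, if_neg fun e => absurd (Nat.le_of_dvd (by omega) e) (by omega), mul_zero]
  have v3 : v μ = -x := eq_neg_of_add_eq_zero_left (nd _ (by rw [polar_add_left, v2 _ le_rfl, if_neg μ0, xx, add_zero])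
    fun t => by rw [polar_add_left, v1 _ le_rfl, xw]; simp)
  have nd' : ∀ y, (∀ t, polar (Q K) y (w t) = 0) → y = 0 := fun y h => nd y (by
    rw [← neg_neg x, ← v3, polar_neg_right, polar_comm, pl_sum,
      sum_eq_zero fun s _ => by rw [polar_comm, h, mul_zero], neg_zero]) h
  have v4 : ∀ s, w s = -∑ j ∈ range (μ + 1), ι s ^ j • v j := fun s => eq_neg_of_add_eq_zero_left (nd' _ fun t => by
    rw [polar_add_left, f3, pl_sum, sub_eq_add_neg, add_pow, mul_sum, ← sum_add_distrib]
    refine sum_eq_zero fun j hj => ?_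
    rw [v1 j (Nat.lt_succ_iff.1 (mem_range.1 hj))]; ring)
  obtain ⟨p7, i, rfl⟩ : 7 ≤ p ∧ ∃ i, μ = 6 * p ^ i := by
    let A := {k ∈ range (μ + 1) | ¬ p ∣ μ.choose k}
    have mA : ∀ j : A, j.1 ≤ μ ∧ (μ.choose j : K) ≠ 0 := fun j => ⟨Nat.lt_succ_iff.1 (mem_range.1 (mem_filter.1 j.2).1),
      mt (CharP.cast_eq_zero_iff K p _).1 (mem_filter.1 j.2).2⟩
    have li : LinearIndependent K fun j : A => v j := Fintype.linearIndependent_iff.2 fun c hc j => by
      refine (mul_eq_zero.1 (poly_z (fun t : F => -ι t) (neg_injective.comp ι.injective) (fun j : A => μ - j)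
        (fun j l k => Subtype.ext (by have := mA j; have := mA l; simp only at k; omega)) (fun j => by omega)
        (fun j => c j * μ.choose j) (fun t => ?_) j)).resolve_right (mA j).2
      have := pl_sum (Q K) univ c (fun j : A => v j) (w t)
      rw [hc, polar_zero_left, sum_congr rfl fun (j : A) _ => show _ = -κ * (c j * μ.choose j * (-ι t) ^ (μ - j)) by
        rw [v1 _ (mA j).1]; ring, ← mul_sum] at this
      exact (mul_eq_zero.1 this.symm).resolve_left (neg_ne_zero.2 κ0)
    have sp : ∀ j ≤ μ, v j ∈ Submodule.span K (Set.range fun j : A => v j) := fun j hj => by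
      by_cases e : p ∣ μ.choose j
      · rw [nd' (v j) fun t => by rw [v1 j hj, (CharP.cast_eq_zero_iff K p _).2 e]; simp]; exact zero_mem _
      · exact Submodule.subset_span ⟨⟨j, mem_filter.2 ⟨mem_range.2 (by omega), e⟩⟩, rfl⟩
    have := finrank_span_eq_card li
    rw [top (Submodule.span K (Set.range fun j : A => v j)) (by rw [← neg_neg x, ← v3]; exact neg_mem (sp _ le_rfl))
      fun s => v4 s ▸ neg_mem (sum_mem fun j hj =>
      Submodule.smul_mem _ _ (sp j (Nat.lt_succ_iff.1 (mem_range.1 hj)))), finrank_top, finrank_V, Fintype.card_coe] at this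
    exact rho_seven p μ this.symm
  have fr : ∀ m : ℕ, (m : K) ^ p ^ i = m := fun m => map_natCast (iterateFrobenius K p i) m
  refine ⟨p7, x, x0, (mul_eq_zero.1 ((polar_self' _ x).symm.trans xx)).resolve_left R.two, κ0, xu, fun y hy => ?_,
    fun a m e => by rw [hψ, xd, e, map_natCast, mul_comm, pow_mul, fr]⟩
  let W : Submodule K (V K) := ((Polynomial.degreeLT K 7).map (LinearMap.pi fun t => Polynomial.leval (ι t ^ p ^ i))).comap
    (LinearMap.pi fun t => (polarBilin (Q K)).flip (w t))
  obtain ⟨g, g1, g2⟩ : y ∈ W := (top W ⟨.C κ, Polynomial.mem_degreeLT.2 (Polynomial.degree_C_lt.trans (by decide)),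
    funext fun t => by simpa using (xw t).symm⟩ fun s => ⟨.C κ * (.C (ι s ^ p ^ i) - .X) ^ 6, Polynomial.mem_degreeLT.2
      (lt_of_le_of_lt (by compute_degree) (by decide : (6 : WithBot ℕ) < (7 : ℕ))), funext fun t => by
        simpa [mul_comm 6, pow_mul, sub_pow_char_pow] using (f3 s t).symm⟩).ge trivial
  replace g2 : ∀ t, g.eval (ι t ^ p ^ i) = polar (Q K) y (w t) := congrFun g2
  have g3 : ∀ m : ℕ, g.eval (m : K) = g.eval 0 := fun m => by
    induction m with
    | zero => simp
    | succ m ih =>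
      rw [← ih, ← fr, ← fr m, ← map_natCast ι, ← map_natCast ι, g2, g2, ← B (up 1) y (w m), ← hψ, hy]
      simp only [w, ← mul_ap, ← mul_assoc, ← up_add, hψ]; rw [Nat.cast_succ, add_comm]
  have g4 : g - .C (g.eval 0) = 0 := Polynomial.eq_zero_of_degree_lt_of_eval_index_eq_zero (range 7) (v := fun m : ℕ => (m : K))
    ((CharP.natCast_injOn_Iio K p).mono fun m hm => (mem_range.1 hm).trans_le p7) ((Polynomial.degree_sub_le _ _).trans_lt
      (max_lt (Polynomial.mem_degreeLT.1 g1) (Polynomial.degree_C_lt.trans (by decide)))) fun m _ => by simp [g3]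
  refine ⟨g.eval 0 / κ, sub_eq_zero.1 (nd' _ fun t => ?_)⟩
  rw [polar_sub_left, polar_smul_left, xw, ← g2, sub_eq_zero.1 g4]
  simp [κ0]

end H27.O7
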