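import Cfsg.Agent.H12.WR11

/-!
# Orthogonal tensor powers: geometry of the small factor
-/

set_option autoImplicit false
set_option maxHeartbeats 400000

namespace H27.OW

open Module H12 H13.KL QuadraticMap Submodule
open scoped commutatorElement

export H13.KL (cj)

variable {F : Type*} [Field F] {W : Type*} [AddCommGroup W] [Module F W]
  {M : Type*} [AddCommGroup M] [Module F M] {q : QuadraticForm F W} {w w' a y z u v : W}

variable (q) in
/-- The rank one map `x ↦ b(y, x) a`. -/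
def rk : W →ₗ[F] W →ₗ[F] End F W := (LinearMap.smulRightₗ ∘ₗ polarBilin q).flip

@[simp] theorem rk_apply (a b x : W) : rk q a b x = polar q b x • a := rfl

theorem rk_eq (a b : W) : rk q a b = (polarBilin q b).smulRight a := rfl

theorem rk_mul_rk (a b c d : W) : rk q a b * rk q c d = polar q b c • rk q a d := by
  ext x; simp [smul_smul, mul_comm]

theorem mul_rk (D : End F W) (a b : W) : D * rk q a b = rk q (D a) b := by ext x; simp

variable (q) in
/-- The skew map `a ∧ b`. -/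
def nn : W →ₗ[F] W →ₗ[F] End F W := rk q - (rk q).flip

theorem nn_eq (a b : W) : nn q a b = rk q a b - rk q b a := rfl

@[simp] theorem nn_apply (a b x : W) : nn q a b x = polar q b x • a - polar q a x • b := rfl

variable (q) in
/-- Adjoint pairs. -/
def Adj (A B : End F W) : Prop := ∀ x y, polar q (A x) y = polar q x (B y)

theorem Adj.symm {A B : End F W} (h : Adj q A B) : Adj q B A := fun x y => by
  rw [polar_comm, ← h, polar_comm]

theorem Adj.mul {A B A' B' : End F W} (h : Adj q A B) (h' : Adj q A' B') :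
    Adj q (A * A') (B' * B) := fun x y => by rw [End.mul_apply, h, h', End.mul_apply]

theorem Adj.add {A B A' B' : End F W} (h : Adj q A B) (h' : Adj q A' B') :
    Adj q (A + A') (B + B') := fun x y => by simp [h x y, h' x y]

theorem Adj.sub {A B A' B' : End F W} (h : Adj q A B) (h' : Adj q A' B') :
    Adj q (A - A') (B - B') := fun x y => by simp [h x y, h' x y]

theorem Adj.neg {A B : End F W} (h : Adj q A B) : Adj q (-A) (-B) := fun x y => by simp [h x y]

theorem Adj.smul {A B : End F W} (h : Adj q A B) (c : F) : Adj q (c • A) (c • B) := fun x y => by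
  simp [h x y]

theorem adj_one : Adj q 1 1 := fun _ _ => rfl

theorem adj_rk (a b : W) : Adj q (rk q a b) (rk q b a) := fun x y => by
  simp [polar_comm q b x, mul_comm]

theorem adj_nn (a b : W) : Adj q (nn q a b) (-nn q a b) := by
  simpa [nn_eq] using (adj_rk a b).sub (adj_rk (q := q) b a)

theorem Adj.rk_mul {D D' : End F W} (h : Adj q D D') (a b : W) :
    rk q a b * D = rk q a (D' b) := by
  ext x; simp [← h.symm b x]

theorem Adj.uniq (hq : QNondeg q) {A B B' : End F W} (h : Adj q A B) (h' : Adj q A B') : B = B' :=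
  LinearMap.ext fun y => hq.ext' fun x => (h x y).symm.trans (h' x y)

theorem adj_isom {g : W ≃ₗ[F] W} (hg : g ∈ orth q) : Adj q g (g⁻¹ : W ≃ₗ[F] W) := fun x y => by
  have := hg.1 x (g⁻¹ y)
  rwa [apply_inv_apply] at this

theorem isom_polar {g : W ≃ₗ[F] W} (hg : g ∈ orth q) (x y : W) :
    polar q (g x) (g y) = polar q x y := hg.1 x y

theorem isom_q {g : W ≃ₗ[F] W} (hg : g ∈ orth q) (x : W) : q (g x) = q x := hg.2 x

theorem mem_orth_of_polar (h2 : (2 : F) ≠ 0) {g : W ≃ₗ[F] W}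
    (h : ∀ x y, polar q (g x) (g y) = polar q x y) : g ∈ orth q :=
  mem_orth.2 fun x => mul_left_cancel₀ h2 (by rw [← polar_self', ← polar_self', h])

theorem cj_rk {g : W ≃ₗ[F] W} (hg : g ∈ orth q) (a b : W) :
    cj g (rk q a b) = rk q (g a) (g b) := by
  ext x; rw [cj_apply, rk_apply, rk_apply, map_smul]; exact congrArg (· • _) (adj_isom hg b x).symm

theorem cj_nn {g : W ≃ₗ[F] W} (hg : g ∈ orth q) (a b : W) :
    cj g (nn q a b) = nn q (g a) (g b) := by
  rw [nn_eq, nn_eq, ← cj_rk hg, ← cj_rk hg]; ext x; simp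

theorem skew_scalar (h2 : (2 : F) ≠ 0) (hq : QNondeg q) {c : F}
    (h : Adj q (c • 1) (-(c • 1))) : c • (1 : End F W) = 0 := by
  have := (adj_one.smul c).uniq hq h
  have h3 : (2 : F) • (c • (1 : End F W)) = 0 := by rw [two_smul]; nth_rw 1 [this]; simp
  exact (smul_eq_zero.1 h3).resolve_left h2

variable (q) in
/-- Hyperbolic pairs. -/
structure Hp (w w' : W) : Prop where
  l : q w = 0
  r : q w' = 0
  p : polar q w w' = 1

namespace Hp

variable (h : Hp q w w')
include h

theorem ll : polar q w w = 0 := by rw [polar_self', h.l, mul_zero]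

theorem rr : polar q w' w' = 0 := by rw [polar_self', h.r, mul_zero]

theorem p' : polar q w' w = 1 := by rw [polar_comm, h.p]

theorem symm : Hp q w' w := ⟨h.r, h.l, h.p'⟩

theorem ne : w ≠ 0 := fun e => by simpa [e] using h.p

theorem map {g : W ≃ₗ[F] W} (hg : g ∈ orth q) : Hp q (g w) (g w') :=
  ⟨by rw [isom_q hg, h.l], by rw [isom_q hg, h.r], by rw [isom_polar hg, h.p]⟩

end Hp

variable (q) in
/-- The orthogonal complement of a pair. -/
def Ys (w w' : W) : Submodule F W :=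
  LinearMap.ker (polarBilin q w) ⊓ LinearMap.ker (polarBilin q w')

theorem mem_Ys : y ∈ Ys q w w' ↔ polar q w y = 0 ∧ polar q w' y = 0 := Iff.rfl

theorem Ys_l (h : y ∈ Ys q w w') : polar q w y = 0 := h.1

theorem Ys_r (h : y ∈ Ys q w w') : polar q w' y = 0 := h.2

theorem Ys_l' (h : y ∈ Ys q w w') : polar q y w = 0 := by rw [polar_comm]; exact h.1

theorem Ys_r' (h : y ∈ Ys q w w') : polar q y w' = 0 := by rw [polar_comm]; exact h.2

theorem Ys_symm (h : y ∈ Ys q w w') : y ∈ Ys q w' w := ⟨h.2, h.1⟩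

variable (q) in
/-- The projection to the complement of a hyperbolic pair. -/
def pY (w w' : W) : End F W := 1 - rk q w w' - rk q w' w

theorem pY_apply (x : W) : pY q w w' x = x - polar q w' x • w - polar q w x • w' := rfl

theorem Hp.pY_mem (h : Hp q w w') (x : W) : pY q w w' x ∈ Ys q w w' :=
  ⟨by simp [pY_apply, h.ll, h.p], by simp [pY_apply, h.rr, h.p']⟩

theorem pY_of_mem (h : y ∈ Ys q w w') : pY q w w' y = y := by simp [pY_apply, Ys_l h, Ys_r h]

theorem polar_pY (h : y ∈ Ys q w w') (x : W) : polar q y (pY q w w' x) = polar q y x := by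
  simp [pY_apply, Ys_l' h, Ys_r' h]

theorem adj_pY : Adj q (pY q w w') (pY q w w') := by
  have := (adj_one.sub (adj_rk (q := q) w w')).sub (adj_rk w' w)
  rwa [sub_right_comm 1 (rk q w' w)] at this

theorem decomp (w w' x : W) : x = polar q w' x • w + pY q w w' x + polar q w x • w' := by
  rw [pY_apply]; abel

theorem Hp.ext (h : Hp q w w') {L : W →ₗ[F] M} (h1 : L w = 0) (h2 : L w' = 0)
    (h3 : ∀ y ∈ Ys q w w', L y = 0) : L = 0 := LinearMap.ext fun x => by
  rw [decomp (q := q) w w' x]; simp [h1, h2, h3 _ (h.pY_mem x)]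

theorem Hp.mem (h : Hp q w w') {N : Submodule F W} (h1 : w ∈ N) (h2 : w' ∈ N)
    (h3 : ∀ y ∈ Ys q w w', y ∈ N) (x : W) : x ∈ N := by
  rw [decomp (q := q) w w' x]
  exact add_mem (add_mem (smul_mem _ _ h1) (h3 _ (h.pY_mem x))) (smul_mem _ _ h2)

variable (q) in
/-- Eichler transformations. -/
noncomputable def eE (w y : W) : W ≃ₗ[F] W := (eich q w y).1

theorem eE_orth (w y : W) : eE q w y ∈ orth q := (eich q w y).2

theorem eE_apply (hw : q w = 0) (hy : polar q w y = 0) (x : W) :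
    eE q w y x = x + polar q y x • w - polar q w x • y - (q y * polar q w x) • w :=
  eich_apply hw hy x

theorem eE_coe (hw : q w = 0) (hy : polar q w y = 0) :
    (eE q w y : End F W) = 1 + nn q w y - q y • rk q w w := by
  ext x; simp [eE_apply hw hy, smul_smul]; abel

theorem eE_add (hw : q w = 0) (hy : polar q w y = 0) (hz : polar q w z = 0) :
    eE q w (y + z) = eE q w y * eE q w z := congrArg Subtype.val (eich_add hw hy hz)

theorem eE_zero (w : W) : eE q w 0 = 1 := congrArg Subtype.val (eich_zero_right w)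

theorem eE_neg (hw : q w = 0) (hy : polar q w y = 0) : eE q w (-y) = (eE q w y)⁻¹ :=
  congrArg Subtype.val (eich_neg hw hy)

theorem eE_nsmul (hw : q w = 0) (hy : polar q w y = 0) (n : ℕ) : eE q w (n • y) = eE q w y ^ n := by
  induction n with
  | zero => simp [eE_zero]
  | succ n ih => rw [succ_nsmul, eE_add hw (by simp [← Nat.cast_smul_eq_nsmul F, hy]) hy, ih, pow_succ]

variable (q) in
/-- Reflections. -/
def rE (a : W) : W ≃ₗ[F] W := (refl q a).1

theorem rE_orth (a : W) : rE q a ∈ orth q := (refl q a).2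

theorem rE_apply (a x : W) : rE q a x = x - ((q a)⁻¹ * polar q a x) • a := rfl

theorem rE_coe (a : W) : (rE q a : End F W) = 1 - (q a)⁻¹ • rk q a a := by
  ext x; simp [rE_apply, smul_smul]

theorem rE_inv (a : W) : (rE q a)⁻¹ = rE q a := congrArg Subtype.val (refl_inv a)

theorem rE_rE (a x : W) : rE q a (rE q a x) = x := reflLin_involutive q a x

theorem rE_of_orth (h : polar q a y = 0) : rE q a y = y := refl_apply_of_orth h

theorem comm_mem_om {g k : W ≃ₗ[F] W} (hg : g ∈ orth q) (hk : k ∈ orth q) :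
    g * k * g⁻¹ * k⁻¹ ∈ OmegaV q :=
  mem_OmegaV (g := ⁅(⟨g, hg⟩ : orth q), ⟨k, hk⟩⁆).2
    (Subgroup.commutator_mem_commutator (Subgroup.mem_top _) (Subgroup.mem_top _))

theorem conj_mem_om {g k : W ≃ₗ[F] W} (hg : g ∈ orth q) (hk : k ∈ OmegaV q) :
    g * k * g⁻¹ ∈ OmegaV q := by
  simpa using mul_mem (comm_mem_om hg (OmegaV_le hk)) hk

theorem nn_mul_nn (hw : q w = 0) (hy : polar q w y = 0) (hz : polar q w z = 0) :
    nn q w y * nn q w z = -polar q y z • rk q w w := by
  ext x; simp [polar_self', hw, hz, polar_comm q y w, hy, smul_smul, mul_comm]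

variable (q) in
/-- The standing hypotheses on the small factor. -/
structure GW : Prop where
  nd : QNondeg q
  two : (2 : F) ≠ 0
  dim : 3 ≤ finrank F W
  iso : ∃ w, w ≠ 0 ∧ q w = 0
  qh : 4 ≤ finrank F W ∨ ∃ a : F, a ≠ 0 ∧ a * a ≠ 1
  four : finrank F W = 4 → ∀ w w', Hp q w w' → ∀ y ∈ Ys q w w', q y = 0 → y = 0

variable [FiniteDimensional F W]

theorem mem_of_rk' (hq : QNondeg q) (Y : Submodule F (End F W)) (h : ∀ a b, rk q a b ∈ Y)
    (D : End F W) : D ∈ Y :=
  mem_of_rk Y (fun φ w => by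
    obtain ⟨z, hz⟩ := hq.exists_rep φ
    rw [← LinearMap.ext hz]; exact h w z) D

theorem exists_perp (q : QuadraticForm F W) (l : List W) (hl : l.length < finrank F W) :
    ∃ y, y ≠ 0 ∧ ∀ x ∈ l, polar q x y = 0 := by
  let L : W →ₗ[F] (Fin l.length → F) := LinearMap.pi fun i => polarBilin q l[i]
  obtain ⟨y, h1, h2⟩ := (Submodule.ne_bot_iff _).1
    (LinearMap.ker_ne_bot_of_finrank_lt (f := L) (by simpa using hl))
  refine ⟨y, h2, fun x hx => ?_⟩
  obtain ⟨i, hi, rfl⟩ := List.getElem_of_mem hx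
  exact congrFun h1 ⟨i, hi⟩

theorem aniso_of_pair {Z : Submodule F W} (hy : y ∈ Z) (hz : z ∈ Z) (h : polar q y z ≠ 0) :
    ∃ a ∈ Z, q a ≠ 0 := by
  by_contra! hc
  exact h (by simpa [Q_add, hc y hy, hc z hz] using hc _ (add_mem hy hz))

namespace GW

variable (g : GW q)
include g

theorem nt : Nontrivial W := (finrank_pos_iff (R := F)).1 (by have := g.dim; omega)

omit [FiniteDimensional F W] in
theorem notExc : NotExc F W := Or.inl ⟨-1, by simp, fun e => g.two (by linear_combination -e)⟩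

theorem eE_mem (hw : q w = 0) (hy : polar q w y = 0) : eE q w y ∈ OmegaV q :=
  eich_mem_OmegaV g.nd g.notExc hw hy

theorem exists_hp (h0 : w ≠ 0) (hw : q w = 0) : ∃ w', Hp q w w' :=
  let ⟨w', h⟩ := H11.exists_hypPair g.nd h0 hw; ⟨w', h.1, h.2, h.3⟩

theorem ex_hp : ∃ w w', Hp q w w' :=
  let ⟨w, h0, hw⟩ := g.iso; ⟨w, g.exists_hp h0 hw⟩

omit [FiniteDimensional F W] in
theorem exists_one (h0 : y ≠ 0) : ∃ z, polar q y z = 1 := g.nd.exists_eq h0 1

omit [FiniteDimensional F W] in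
theorem rk_ne (ha : a ≠ 0) (hy : y ≠ 0) : rk q a y ≠ 0 := fun e => by
  obtain ⟨z, hz⟩ := g.exists_one hy
  exact ha (by simpa [hz] using LinearMap.congr_fun e z)

omit [FiniteDimensional F W] in
theorem Ys_one (h : Hp q w w') (hy : y ∈ Ys q w w') (h0 : y ≠ 0) :
    ∃ z ∈ Ys q w w', polar q y z = 1 :=
  let ⟨z, hz⟩ := g.exists_one h0; ⟨_, h.pY_mem z, by rw [polar_pY hy, hz]⟩

omit [FiniteDimensional F W] in
theorem Ys_le (h : Hp q w w') {N : Submodule F W} (hN : ∀ a ∈ Ys q w w', q a ≠ 0 → a ∈ N)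
    (hy : y ∈ Ys q w w') : y ∈ N := by
  by_cases h1 : q y = 0
  swap; · exact hN y hy h1
  by_cases h0 : y = 0
  · simp [h0]
  obtain ⟨z, h2, h3⟩ := g.Ys_one h hy h0
  have h4 : q (z + (1 - q z) • y) = 1 := by
    simp [Q_add, Q_smul, h1, polar_comm q z y, h3]
  have h5 := add_mem h2 (smul_mem _ (1 - q z) hy)
  simpa using sub_mem (hN _ (add_mem hy h5) (by
    rw [Q_add, h4, h1]; simp [h3, polar_self', h1, one_add_one_eq_two, g.two])) (hN _ h5 (by simp [h4]))

omit [FiniteDimensional F W] in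
theorem Ys_zero (h : Hp q w w') {L : W →ₗ[F] M} (hL : ∀ a ∈ Ys q w w', q a ≠ 0 → L a = 0)
    (hy : y ∈ Ys q w w') : L y = 0 := g.Ys_le h (N := LinearMap.ker L) hL hy

theorem ex_aniso (h : Hp q w w') : ∃ a ∈ Ys q w w', q a ≠ 0 := by
  obtain ⟨y, h0, h1⟩ := exists_perp q [w, w'] (by have := g.dim; simp; omega)
  have hy : y ∈ Ys q w w' := ⟨h1 w (by simp), h1 w' (by simp)⟩
  obtain ⟨z, h2, h3⟩ := g.Ys_one h hy h0
  exact aniso_of_pair hy h2 (by simp [h3])

theorem ex_perp (h : Hp q w w') (hd : 4 ≤ finrank F W) (ha : a ∈ Ys q w w') (ha' : q a ≠ 0) :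
    ∃ z ∈ Ys q w w', q z ≠ 0 ∧ polar q a z = 0 := by
  obtain ⟨y, h0, h1⟩ := exists_perp q [w, w', a] (by simp; omega)
  have hy : y ∈ Ys q w w' := ⟨h1 w (by simp), h1 w' (by simp)⟩
  obtain ⟨z, h2, h3⟩ := g.Ys_one h hy h0
  have h4 := h1 a (by simp)
  have := g.two
  obtain ⟨b, h5, h6⟩ := aniso_of_pair (q := q) (Z := Ys q w w' ⊓ LinearMap.ker (polarBilin q a)) ⟨hy, h4⟩
    (z := z - ((2 * q a)⁻¹ * polar q a z) • a) ⟨sub_mem h2 (smul_mem _ _ ha), by
      simp [polar_self']; field_simp; ring⟩ (by simp [h3, polar_comm q y a, h4])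
  exact ⟨b, h5.1, h6, h5.2⟩

theorem ex_perp₂ (h : Hp q w w') (hd : 5 ≤ finrank F W) (ha : a ∈ Ys q w w') (ha' : q a ≠ 0)
    (hu : u ∈ Ys q w w') (hu' : q u ≠ 0) (e : polar q a u = 0) :
    ∃ z ∈ Ys q w w', q z ≠ 0 ∧ polar q a z = 0 ∧ polar q u z = 0 := by
  obtain ⟨y, h0, h1⟩ := exists_perp q [w, w', a, u] (by simp; omega)
  have hy : y ∈ Ys q w w' := ⟨h1 w (by simp), h1 w' (by simp)⟩
  obtain ⟨z, h2, h3⟩ := g.Ys_one h hy h0
  have h4 := h1 a (by simp)
  have h4' := h1 u (by simp)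
  have := g.two
  obtain ⟨b, h5, h6⟩ := aniso_of_pair (q := q) (Z := Ys q w w' ⊓ (LinearMap.ker (polarBilin q a) ⊓
      LinearMap.ker (polarBilin q u))) ⟨hy, h4, h4'⟩
    (z := z - ((2 * q a)⁻¹ * polar q a z) • a - ((2 * q u)⁻¹ * polar q u z) • u)
      ⟨sub_mem (sub_mem h2 (smul_mem _ _ ha)) (smul_mem _ _ hu), by
        simp [polar_self', e]; field_simp; ring, by
        simp [polar_self', polar_comm q u a, e]; field_simp; ring⟩
      (by simp [h3, polar_comm q y a, h4, polar_comm q y u, h4'])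
  exact ⟨b, h5.1, h6, h5.2⟩

end GW

end H27.OW
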