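import Cfsg.Agent.H27.OW9

/-!
# Orthogonal tensor powers: factors normalised by an Eichler transformation
-/

set_option autoImplicit false
set_option maxHeartbeats 400000

namespace H27.OW

open Module H12 H13.KL QuadraticMap Submodule Function

variable {F : Type*} [Field F] {V W : Type*} [AddCommGroup V] [Module F V] [AddCommGroup W]
  [Module F W] {Q : QuadraticForm F V} {q : QuadraticForm F W} {τ τ' : End F W →ₐ[F] End F V}
  {A B m : End F V} {a c y z w w' v v' : W} {g k x : V ≃ₗ[F] V} {β : W ≃ₗ[F] W}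
  {X : Subgroup (V ≃ₗ[F] V)} {s : F}

theorem coe_pow' (g : V ≃ₗ[F] V) (n : ℕ) : ((g ^ n : V ≃ₗ[F] V) : End F V) = (g : End F V) ^ n := by
  induction n with
  | zero => rfl
  | succ n ih => rw [pow_succ, pow_succ, coe_mul', ih]

theorem nil_of_pow' [Finite F] (h : g ^ ringChar F = 1) : ((g : End F V) - 1) ^ ringChar F = 0 :=
  nil_of_pow F (by rw [← coe_pow', h, coe_one'])

theorem cj_pow (h : ∀ D, cj g (τ D) = τ (cj β D)) (n : ℕ) (D : End F W) :
    cj (g ^ n) (τ D) = τ (cj (β ^ n) D) := by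
  induction n with
  | zero => rfl
  | succ n ih => rw [pow_succ', pow_succ', H12.cj_cj, ih, h, H12.cj_cj]

theorem eE_sym (hw : q w = 0) (hy : polar q w y = 0) :
    (eE q w y : End F W) + eE q w (-y) = (2 : F) • 1 - (2 * q y) • rk q w w := by
  rw [eE_coe hw hy, eE_coe hw (by simp [hy]), map_neg, QuadraticMap.map_neg]; module

theorem comm_P (h2 : (2 : F) ≠ 0) (hw : q w = 0) (hy : polar q w y = 0) (hy' : q y ≠ 0)
    (h : Commute (rU τ (eE q w y) : End F V) A) : Commute A (τ (rk q w w)) := by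
  have h1 := h.add_left (comm_inv h)
  rw [← map_inv, ← eE_neg hw hy, rU_coe, rU_coe, ← map_add, eE_sym hw hy, map_sub, map_smul,
    map_smul, map_one] at h1
  simpa [smul_smul, h2, hy'] using
    ((((Commute.one_left A).smul_left (2 : F)).sub_left h1).smul_left (2 * q y)⁻¹).symm

theorem split (h : ∀ D, cj g (τ D) = τ (cj β D)) {n : ℕ} (h1 : g ^ n = 1) (h2 : β ^ n = 1) :
    ∃ α : V ≃ₗ[F] V, CC τ (α : End F V) ∧ α ^ n = 1 ∧ g = α * rU τ β := by
  have a1 : CC τ ((g * (rU τ β)⁻¹ : V ≃ₗ[F] V) : End F V) := fun D => comm_of_cj (by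
    rw [H12.cj_cj, ← map_inv, cj_rU, h, cj_cj_inv])
  have a2 : Commute (g * (rU τ β)⁻¹) (rU τ β) := LinearEquiv.toLinearMap_injective (a1 β).eq
  refine ⟨_, a1, ?_, by group⟩
  have := a2.mul_pow n
  rwa [inv_mul_cancel_right, h1, ← map_pow, h2, map_one, mul_one, eq_comm] at this

/-- The rank of an endomorphism. -/
noncomputable def rnk (A : End F V) : ℕ := finrank F (LinearMap.range A)

theorem t_dual (φ : Dual F W) (D : End F W) (v x y : W) (u : V) :
    τ (φ.smulRight v) (τ D (τ (rk q x y) u)) = φ (D x) • τ (rk q v y) u := by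
  have : φ.smulRight v * D * rk q x y = φ (D x) • rk q v y := by ext; simp [smul_smul, mul_comm]
  simpa [End.mul_apply] using LinearMap.congr_fun (congrArg τ this) u

theorem low2 (h : Hp q v v') {n : End F W} (hm : CC τ m) {N : ℕ} (hN : m ^ N = 0) {x₁ x₂ : W}
    {φ₁ φ₂ : Dual F W} (h1 : φ₁ (n x₁) = 1) (h2 : φ₁ (n x₂) = 0) (h3 : φ₂ (n x₁) = 0)
    (h4 : φ₂ (n x₂) = 1) (u₁ u₂ : LinearMap.range (τ (rk q v v')))
    (e : (τ n - m) (τ (rk q x₁ v') u₁ + τ (rk q x₂ v') u₂) = 0) : u₁ = 0 ∧ u₂ = 0 := by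
  have a1 : ∀ (φ : Dual F W) D x (u : LinearMap.range (τ (rk q v v'))),
      τ (φ.smulRight v) (τ D (τ (rk q x v') u)) = φ (D x) • (u : V) := by
    rintro φ D x ⟨_, u, rfl⟩
    simp [t_dual, ← End.mul_apply (τ (rk q v v')), t_mul, h.p']
  have a2 : ∀ φ : Dual F W, φ (n x₁) • (u₁ : V) + φ (n x₂) • (u₂ : V) =
      m (φ x₁ • (u₁ : V) + φ x₂ • (u₂ : V)) := fun φ => by
    have := congrArg (τ (φ.smulRight v)) e
    rw [LinearMap.sub_apply, map_sub, ← End.mul_apply _ m, hm.r, End.mul_apply, map_zero,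
      sub_eq_zero] at this
    have a3 := a1 φ 1
    simp only [map_one, End.one_apply] at a3
    simpa [a1, a3] using this
  have b1 := a2 φ₁
  have b2 := a2 φ₂
  simp only [h1, h2, h3, h4, one_smul, zero_smul, add_zero, zero_add] at b1 b2
  have : ∀ N, (m ^ N) u₁ = 0 → (m ^ N) u₂ = 0 → u₁ = 0 ∧ u₂ = 0 := fun N => by
    induction N with
    | zero => exact fun a b => ⟨Subtype.ext a, Subtype.ext b⟩
    | succ N ih =>
      refine fun a b => ih ?_ ?_
      · rw [b1, ← End.mul_apply, ← pow_succ]; simp [a, b]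
      · rw [b2, ← End.mul_apply, ← pow_succ]; simp [a, b]
  exact this N (by simp [hN]) (by simp [hN])

variable [FiniteDimensional F W] [FiniteDimensional F V]

omit [FiniteDimensional F V] in
theorem exists_adj (hq : QNondeg q) (D : End F W) : ∃ D', Adj q D D' :=
  ⟨hq.adj D, fun x y => (hq.B_adj' _ x y).symm⟩

theorem rnk_mul_l (A B : End F V) : rnk (A * B) ≤ rnk A :=
  Submodule.finrank_mono (LinearMap.range_comp_le_range B A)

theorem rnk_mul_r (A B : End F V) : rnk (A * B) ≤ rnk B := by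
  rw [rnk, End.mul_eq_comp, LinearMap.range_comp]; exact finrank_map_le _ _

theorem rnk_add (A B : End F V) : rnk (A + B) ≤ rnk A + rnk B :=
  (Submodule.finrank_mono (LinearMap.range_add_le A B)).trans
    (finrank_add_le_finrank_add_finrank _ _)

theorem rnk_rk (h : Hp q w w') (a b : W) : rnk (τ (rk q a b)) ≤ rnk (τ (rk q w w')) := by
  rw [show τ (rk q a b) = τ (rk q a w') * (τ (rk q w w') * τ (rk q w b)) by simp [t_mul, h.p']]
  exact (rnk_mul_r _ _).trans (rnk_mul_l _ _)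

theorem rnk_le {U : Type*} [AddCommGroup U] [Module F U] {L : U →ₗ[F] V}
    (h : ∀ u, A (L u) = 0 → u = 0) : finrank F U ≤ rnk A := by
  rw [← LinearMap.finrank_range_of_inj ((injective_iff_map_eq_zero (A ∘ₗ L)).2 h)]
  exact Submodule.finrank_mono (LinearMap.range_comp_le_range _ _)

variable [Nontrivial V] [Finite F]

namespace GW

variable (G : GW q)
include G

theorem inner (hQ : QNondeg Q) (ha : AH Q q τ) (hg : g ∈ orth Q) (hp : g ^ ringChar F = 1)
    (h : ∀ D, ∃ E, cj g (τ D) = τ E) :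
    ∃ β ∈ orth q, β ^ ringChar F = 1 ∧ ∀ D, cj g (τ D) = τ (cj β D) := by
  have := G.nt
  obtain ⟨β₀, h0⟩ := exists_inner h
  obtain ⟨c, hc⟩ := scalar_of_comm (A := (β₀ ^ ringChar F : W ≃ₗ[F] W)) fun D => comm_of_cj
    (tau_inj τ ((cj_pow h0 _ D).symm.trans (by rw [hp, one_cj])))
  have : Fact (ringChar F).Prime := ⟨CharP.char_is_prime F _⟩
  obtain ⟨t, rfl⟩ := surjective_frobenius F (ringChar F) c
  have h1 : t ≠ 0 := fun e => by
    obtain ⟨x, hx⟩ := exists_ne (0 : W)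
    simpa [e, hx] using LinearMap.congr_fun hc x
  obtain ⟨β, h2⟩ : ∃ β : W ≃ₗ[F] W, ∀ x, β x = t⁻¹ • β₀ x :=
    ⟨β₀ ≪≫ₗ LinearEquiv.smulOfNeZero F W _ (inv_ne_zero h1), fun _ => rfl⟩
  have h3 : β ^ ringChar F = 1 := LinearEquiv.toLinearMap_injective (by
    rw [coe_pow', show (β : End F W) = t⁻¹ • (β₀ : End F W) from LinearMap.ext h2, smul_pow,
      ← coe_pow', hc, frobenius_def, smul_smul, ← mul_pow, inv_mul_cancel₀ h1, one_pow, one_smul,
      coe_one'])
  have h4 : ∀ D, cj g (τ D) = τ (cj β D) := fun D => by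
    rw [h0]; congr 1; ext x
    obtain ⟨x, rfl⟩ := β.surjective x
    rw [cj_apply, cj_apply, inv_apply_apply, h2, map_smul, inv_apply_apply, h2]; simp
  have h5 : ∀ D D', Adj q D D' → Adj q (cj β D) (cj β D') := fun D D' e => by
    obtain ⟨E, a1⟩ := exists_adj G.nd (cj β D)
    have a2 := (ha _ _ e).conj hg
    rw [h4, h4] at a2
    rwa [tau_inj τ (a2.uniq hQ (ha _ _ a1))]
  obtain ⟨β', a0⟩ := exists_adj G.nd (β : End F W)
  obtain ⟨μ, h6⟩ := scalar_of_comm (A := β' * (β : End F W)) fun D => LinearMap.ext fun x =>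
    G.nd.ext' fun y => by
      obtain ⟨D', a1⟩ := exists_adj G.nd D
      have := h5 _ _ a1.symm (β y) (β x)
      rw [cj_apply, cj_apply, inv_apply_apply, inv_apply_apply] at this
      exact (a0 _ _).symm.trans (this.symm.trans ((a0 _ _).trans (a1.symm _ _)))
  have h7 : ∀ x y, polar q (β x) (β y) = μ * polar q x y := fun x y =>
    (a0 x (β y)).trans (by simpa using congrArg (polar q x) (LinearMap.congr_fun h6 y))
  have h8 : ∀ n x y, polar q ((β ^ n) x) ((β ^ n) y) = μ ^ n * polar q x y := fun n x y => by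
    induction n with
    | zero => rw [pow_zero μ, one_mul]; rfl
    | succ n ih => rw [pow_succ', LinearEquiv.mul_apply, LinearEquiv.mul_apply, h7, ih]; ring
  obtain ⟨w, w', h9⟩ := G.ex_hp
  have : μ = 1 := sub_eq_zero.1 (pow_eq_zero_iff (this.out.ne_zero)|>.1 (nil_of_pow F
    (by simpa [h3, h9.p] using (h8 (ringChar F) w w').symm)))
  exact ⟨β, mem_orth_of_polar G.two (by simpa [this] using h7), h3, h4⟩

omit [Finite F] in
theorem swap (h : ∀ D, ∃ E, τ D = τ' E) (D : End F W) : ∃ E, τ' D = τ E := by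
  have := G.nt
  obtain ⟨β, hβ⟩ := exists_inner (g := 1) h
  exact ⟨cj β⁻¹ D, by rw [← one_cj (τ _), hβ, cj_cj_inv]⟩

end GW

variable (Q q X τ τ') in
/-- Two conjugate nice factors. -/
structure NP : Prop where
  gw : GW q
  nd : QNondeg Q
  le : X ≤ orth Q
  l : Nice Q q τ X
  r : Nice Q q τ' X
  c : ∃ c : V ≃ₗ[F] V, ∀ D, cj c (τ D) = τ' D

namespace NP

variable (H : NP Q q τ τ' X)
include H

omit [FiniteDimensional F W] [FiniteDimensional F V] [Nontrivial V] [Finite F] in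
theorem symm : NP Q q τ' τ X :=
  ⟨H.gw, H.nd, H.le, H.r, H.l, let ⟨c, h⟩ := H.c; ⟨c⁻¹, fun D => by rw [← h, cj_inv_cj]⟩⟩

omit [FiniteDimensional F W] [Nontrivial V] [Finite F] in
theorem rk_le (D : End F W) : rnk (τ' D) ≤ rnk (τ D) := by
  obtain ⟨c, h⟩ := H.c
  rw [← h, cj_eq]; exact (rnk_mul_l _ _).trans (rnk_mul_r _ _)

omit [Finite F] in
theorem ptE (h : Hp q w w') {p : End F W} (h1 : Adj q p p) (e : τ' p = τ (rk q w w))
    (D : End F W) : ∃ E, τ' D = τ E := by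
  have G := H.gw
  have a0 : ∀ {τ : End F W →ₐ[F] End F V} {a}, a ≠ 0 → τ (rk q w a) ≠ 0 := fun ha e =>
    G.rk_ne h.ne ha (tau_inj _ (e.trans (map_zero _).symm))
  obtain ⟨x₁, a1⟩ : ∃ x, p x ≠ 0 := by
    by_contra! hc; exact a0 h.ne (by rw [← e, LinearMap.ext (g := 0) hc, map_zero])
  have a2 : ∀ x, p x ∈ F ∙ p x₁ := fun x₂ => by_contra fun hc => by
    obtain ⟨φ, ψ, b1, b2, b3, b4⟩ := dual_pair a1 hc
    have b5 := rnk_le (A := τ' p) (L := (τ' (rk q x₁ w') ∘ₗ (LinearMap.range _).subtype).coprod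
      (τ' (rk q x₂ w') ∘ₗ (LinearMap.range (τ' (rk q w w'))).subtype)) fun u hu =>
        Prod.ext_iff.2 (low2 h cc_zero (pow_one _) b1 b2 b3 b4 u.1 u.2 (by simpa using hu))
    have b6 := (rnk_rk (τ := τ) h w w).trans (H.symm.rk_le _)
    rw [e, finrank_prod] at b5
    exact a0 (τ := τ') h.symm.ne (LinearMap.range_eq_bot.1 (finrank_eq_zero.1 (by
      unfold rnk at *; omega)))
  have a3 : polar q (p x₁) x₁ • p = rk q (p x₁) (p x₁) := LinearMap.ext fun x => by
    obtain ⟨c, hc⟩ := mem_span_singleton.1 (a2 x)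
    rw [rk_apply, polar_comm _ _ x, ← h1, LinearMap.smul_apply, ← hc, smul_smul, polar_smul_left,
      smul_eq_mul, mul_comm]
  have a4 : p * p = 0 := tau_inj τ' (by simp [e, t_mul, h.ll])
  exact H.l.pt w h.ne h.l τ' H.r.ah H.r.toGood _ a1 (mul_left_cancel₀ G.two (by
    rw [← polar_self', h1, ← End.mul_apply, a4]; simp)) _
    (fun e : polar q (p x₁) x₁ = 0 => G.rk_ne a1 a1 (by rw [← a3, e, zero_smul])) (by rw [← a3, map_smul, e]) D

theorem b1 (hd : 4 ≤ finrank F W) (h : Hp q w w') (hy : y ∈ Ys q w w') (hy' : q y ≠ 0)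
    (e : ∀ D, ∃ E, cj (rU τ (eE q w y)) (τ' D) = τ' E) :
    (∀ D, ∃ E, τ' D = τ E) ∨ CC τ' (rU τ (eE q w y) : End F V) := by
  have G := H.gw
  have two := G.two
  have a0 : rU τ (eE q w y) ^ ringChar F = 1 := by rw [← map_pow, G.eE_pow h.l (Ys_l hy), map_one]
  obtain ⟨β, a1, a2, a3⟩ := G.inner H.nd H.r.ah (H.l.ah.orth G.two (eE_orth _ _)) a0 e
  obtain ⟨α, a4, a5, a6⟩ := split a3 a0 a2
  by_cases b1 : β = 1
  · exact Or.inr (by rwa [a6, b1, map_one, mul_one])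
  by_cases b2 : α = 1
  · rw [b2, one_mul] at a6
    have c1 := congrArg (fun g : V ≃ₗ[F] V => (g : End F V) + (g⁻¹ : V ≃ₗ[F] V)) a6
    simp only [← map_inv, rU_coe, ← map_add, ← eE_neg h.l (Ys_l hy), eE_sym h.l (Ys_l hy)] at c1
    refine Or.inl (H.ptE h (p := (2 * q y)⁻¹ • ((2 : F) • 1 - (β + (β⁻¹ : W ≃ₗ[F] W))))
      (((adj_one.smul 2).sub ?_).smul _) ?_)
    · simpa [add_comm] using (adj_isom a1).add (adj_isom a1).symm
    · rw [map_smul, map_sub, ← c1, map_sub, map_smul, map_smul, map_smul, map_one, map_one,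
        sub_sub_cancel, inv_smul_smul₀ (mul_ne_zero two hy')]
  obtain ⟨x₀, x₁, x₂, φ₁, φ₂, ψ, c1, c2, c3, c4, c5, c6, c7, c8⟩ :=
    G.big hd a1 (nil_of_pow' a2) b1
  have c9 : CC τ' ((α⁻¹ : V ≃ₗ[F] V) - 1 : End F V) := a4.inv.sub cc_one
  obtain ⟨u, d1⟩ : ∃ u, ((α⁻¹ : V ≃ₗ[F] V) - 1 : End F V) (τ' (rk q w w') u) ≠ 0 := by
    by_contra! hc
    exact b2 (inv_eq_one.1 (LinearEquiv.toLinearMap_injective (sub_eq_zero.1
      (G.cancel c9 h.ne h.symm.ne (LinearMap.ext hc)))))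
  have d2 := rnk_le (A := τ' (β - 1) - ((α⁻¹ : V ≃ₗ[F] V) - 1 : End F V))
    (L := ((τ' (rk q x₁ w') ∘ₗ (LinearMap.range _).subtype).coprod
      (τ' (rk q x₂ w') ∘ₗ (LinearMap.range (τ' (rk q w w'))).subtype)).coprod
        (LinearMap.toSpanSingleton F V (τ' (rk q x₀ w') u))) fun t ht => by
    have f1 := fun D x => t_dual (τ := τ') (q := q) ψ D w x w'
    have f2 := congrArg (τ' (ψ.smulRight w)) ht
    have f3 := f1 1
    simp only [map_one, End.one_apply] at f3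
    rw [LinearMap.sub_apply, map_sub, ← End.mul_apply _ (_ - 1 : End F V), c9.r, End.mul_apply] at f2
    simp only [LinearMap.coprod_apply, LinearMap.comp_apply, LinearMap.toSpanSingleton_apply,
      map_add, map_smul, f1, f3, LinearMap.sub_apply (β : End F W), End.one_apply, c5, c6, c7, c8,
      LinearEquiv.coe_coe, zero_smul, smul_zero, add_zero, map_zero, zero_add, one_smul, zero_sub,
      neg_eq_zero, smul_eq_zero, d1, or_false] at f2
    exact Prod.ext (Prod.ext_iff.2 (low2 (n := β - 1) h c9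
      (nil_of_pow' (by rw [inv_pow, a5, inv_one])) c1 c2 c3 c4 t.1.1 t.1.2
      (by simpa [f2] using ht))) f2
  have d3 : τ' (β - 1) - ((α⁻¹ : V ≃ₗ[F] V) - 1) = (α⁻¹ : V ≃ₗ[F] V) *
      (τ (rk q w (y - q y • w)) + τ (rk q (-y) w)) := by
    have : τ (rk q w (y - q y • w)) + τ (rk q (-y) w) = (rU τ (eE q w y) : End F V) - 1 := by
      rw [rU_coe, eE_coe h.l (Ys_l hy), nn_eq]; simp; abel
    rw [this, a6, coe_mul', mul_sub, ← mul_assoc, coe_inv_mul, rU_coe]; simp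
  have d4 := (rnk_mul_r (α⁻¹ : V ≃ₗ[F] V) _).trans (rnk_add (τ (rk q w (y - q y • w))) (τ (rk q (-y) w)))
  have d5 := fun a b => (rnk_rk (τ := τ) h a b).trans (H.symm.rk_le _)
  have d6 := d5 w (y - q y • w)
  have d7 := d5 (-y) w
  rw [d3, finrank_prod, finrank_prod, finrank_self] at d2
  unfold rnk at *
  omega

theorem nrm (h : Hp q w w') (hy : y ∈ Ys q w w') (hy' : q y ≠ 0) (hv : q v = 0)
    (hz : polar q v z = 0) (e : Commute (rU τ (eE q w y)) (rU τ' (eE q v z))) (D : End F W) :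
    ∃ E, cj (rU τ' (eE q v z)) (τ D) = τ E :=
  H.l.norm H.le (H.r.om _ (H.gw.eE_mem hv hz)) h.ne h.l (comm_P H.gw.two h.l (Ys_l hy) hy'
    (congrArg LinearEquiv.toLinearMap e.eq)) D

theorem three₀ (hd : finrank F W = 3) (h : Hp q w w') (hy : y ∈ Ys q w w') (hy' : q y ≠ 0)
    (hv : q v = 0) (hz : polar q v z = 0) (e : Commute (rU τ (eE q w y)) (rU τ' (eE q v z))) :
    ∃ (c : F) (α : V ≃ₗ[F] V), CC τ (α : End F V) ∧ α ^ ringChar F = 1 ∧
      τ' (eE q v z) = α * τ (eE q w (c • y)) ∧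
      τ' (eE q v (-z)) = (α⁻¹ : V ≃ₗ[F] V) * τ (eE q w ((-c) • y)) := by
  have G := H.gw
  have a0 : rU τ' (eE q v z) ^ ringChar F = 1 := by rw [← map_pow, G.eE_pow hv hz, map_one]
  obtain ⟨β, a1, a2, a3⟩ := G.inner H.nd H.l.ah (H.r.ah.orth G.two (eE_orth _ _)) a0
    (H.nrm h hy hy' hv hz e)
  obtain ⟨α, a4, a5, a6⟩ := split a3 a0 a2
  obtain ⟨c, rfl⟩ := G.eq_eE_three hd h hy hy' a1 (nil_of_pow' a2) (tau_inj τ ((a3 _).symm.trans
    (cj_of_comm (congrArg LinearEquiv.toLinearMap e.symm.eq))))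
  refine ⟨c, α, a4, a5, congrArg LinearEquiv.toLinearMap a6, ?_⟩
  rw [neg_smul, eE_neg hv hz, eE_neg h.l (Ys_l (smul_mem _ c hy)), ← a4.inv.r, ← rU_coe, ← rU_coe,
    map_inv, map_inv, a6, mul_inv_rev, coe_mul']

theorem three (hd : finrank F W = 3) (h : Hp q w w') (hy : y ∈ Ys q w w') (hy' : q y ≠ 0)
    (h' : Hp q v v') (hz : z ∈ Ys q v v') (hz' : q z ≠ 0)
    (e : ∀ s : F, Commute (rU τ (eE q w y)) (rU τ' (eE q v (s • z)))) :
    (∀ D, ∃ E, τ' D = τ E) ∨ CC τ (rU τ' (eE q v z) : End F V) := by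
  have G := H.gw
  have two := G.two
  obtain ⟨t, t0, t1⟩ := G.qh.resolve_left (by omega)
  have key : ∀ {s c : F} {α : End F V}, CC τ α → τ' (eE q v (s • z)) = α * τ (eE q w (c • y)) →
      ∀ b a, polar q b (eE q w (c • y) a) • α = polar q b a • 1 + s • fc q τ (τ' (nn q v z)) b a -
        (s * s * q z) • fc q τ (τ' (rk q v v)) b a := fun {s c α} h1 h2 b a => by
    rw [← LinearEquiv.coe_coe, ← G.fc_ct h1, ← h2, eE_coe h'.l (Ys_l (smul_mem _ s hz))]
    simp [G.fc_one, Q_smul]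
  have key' : ∀ {s c : F} {α : End F V}, CC τ α → τ' (eE q v (s • z)) = α * τ (eE q w (c • y)) →
      α = 1 + s • fc q τ (τ' (nn q v z)) w' w - (s * s * q z) • fc q τ (τ' (rk q v v)) w' w ∧
      (c * (2 * q y)) • α = s • fc q τ (τ' (nn q v z)) w' y -
        (s * s * q z) • fc q τ (τ' (rk q v v)) w' y ∧
      (-(c * c * q y)) • α = s • fc q τ (τ' (nn q v z)) w' w' -
        (s * s * q z) • fc q τ (τ' (rk q v v)) w' w' := fun {s c α} h1 h2 =>
    ⟨by simpa [h.e_w (smul_mem _ c hy), h.p'] using key h1 h2 w' w,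
      by simpa [h.e_y (smul_mem _ c hy) hy, h.p', Ys_r hy, polar_self' q y] using key h1 h2 w' y,
      by simpa [h.e_w' (smul_mem _ c hy), h.p', h.rr, Ys_r hy, Q_smul] using key h1 h2 w' w'⟩
  obtain ⟨c, α, a1, a2, a3, a4⟩ := H.three₀ hd h hy hy' h'.l (Ys_l (smul_mem _ 1 hz)) (e 1)
  obtain ⟨d, γ, b1, -, b3, b4⟩ := H.three₀ hd h hy hy' h'.l (Ys_l (smul_mem _ t hz)) (e t)
  rw [← neg_smul] at a4 b4
  obtain ⟨c1, c2, c3⟩ := key' a1 a3
  obtain ⟨c4, c5, c6⟩ := key' a1.inv a4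
  obtain ⟨d1, d2, d3⟩ := key' b1 b3
  obtain ⟨d4, d5, d6⟩ := key' b1.inv b4
  obtain ⟨s, x, f1, f2⟩ := exists_last (k := 0) (nil_of_pow' a2) one_ne_zero
  replace f2 := LinearMap.congr_fun f2 x
  rw [pow_succ', End.mul_apply, LinearMap.sub_apply, LinearMap.zero_apply, sub_eq_zero] at f2
  generalize (((α : End F V) - 1) ^ (s + 0)) x = u at f1 f2
  have f3 : ((α⁻¹ : V ≃ₗ[F] V) : End F V) u = u := by
    nth_rw 1 [← show α u = u from f2]; exact inv_apply_apply _ _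
  generalize fc q τ (τ' (nn q v z)) = N at *
  generalize fc q τ (τ' (rk q v v)) = P at *
  have f4 : d = t * c := by
    have g1 := LinearMap.congr_fun c1 u
    have g2 := LinearMap.congr_fun c4 u
    have g3 := LinearMap.congr_fun d1 u
    have g4 := LinearMap.congr_fun d4 u
    have g5 := LinearMap.congr_fun c2 u
    have g6 := LinearMap.congr_fun c5 u
    have g7 := LinearMap.congr_fun d2 u
    have g8 := LinearMap.congr_fun d5 u
    simp only [LinearMap.sub_apply, LinearMap.add_apply, LinearMap.smul_apply, f2, f3,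
      End.one_apply] at g1 g2 g3 g4 g5 g6 g7 g8
    refine smul_left_injective F f1 (eq_of_sub_eq_zero (eq_zero_of_smul
      (mul_ne_zero two (mul_ne_zero two (mul_ne_zero two hy'))) ?_))
    linear_combination (norm := module) (2 : F) • (g7 - g8) - (2 * t) • (g5 - g6) -
      (4 * d * q y) • (g3 + g4) + (4 * d * q y * t * t) • (g1 + g2)
  by_cases c0 : c = 0
  · refine Or.inr ?_
    rwa [rU_coe, ← one_smul F z, a3, c0, zero_smul, eE_zero, coe_one', map_one, mul_one]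
  have f5 : α = α⁻¹ := LinearEquiv.toLinearMap_injective (eq_of_sub_eq_zero (eq_zero_of_smul
    (mul_ne_zero (mul_ne_zero t0 (sub_ne_zero.2 t1)) (mul_ne_zero (mul_ne_zero c0 c0) hy')) (by
      subst f4
      linear_combination (norm := module) t • (c3 - c6) - (d3 - d6) +
        (t * t * c * c * q y) • (t • (c1 - c4) - (d1 - d4)))))
  have f6 : α = 1 := by
    obtain ⟨n, hn⟩ := (CharP.char_is_prime F (ringChar F)).odd_of_ne_two fun e =>
      two (by simpa [e] using ringChar.Nat.cast_ringChar (R := F))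
    rwa [hn, pow_succ, pow_mul, pow_two, mul_eq_one_iff_eq_inv.2 f5, one_pow, one_mul] at a2
  have f7 := congrArg₂ (· + ·) a3 a4
  simp only [f6, inv_one, coe_one', one_mul, ← map_add, neg_smul, one_smul, eE_sym h'.l (Ys_l hz),
    eE_sym h.l (Ys_l (smul_mem _ c hy))] at f7
  exact Or.inl (H.ptE h (p := ((2 * q (c • y))⁻¹ * (2 * q z)) • rk q v v) ((adj_rk v v).smul _) (by
    simp only [map_sub, map_smul, map_one, sub_right_inj] at f7
    rw [map_smul, mul_smul, f7, inv_smul_smul₀ (by simp [Q_smul, *])]))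

theorem cmp (h : Hp q w w') (hy : y ∈ Ys q w w') (hy' : q y ≠ 0)
    (h' : Hp q v v') (hz : z ∈ Ys q v v') (hz' : q z ≠ 0)
    (e : ∀ s : F, Commute (rU τ (eE q w y)) (rU τ' (eE q v (s • z)))) :
    (∀ D, ∃ E, τ' D = τ E) ∨ CC τ (rU τ' (eE q v z) : End F V) := by
  by_cases hd : finrank F W = 3
  · exact H.three hd h hy hy' h' hz hz' e
  exact (H.symm.b1 (by have := H.gw.dim; omega) h' hz hz'
    (H.nrm h hy hy' h'.l (Ys_l hz) (by simpa using e 1))).imp_left H.gw.swap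

theorem fusion (h : Hp q w w') (hy : y ∈ Ys q w w') (hy' : q y ≠ 0)
    (e : ∀ D, ∃ E, cj (rU τ (eE q w y)) (τ' D) = τ' E) :
    (∀ D, ∃ E, τ' D = τ E) ∨ ∀ D E, Commute (τ' D) (τ E) := by
  have G := H.gw
  refine or_iff_not_imp_left.2 fun hn => ?_
  have a0 : ∀ {τ τ' : End F W →ₐ[F] End F V} {β γ}, CC τ' (rU τ β : End F V) →
      Commute (rU τ β) (rU τ' γ) := fun h => LinearEquiv.toLinearMap_injective (h _).eq
  obtain ⟨v, v', a1, a2⟩ : ∃ v v', Hp q v v' ∧ ∀ z ∈ Ys q v v',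
      Commute (rU τ (eE q w y)) (rU τ' (eE q v z)) := by
    by_cases hd : finrank F W = 3
    · obtain ⟨β, b1, b2, b3⟩ := G.inner H.nd H.r.ah (H.l.ah.orth G.two (eE_orth _ _))
        (by rw [← map_pow, G.eE_pow h.l (Ys_l hy), map_one]) e
      obtain ⟨v, v', b4, b5⟩ := G.fix_three hd b1 (nil_of_pow' b2)
      exact ⟨v, v', b4, fun z hz => LinearEquiv.toLinearMap_injective
        (comm_of_cj ((b3 _).trans (congrArg τ' (b5 z hz)))).eq⟩
    · exact ⟨w, w', h, fun z _ => a0 ((H.b1 (by have := G.dim; omega) h hy hy' e).resolve_left hn)⟩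
  obtain ⟨z, a3, a4⟩ := G.ex_aniso a1
  have a5 := (H.cmp h hy hy' a1 a3 a4 fun s => a2 _ (smul_mem _ s a3)).resolve_left hn
  refine fun D E => (G.genE' ((Subalgebra.centralizer F {τ' D}).comap τ) (fun u x b1 b2 b3 => ?_)
    E _ rfl)
  rintro _ rfl
  by_cases b0 : u = 0
  · simp [b0, eE_coe]
  obtain ⟨u', b4, b5⟩ := G.hp_perp b0 b1 b2 b3
  exact (((H.symm.cmp a1 a3 a4 b4 b5 b3 fun s => a0 a5).resolve_left
    fun c => hn (G.swap c)) D).eq.symm

end NP

end H27.OW
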