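import Cfsg.Agent.H27.OW10

/-!
# Orthogonal tensor powers: the averaging argument
-/

set_option autoImplicit false
set_option maxHeartbeats 400000

namespace H27.OW

open Module H12 H13.KL QuadraticMap Submodule Function

theorem sum_free {κ α M : Type*} [AddGroup κ] [Fintype κ] [AddCommMonoid M] {act : κ → α → α}
    (h0 : ∀ a, act 0 a = a) (h1 : ∀ s t a, act (s + t) a = act s (act t a)) {f : α → M}
    {N : AddSubmonoid M} (hf : ∀ a, ∑ s, f (act s a) ∈ N) (S : Finset α)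
    (hS : ∀ s, ∀ a ∈ S, act s a ∈ S) (hF : ∀ a ∈ S, ∀ s, act s a = a → s = 0) :
    ∑ a ∈ S, f a ∈ N := by
  classical
  induction S using Finset.strongInduction with
  | H S ih =>
    obtain rfl | ⟨a, ha⟩ := S.eq_empty_or_nonempty
    · simp
    have a1 : Finset.univ.image (act · a) ⊆ S := Finset.image_subset_iff.2 fun s _ => hS s a ha
    rw [← Finset.sum_sdiff a1, Finset.sum_image fun s _ t _ e => neg_add_eq_zero.1 (hF a ha _ (by
      rw [h1, ← show act s a = act t a from e, ← h1, neg_add_cancel, h0]))]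
    refine add_mem (ih _ (Finset.sdiff_ssubset a1 ⟨_, Finset.mem_image_of_mem _ (Finset.mem_univ 0)⟩)
      (fun s b hb => ?_) fun b hb => hF b (Finset.mem_sdiff.1 hb).1) (hf a)
    simp only [Finset.mem_sdiff, Finset.mem_image, Finset.mem_univ, true_and, not_exists] at hb ⊢
    exact ⟨hS s b hb.1, fun t e => hb.2 (-s + t) (by rw [h1, e, ← h1, neg_add_cancel, h0])⟩

variable {F : Type*} [Field F] {V W : Type*} [AddCommGroup V] [Module F V] [AddCommGroup W]
  [Module F W] {Q : QuadraticForm F V} {q : QuadraticForm F W} {τ τ' : End F W →ₐ[F] End F V}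
  {A B : End F V} {a b c y z w w' : W} {g k x : V ≃ₗ[F] V} {β : W ≃ₗ[F] W} {u v : V}
  {ι : Type*} [DecidableEq ι] {ρ ρ' : ι → End F W →ₐ[F] End F V} {π : (ι → W) → V}
  {X : Subgroup (V ≃ₗ[F] V)} {i j : ι} {M : Type*} [AddCommGroup M] [Module F M]
  {κ : Type*} [AddCommGroup κ] [Module F κ] [Fintype κ]

variable (q) in
/-- An anisotropic parameter space with vanishing second moments. -/
structure Av (w w' : W) (M : Type*) [AddCommGroup M] [Module F M] (L : κ →ₗ[F] W) : Prop where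
  mem : ∀ s, L s ∈ Ys q w w'
  an : ∀ s, q (L s) = 0 → s = 0
  nt : Nontrivial κ
  zero : (Fintype.card κ : F) = 0
  two : ∀ f : κ →ₗ[F] κ →ₗ[F] M, ∑ s, f s s = 0

theorem sum_odd (h2 : (2 : F) ≠ 0) {f : κ → M} (h : ∀ s, f (-s) = -f s) : ∑ s, f s = 0 :=
  eq_zero_of_smul h2 (by
    rw [two_smul]; nth_rw 1 [← Equiv.sum_comp (Equiv.neg κ)]; simp [h])

theorem Av.sum {L : κ →ₗ[F] W} (H : Av q w w' M L) (h2 : (2 : F) ≠ 0) (hw : q w = 0)
    (f : W →ₗ[F] W →ₗ[F] M) (b a : W) : ∑ s, f (eE q w (L s) b) (eE q w (L s) a) =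
      (polar q w b * polar q w a) • ∑ s, (q (L s) * q (L s)) • f w w := by
  let l : W → κ →ₗ[F] W := fun a => ((polarBilin q a).smulRight w - polar q w a • 1) ∘ₗ L
  let r : κ →ₗ[F] κ →ₗ[F] M := ((polarBilin q).compl₁₂ L L).compr₂ (LinearMap.toSpanSingleton F M
    ((2 : F)⁻¹ • (polar q w a • f b w + polar q w b • f w a)))
  have a1 := H.two (f.compl₁₂ (l b) (l a) - r)
  have a2 := sum_odd h2 (f := fun s => f b (l a s) + f (l b s) a - q (L s) •
    (polar q w a • f (l b s) w + polar q w b • f w (l a s))) fun s => by simp; module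
  have a3 : ∑ _s : κ, f b a = 0 := by
    rw [Finset.sum_const, ← Nat.cast_smul_eq_nsmul F, Finset.card_univ, H.zero, zero_smul]
  rw [← add_zero (_ • _), ← a1, ← add_zero (_ • _), ← a2, ← add_zero (_ • _), ← a3, Finset.smul_sum,
    ← Finset.sum_add_distrib, ← Finset.sum_add_distrib, ← Finset.sum_add_distrib]
  refine Finset.sum_congr rfl fun s _ => ?_
  simp only [eE_apply hw (Ys_l (H.mem s)), l, r, polar_comm q (L s), map_add, map_sub, map_smul,
    LinearMap.add_apply, LinearMap.sub_apply, LinearMap.smul_apply, LinearMap.compl₁₂_apply,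
    LinearMap.compr₂_apply, LinearMap.comp_apply, LinearMap.smulRight_apply, End.one_apply,
    polarBilin_apply_apply, LinearMap.toSpanSingleton_apply, polar_self']
  match_scalars <;> field_simp <;> ring

variable (Q q τ) in
/-- Test elements for the symmetry in one factor. -/
def sA (c : W) (u v : V) : W →ₗ[F] W →ₗ[F] End F V :=
  let L : V → W →ₗ[F] V := fun u => LinearMap.applyₗ u ∘ₗ τ.toLinearMap ∘ₗ (rk q).flip c
  (nn Q).compl₁₂ (L u) (L v) - ((nn Q).compl₁₂ (L u) (L v)).flip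

theorem sA_apply (a b : W) : sA Q q τ c u v a b =
    nn Q (τ (rk q a c) u) (τ (rk q b c) v) - nn Q (τ (rk q b c) u) (τ (rk q a c) v) := rfl

theorem cj_sA (h : AH Q q τ) (h2 : (2 : F) ≠ 0) (hβ : β ∈ orth q) (a b : W) :
    cj (rU τ β) (sA Q q τ c u v a b) = sA Q q τ c u v (β a) (β b) := by
  have : ∀ a u, rU τ β (τ (rk q a c) u) = τ (rk q (β a) c) u := fun a u => by
    rw [← LinearEquiv.coe_coe β, ← mul_rk, map_mul]; rfl
  simp only [sA_apply, cj_sub', cj_nn (h.orth h2 hβ), this]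

/-- Conjugation of operators. -/
def ac (x : V ≃ₗ[F] V) (C : End F (End F V)) : End F (End F V) :=
  (cA x).toLinearMap ∘ₗ C ∘ₗ (cA x⁻¹).toLinearMap

theorem act_apply (x : V ≃ₗ[F] V) (C : End F (End F V)) (A : End F V) :
    ac x C A = cj x (C (cj x⁻¹ A)) := rfl

theorem act_mul (x k : V ≃ₗ[F] V) (C : End F (End F V)) : ac (x * k) C = ac x (ac k C) := rfl

theorem cj_eE_skew (h2 : (2 : F) ≠ 0) (hw : q w = 0) (hy : polar q w y = 0) {D : End F W}
    (h : Adj q D (-D)) :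
    cj (eE q w y) D = D + ⁅nn q w y, D⁆ + (2 : F)⁻¹ • ⁅nn q w y, ⁅nn q w y, D⁆⁆ := by
  have a1 : ∀ x y, polar q x (D y) = -polar q y (D x) := fun x y => by
    rw [polar_comm, h]; simp
  have a2 : polar q w (D w) = 0 := eq_zero_of_smul h2 (by
    have := a1 w w; rw [smul_eq_mul]; linear_combination this)
  rw [cj_eq, ← eE_neg hw hy, eE_coe hw hy, eE_coe hw (by simp [hy])]
  ext x
  simp only [Ring.lie_def, End.mul_apply, LinearMap.add_apply,
    LinearMap.sub_apply, LinearMap.smul_apply, LinearMap.neg_apply, nn_apply, rk_apply, End.one_apply, map_add, map_sub,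
    map_smul, map_neg, polar_add_right, polar_sub_right, polar_smul_right, polar_neg_right,
    polar_neg_left, a2, hy, polar_comm q y w, polar_self', hw, a1 w y, QuadraticMap.map_neg]
  match_scalars <;> field_simp <;> ring

variable [FiniteDimensional F W] [FiniteDimensional F V]

variable (τ) in
/-- The partial trace. -/
noncomputable def ptr : End F V →ₗ[F] End F W where
  toFun A := (evalEquiv F W).symm.toLinearMap ∘ₗ ((LinearMap.smulRightₗ (R := F)).compr₂
    (LinearMap.trace F V ∘ₗ LinearMap.mulRight F A ∘ₗ τ.toLinearMap)).flip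
  map_add' A B := by rw [← LinearMap.comp_add]; congr 1; ext; simp [mul_add]
  map_smul' s A := by rw [← LinearMap.comp_smul]; congr 1; ext; simp

theorem ptr_dual (φ : Dual F W) (A : End F V) (a : W) :
    φ (ptr τ A a) = LinearMap.trace F V (τ (φ.smulRight a) * A) :=
  apply_evalEquiv_symm_apply ..

theorem ptr_polar (A : End F V) (b a : W) :
    polar q b (ptr τ A a) = LinearMap.trace F V (τ (rk q a b) * A) := ptr_dual (polarBilin q b) A a

theorem tr_rk (A : End F V) (u v : V) : LinearMap.trace F V (A * rk Q u v) = polar Q v (A u) := by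
  rw [mul_rk, rk_eq, LinearMap.trace_smulRight]; rfl

theorem ptr_cA (g : V ≃ₗ[F] V) (A : End F V) : ptr ((cA g).comp τ) A = ptr τ (cj g⁻¹ A) :=
  LinearMap.ext fun a => (Module.eval_apply_injective F) (LinearMap.ext fun φ => by
    simp only [Dual.eval_apply, ptr_dual, AlgHom.comp_apply, cA_apply, cj_eq, inv_inv, mul_assoc]
    rw [LinearMap.trace_mul_comm]; simp only [mul_assoc])

theorem ptr_inner (h : ∀ D, τ' D = τ (cj β D)) (A : End F V) : cj β (ptr τ' A) = ptr τ A :=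
  LinearMap.ext fun a => (Module.eval_apply_injective F) (LinearMap.ext fun φ => by
    have := ptr_dual (τ := τ') (φ ∘ₗ β) A (β⁻¹ a)
    rw [h, show cj β ((φ ∘ₗ (β : End F W)).smulRight (β⁻¹ a)) = φ.smulRight a by
      ext; simp [apply_inv_apply]] at this
    exact this.trans (ptr_dual ..).symm)

theorem ptr_skew (hq : QNondeg q) (h : AH Q q τ) (u v : V) :
    Adj q (ptr τ (nn Q u v)) (-ptr τ (nn Q u v)) := fun a b => by
  rw [polar_comm, LinearMap.neg_apply, polar_neg_right, ptr_polar, ptr_polar]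
  simp only [nn_eq, mul_sub, map_sub, tr_rk, ← h _ _ (adj_rk b a) u, ← h _ _ (adj_rk b a) v,
    polar_comm Q u, polar_comm Q v, neg_sub]

theorem tr_sA (h : AH Q q τ) (hA : CC τ A) (a b : W) :
    LinearMap.trace F V (A * sA Q q τ c u v a b) = 0 := by
  simp only [sA_apply, nn_eq, mul_sub, map_sub, tr_rk, h _ _ (adj_rk _ _) u, h _ _ (adj_rk _ _) v,
    ← End.mul_apply, hA.l, t_mul, polar_comm q a b, sub_self]

theorem ptr_sA_comm (hq : QNondeg q) (h : AH Q q τ) (e : ∀ D E, Commute (τ' D) (τ E)) (a b : W) :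
    ptr τ' (sA Q q τ c u v a b) = 0 :=
  LinearMap.ext fun x => hq.ext' fun y => by
    simpa using (ptr_polar _ y x).trans (tr_sA h (e _) a b)

theorem ptr_sA (hq : QNondeg q) (h : AH Q q τ) (a b : W) :
    ptr τ (sA Q q τ c u v a b) = (2 * polar Q v (τ (rk q c c) u)) • nn q a b :=
  LinearMap.ext fun x => hq.ext' fun y => (ptr_polar _ y x).trans (by
    have := (h _ _ (adj_rk c c) v u).symm.trans (polar_comm ..)
    simp only [sA_apply, nn_eq, mul_sub, map_sub, tr_rk, h _ _ (adj_rk _ _) u, h _ _ (adj_rk _ _) v,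
      ← End.mul_apply, t_mul, mul_smul_comm]
    simp [this, polar_comm q y, polar_comm q x]; ring)

theorem ptr_rk (hq : QNondeg q) (h : AH Q q τ) (a b : W) :
    ptr τ (rk Q (τ (rk q a c) u) (τ (rk q b c) v)) = polar Q v (τ (rk q c c) u) • rk q a b :=
  LinearMap.ext fun x => hq.ext' fun y => (ptr_polar _ y x).trans (by
    simp only [tr_rk, h _ _ (adj_rk _ _) v, ← End.mul_apply, t_mul, mul_smul_comm]
    simp [polar_comm q y]; ring)

variable (τ) in
/-- The projection attached to a factor. -/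
noncomputable def Cas : End F (End F V) := τ.toLinearMap ∘ₗ ptr τ

theorem Cas_apply (A : End F V) : Cas τ A = τ (ptr τ A) := rfl

theorem Cas_cA (g : V ≃ₗ[F] V) : Cas ((cA g).comp τ) = ac g (Cas τ) :=
  LinearMap.ext fun A => by rw [Cas_apply, ptr_cA]; rfl

theorem Cas_inner (h : ∀ D, τ' D = τ (cj β D)) : Cas τ' = Cas τ :=
  LinearMap.ext fun A => by rw [Cas_apply, h, ptr_inner h, Cas_apply]

theorem act_rU (β : W ≃ₗ[F] W) : ac (rU τ β) (Cas τ) = Cas τ := by
  rw [← Cas_cA]; exact Cas_inner (cj_rU β)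

namespace GW

variable (G : GW q)
include G

omit [FiniteDimensional F V] in
theorem alt_zero {f : W →ₗ[F] W →ₗ[F] M} (h1 : ∀ a b, f a b = -f b a)
    (h2 : ∀ w w', Hp q w w' → ∀ y ∈ Ys q w w', f w y = 0) : f = 0 := by
  obtain ⟨w, w', h⟩ := G.ex_hp
  have a0 : ∀ a, f a a = 0 := fun a => eq_zero_of_smul G.two (by
    rw [two_smul]; nth_rw 1 [h1]; simp)
  have a1 := h2 w w' h
  have a2 := fun y hy => h2 w' w h.symm y (Ys_symm hy)
  have a3 : ∀ z ∈ Ys q w w', ∀ y ∈ Ys q w w', f z y = polar q z y • f w' w := fun z hz y hy => by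
    have := h2 _ _ (h.symm.map (eE_orth w z)) (eE q w z y)
      ⟨(isom_polar (eE_orth w z) ..).trans (Ys_r hy), (isom_polar (eE_orth w z) ..).trans (Ys_l hy)⟩
    rw [h.e_w' hz, h.e_y hz hy] at this
    simpa [a0, a1 y hy, a2 y hy, h1 z w, a1 z hz, sub_eq_zero, eq_comm (a := f z y)] using this
  obtain ⟨z, b1, b2⟩ := G.ex_aniso h
  have a4 : f w' w = 0 := eq_zero_of_smul (mul_ne_zero G.two b2) (by
    rw [← polar_self', ← a3 z b1 z b1, a0])
  exact h.ext (h.ext (a0 w) (by rw [h1, a4, neg_zero]) a1) (h.ext a4 (a0 w') a2) fun y hy =>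
    h.ext (by rw [h1, a1 y hy, neg_zero]) (by rw [h1, a2 y hy, neg_zero]) fun z hz => by
      rw [a3 y hy z hz, a4, smul_zero]

theorem ex_one [Nontrivial V] (hQ : QNondeg Q) :
    ∃ c u v, polar Q v (τ (rk q c c) u) = 1 := by
  obtain ⟨c, h0, -⟩ := G.iso
  obtain ⟨u, hu⟩ := DFunLike.ne_iff.1 fun e : τ (rk q c c) = 0 =>
    G.rk_ne h0 h0 (tau_inj _ (e.trans (map_zero _).symm))
  obtain ⟨v, hv⟩ := hQ.exists_eq hu 1
  exact ⟨c, u, v, (polar_comm ..).trans hv⟩

theorem ptr_surj [Nontrivial V] (hQ : QNondeg Q) (h : AH Q q τ) (D : End F W) :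
    ∃ A, ptr τ A = D := by
  obtain ⟨c, u, v, e⟩ := G.ex_one (τ := τ) hQ
  exact mem_of_rk' G.nd (LinearMap.range (ptr τ))
    (fun a b => ⟨_, by rw [ptr_rk G.nd h a b, e, one_smul]⟩) D

omit [FiniteDimensional F W] [FiniteDimensional F V] in
theorem av_two [Fintype F] (ha : a ∈ Ys q w w') (hb : b ∈ Ys q w w')
    (h : ∀ s t : F, q (s • a + t • b) = 0 → s = 0 ∧ t = 0) : Av q w w' M
      ((LinearMap.toSpanSingleton F W a).coprod (LinearMap.toSpanSingleton F W b)) :=
  ⟨fun s => add_mem (smul_mem _ _ ha) (smul_mem _ _ hb), fun s e => Prod.ext_iff.2 (h _ _ e),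
    inferInstance, by simp, fun f => by
      have a0 : ∀ m : M, Fintype.card F • m = 0 := fun m => by
        rw [← Nat.cast_smul_eq_nsmul F, FiniteField.cast_card_eq_zero, zero_smul]
      have a1 : ∀ s t : F, f (s, t) (s, t) = (s * s) • f (1, 0) (1, 0) + (t * t) • f (0, 1) (0, 1) +
          (s * t) • (f (1, 0) (0, 1) + f (0, 1) (1, 0)) := fun s t => by
        rw [show (s, t) = s • ((1 : F), (0 : F)) + t • ((0 : F), (1 : F)) by simp]
        simp only [map_add, map_smul, LinearMap.add_apply, LinearMap.smul_apply]; module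
      rw [Fintype.sum_prod_type, Finset.sum_congr rfl fun s _ => Finset.sum_congr rfl fun t _ => a1 s t]
      simp only [Finset.sum_add_distrib, Finset.sum_const, Finset.card_univ, a0, zero_add]
      exact Finset.sum_eq_zero fun s _ => sum_odd G.two fun t => by rw [mul_neg, neg_smul]⟩

omit [FiniteDimensional F V] in
theorem exists_av [Fintype F] (h : Hp q w w') :
    (∃ L : F →ₗ[F] W, Av q w w' M L) ∨ ∃ L : F × F →ₗ[F] W, Av q w w' M L := by
  obtain ⟨a, a1, a2⟩ := G.ex_aniso h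
  by_cases h1 : ∃ t : F, t ≠ 0 ∧ t * t ≠ 1
  · obtain ⟨t, t0, t1⟩ := h1
    refine Or.inl ⟨LinearMap.toSpanSingleton F W a, fun s => smul_mem _ _ a1,
      fun s e => by simpa [Q_smul, a2] using e, inferInstance, by simp,
      fun f => eq_zero_of_smul (sub_ne_zero.2 t1) ?_⟩
    rw [sub_smul, one_smul, sub_eq_zero, Finset.smul_sum, eq_comm,
      ← Equiv.sum_comp (Equiv.mulLeft₀ t t0)]
    exact Finset.sum_congr rfl fun s _ => by
      change f (t • s) (t • s) = _
      rw [map_smul, map_smul, LinearMap.smul_apply, smul_smul]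
  have hd := G.qh.resolve_right h1
  push Not at h1
  obtain ⟨b, b1, b2, b3⟩ := G.ex_perp h hd a1 a2
  by_cases h2 : finrank F W = 4
  · refine Or.inr ⟨_, G.av_two a1 b1 fun s t e => ?_⟩
    have := G.four h2 _ _ h _ (add_mem (smul_mem _ _ a1) (smul_mem _ _ b1)) e
    exact ⟨by simpa [b3, polar_self', a2, G.two] using congrArg (polar q a) this,
      by simpa [polar_comm q b a, b3, polar_self', b2, G.two] using congrArg (polar q b) this⟩
  obtain ⟨c, c1, c2, c3, c4⟩ := G.ex_perp₂ h (by omega) a1 a2 b1 b2 b3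
  have key : ∀ {a b : W}, q a ≠ 0 → q a = q b → polar q a b = 0 → ∀ s t : F,
      q (s • a + t • b) = 0 → s = 0 ∧ t = 0 := fun {a b} e1 e2 e3 s t e => by
    have : s * s + t * t = 0 := mul_right_cancel₀ e1 (by
      simpa [Q_add, Q_smul, e3, ← e2, add_mul] using e)
    by_cases hs : s = 0
    · simpa [hs] using this
    by_cases ht : t = 0
    · simpa [ht] using this
    exact absurd (by rw [← this, h1 s hs, h1 t ht, one_add_one_eq_two]) G.two
  right
  rcases mul_self_eq_mul_self_iff.1 ((h1 _ a2).trans (h1 _ b2).symm) with d1 | d1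
  · exact ⟨_, G.av_two a1 b1 (key a2 d1 b3)⟩
  rcases mul_self_eq_mul_self_iff.1 ((h1 _ a2).trans (h1 _ c2).symm) with d2 | d2
  · exact ⟨_, G.av_two a1 c1 (key a2 d2 c3)⟩
  · exact ⟨_, G.av_two b1 c1 (key b2 (neg_injective (d1.symm.trans d2)) c4)⟩

end GW

variable (ρ X) in
/-- The projections attached to the conjugates of the factors. -/
def DD : Set (End F (End F V)) := {C | ∃ x ∈ X, ∃ i, C = ac x (Cas (ρ i))}

theorem act_mem {C : End F (End F V)} (hx : x ∈ X) (hC : C ∈ DD ρ X) : ac x C ∈ DD ρ X :=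
  let ⟨k, a, i, b⟩ := hC; ⟨x * k, mul_mem hx a, i, by rw [b, act_mul]⟩

theorem act_sum {T : Finset (End F (End F V))} (hT : ∀ C, C ∈ T ↔ C ∈ DD ρ X) (hx : x ∈ X)
    (A : End F V) : (∑ C ∈ T, C) (cj x A) = cj x ((∑ C ∈ T, C) A) := by
  classical
  have a0 : ∀ x C, ac (F := F) (V := V) x⁻¹ (ac x C) = C := fun x C => by
    rw [← act_mul, inv_mul_cancel]; rfl
  rw [LinearMap.sum_apply, LinearMap.sum_apply, ← cA_apply _ (Finset.sum ..), map_sum]
  exact Finset.sum_nbij' (ac x⁻¹) (ac x) (fun C h => (hT _).2 (act_mem (inv_mem hx) ((hT _).1 h)))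
    (fun C h => (hT _).2 (act_mem hx ((hT _).1 h))) (fun C _ => a0 x⁻¹ C) (fun C _ => a0 x C)
    fun C _ => by rw [cA_apply, act_apply, cj_cj_inv, inv_inv]

namespace Fr

variable (H : Fr Q q ρ π X) [Finite F] (hR : ∀ j, RE q (ρ j) X)
  {T : Finset (End F (End F V))} (hT : ∀ C, C ∈ T ↔ C ∈ DD ρ X)
include H hR

theorem np [Finite ι] (hx : x ∈ X) (i j : ι) : NP Q q (ρ j) ((cA x).comp (ρ i)) X :=
  ⟨H.gw, H.nd, H.le, H.nice hR j, (H.nice hR i).conj H.le hx,
    let ⟨c, h⟩ := H.iso j i; ⟨x * c, fun D => by rw [H12.cj_cj, h]; rfl⟩⟩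

include hT

theorem avg₀ [Finite ι] (h : Hp q w w') (hy : y ∈ Ys q w w') {L : κ →ₗ[F] W}
    (hL : Av q w w' (End F V) L) (b a : W) :
    fc q (ρ j) ((∑ C ∈ T, C - Cas (ρ j)) (sA Q q (ρ j) c u v w y)) b a = (polar q w b * polar q w a) •
      fc q (ρ j) ((∑ C ∈ T, C - Cas (ρ j)) (sA Q q (ρ j) c u v w y)) w' w' := by
  classical
  have G := H.gw
  have := H.nt
  have := hL.nt
  have a0 : ∀ s, polar q w (L s) = 0 := fun s => Ys_l (hL.mem s)
  let P : End F (End F V) → Prop := fun C => ∀ s, ac (rU (ρ j) (eE q w (L s))) C = C → s = 0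
  have a1 : ∑ C ∈ T.filter (¬ P ·), C (sA Q q (ρ j) c u v w y) =
      Cas (ρ j) (sA Q q (ρ j) c u v w y) := Finset.sum_eq_single_of_mem _
    (Finset.mem_filter.2 ⟨(hT _).2 ⟨1, one_mem _, j, rfl⟩, fun e =>
      let ⟨s, hs⟩ := exists_ne (0 : κ); hs (e s (act_rU _))⟩) fun C hC hn => by
      obtain ⟨⟨x, b1, i, rfl⟩, b2⟩ := (Finset.mem_filter.1 hC).imp_left (hT _).1
      simp only [P, not_forall] at b2
      obtain ⟨s, b2, b3⟩ := b2
      have N := H.np hR b1 i j
      rw [← Cas_cA] at *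
      obtain b4 | b4 := N.fusion h (hL.mem s) (mt (hL.an s) b3) fun D => by
        obtain ⟨A, rfl⟩ := G.ptr_surj H.nd N.r.ah D
        have := LinearMap.congr_fun b2 (cj (rU (ρ j) (eE q w (L s))) A)
        rw [act_apply, cj_inv_cj] at this
        exact ⟨_, this⟩
      · obtain ⟨β, b5⟩ := exists_inner (g := 1) (τ := (cA x).comp (ρ i)) b4
        exact absurd (Cas_inner b5) hn
      · rw [Cas_apply, ptr_sA_comm G.nd (H.ah j) b4, map_zero]
  rw [LinearMap.sub_apply, LinearMap.sum_apply, ← Finset.sum_filter_add_sum_filter_not T P, a1,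
    add_sub_cancel_right]
  let N : Submodule F (End F V) := LinearMap.eqLocus ((fc q (ρ j)).flip b |>.flip a)
    ((polar q w b * polar q w a) • ((fc q (ρ j)).flip w' |>.flip w'))
  refine sum_free (act := fun s => ac (rU (ρ j) (eE q w (L s)))) (N := N.toAddSubmonoid)
    (fun C => by rw [map_zero, eE_zero, map_one]; rfl)
    (fun s t C => by rw [map_add, eE_add h.l (a0 s) (a0 t), map_mul, act_mul]) (fun C => ?_) _
    (fun s C hC => ?_) fun C hC => (Finset.mem_filter.1 hC).2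
  · have b1 : ∀ b a, fc q (ρ j) (∑ s, ac (rU (ρ j) (eE q w (L s))) C (sA Q q (ρ j) c u v w y)) b a =
        (polar q w b * polar q w a) • ∑ s, (q (L s) * q (L s)) •
          fc q (ρ j) (C (sA Q q (ρ j) c u v w y)) w w := fun b a => by
      rw [← hL.sum G.two h.l, ← Equiv.sum_comp (Equiv.neg κ), map_sum, LinearMap.sum_apply,
        LinearMap.sum_apply]
      refine Finset.sum_congr rfl fun s _ => ?_
      rw [act_apply, Equiv.neg_apply, map_neg, eE_neg h.l (a0 s), G.fc_cjr (inv_mem (eE_orth _ _)),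
        ← map_inv, inv_inv, cj_sA (H.ah j) G.two (eE_orth _ _), h.e_w (hL.mem s),
        h.e_y (hL.mem s) hy]
      simp [sA_apply]
    exact (b1 b a).trans (congrArg _ ((b1 w' w').trans (by simp [h.p])).symm)
  · rw [Finset.mem_filter] at hC ⊢
    refine ⟨(hT _).2 (act_mem (H.eE_mem j h.l (a0 s)) ((hT _).1 hC.1)), fun t e => hC.2 t ?_⟩
    have := congrArg (ac (rU (ρ j) (eE q w (L s)))⁻¹) e
    simp only [← act_mul, ← map_inv, ← map_mul, ← eE_neg h.l (a0 _), ← map_neg,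
      ← eE_add h.l (a0 _) (a0 _), ← map_add] at this
    simpa [eE_zero, show ac 1 C = C from rfl] using this

theorem avg₁ [Finite ι] (j : ι) (a b : W) :
    (∑ C ∈ T, C - Cas (ρ j)) (sA Q q (ρ j) c u v a b) = 0 := by
  have G := H.gw
  have := Fintype.ofFinite F
  generalize hS : ∑ C ∈ T, C - Cas (ρ j) = S
  have a1 : ∀ t ∈ OmegaV q, ∀ A, S (cj (rU (ρ j) t) A) = cj (rU (ρ j) t) (S A) := fun t ht A => by
    have := LinearMap.congr_fun (act_rU (τ := ρ j) t) (cj (rU (ρ j) t) A)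
    rw [act_apply, cj_inv_cj] at this
    rw [← hS, LinearMap.sub_apply, LinearMap.sub_apply, act_sum hT (H.om j t ht), cj_sub', this]
  refine LinearMap.congr_fun₂ (G.alt_zero (f := (sA Q q (ρ j) c u v).compr₂ S)
    (fun a b => by simp [sA_apply]) fun w w' h y hy => fc_ext (τ := ρ j) G.nd fun b a => ?_) a b
  have a2 : fc q (ρ j) (S (sA Q q (ρ j) c u v w y)) w' w' = 0 := G.tl h (N := LinearMap.ker
      ((((fc q (ρ j)).flip w').flip w') ∘ₗ S ∘ₗ sA Q q (ρ j) c u v w)) (fun t ht s s0 s1 s2 y hy => by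
    have b1 := G.fc_cjr (τ := ρ j) (OmegaV_le ht) (S (sA Q q (ρ j) c u v w y)) (t w') (t w')
    rw [← a1 t ht, cj_sA (H.ah j) G.two (OmegaV_le ht), inv_apply_apply, s1, s2] at b1
    simp only [map_smul, LinearMap.smul_apply, smul_smul, inv_mul_cancel₀ s0, mul_one] at b1
    simpa [sub_eq_zero] using b1) hy
  obtain ⟨L, hL⟩ | ⟨L, hL⟩ := G.exists_av (M := End F V) h <;>
    exact (hS ▸ H.avg₀ hR hT h hy hL b a :).trans (by rw [a2, smul_zero])

theorem avg₂ [Fintype ι] (u v : V) :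
    (∑ C ∈ T, C) (nn Q u v) = ∑ l, ρ l (ptr (ρ l) (nn Q u v)) := by
  have G := H.gw
  have a1 := G.symm_of_sj H.span H.act (f := (nn Q).compr₂ (∑ C ∈ T, C - ∑ l, Cas (ρ l)))
    (fun j a b c x y => by
      have := H.avg₁ hR hT (c := c) (u := x) (v := y) j a b
      rw [← sub_eq_zero, LinearMap.compr₂_apply, LinearMap.compr₂_apply, ← map_sub, ← sA_apply,
        ← this, LinearMap.sub_apply, LinearMap.sub_apply, sub_right_inj, LinearMap.sum_apply]
      exact Finset.sum_eq_single_of_mem j (Finset.mem_univ j) fun l _ e => by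
        rw [Cas_apply, ptr_sA_comm G.nd (H.ah j) (H.comm l j e), map_zero]) u v
  rw [LinearMap.compr₂_apply, LinearMap.compr₂_apply, show nn Q v u = -nn Q u v by
    simp [nn_eq], map_neg, eq_neg_iff_add_eq_zero, ← two_smul F] at a1
  simpa [sub_eq_zero, Cas_apply] using eq_zero_of_smul G.two a1

omit hT

theorem sk [Fintype ι] (hx : x ∈ X) (j : ι) (a b : W) : ∃ D : ι → End F W,
    (∀ l, Adj q (D l) (-D l)) ∧ cj x (ρ j (nn q a b)) = ∑ l, ρ l (D l) := by
  have G := H.gw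
  have := H.nt
  have : Finite V := Module.finite_of_finite F
  have : Finite (End F V) := DFunLike.finite _
  have : Finite (End F (End F V)) := DFunLike.finite _
  obtain ⟨T, hT⟩ : ∃ T : Finset (End F (End F V)), ∀ C, C ∈ T ↔ C ∈ DD ρ X :=
    ⟨_, fun S => (Set.toFinite (DD ρ X)).mem_toFinset⟩
  obtain ⟨c, u, v, e⟩ := G.ex_one (τ := ρ j) H.nd
  have a0 : ∀ u v u' v', (∑ C ∈ T, C) (nn Q u v - nn Q u' v') =
      ∑ l, ρ l (ptr (ρ l) (nn Q u v - nn Q u' v')) := fun u v u' v' => by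
    simp only [map_sub, H.avg₂ hR hT, Finset.sum_sub_distrib]
  have a1 := act_sum hT hx (sA Q q (ρ j) c u v a b)
  rw [sA_apply, cj_sub', cj_nn (H.le hx), cj_nn (H.le hx), a0, a0, ← sA_apply,
    Finset.sum_eq_single_of_mem (f := fun l => ρ l (ptr (ρ l) (sA Q q (ρ j) c u v a b))) j
      (Finset.mem_univ j) (fun l _ e => by
      rw [ptr_sA_comm G.nd (H.ah j) (H.comm l j e), map_zero]), ptr_sA G.nd (H.ah j), e, mul_one,
    map_smul, cj_smul] at a1
  refine ⟨fun l => (2 : F)⁻¹ • _, fun l => ?_, by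
    simp only [map_smul, ← Finset.smul_sum]; rw [a1, inv_smul_smul₀ G.two]⟩
  beta_reduce
  rw [← smul_neg, map_sub, neg_sub']
  exact ((ptr_skew G.nd (H.ah l) _ _).sub (ptr_skew G.nd (H.ah l) _ _)).smul _

theorem nrm [Finite ι] (hx : x ∈ X) (i j : ι) (hw : q w = 0) (hy : polar q w y = 0) (D : End F W) :
    ∃ E, cj (rU (ρ j) (eE q w y)) (cj x (ρ i D)) = cj x (ρ i E) := by
  have G := H.gw
  have := Fintype.ofFinite ι
  have a0 : ∀ (D : ι → End F W) i E, ⁅∑ l, ρ l (D l), ρ i E⁆ = ρ i ⁅D i, E⁆ := fun D i E => by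
    rw [Ring.lie_def, Finset.sum_mul, Finset.mul_sum, ← Finset.sum_sub_distrib,
      Finset.sum_eq_single_of_mem i (Finset.mem_univ i) fun l _ e =>
      sub_eq_zero.2 (H.comm l i e _ _).eq]
    simp [Ring.lie_def]
  obtain ⟨D', -, a1⟩ := H.sk hR (inv_mem hx) j w y
  have a2 : ∀ E, ⁅ρ j (nn q w y), cj x (ρ i E)⁆ = cj x (ρ i ⁅D' i, E⁆) := fun E => by
    rw [← a0, ← a1]; simp [Ring.lie_def, cj_sub', cj_mul', cj_cj_inv]
  refine G.genE ((((cA x).comp (ρ i)).range.comap (cA (rU (ρ j) (eE q w y)))).comap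
    ((cA x).comp (ρ i))) (fun a b _ _ _ => ?_) D |>.imp fun E e => e.symm
  obtain ⟨D, a3, a4⟩ := H.sk hR hx i a b
  have a5 : ∀ E, ⁅ρ j (nn q w y), ρ j E⁆ = ρ j ⁅nn q w y, E⁆ := fun E => by
    simp [Ring.lie_def]
  have a6 : ⁅ρ j (nn q w y), cj x (ρ i (nn q a b))⁆ = ρ j ⁅nn q w y, D j⁆ := by
    simpa [a4, Ring.lie_def] using congrArg Neg.neg (a0 D j (nn q w y))
  refine ⟨nn q a b + ⁅D' i, nn q a b⁆ + (2 : F)⁻¹ • ⁅D' i, ⁅D' i, nn q a b⁆⁆, ?_⟩
  change cj x (ρ i _) = cj _ (cj x (ρ i _))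
  rw [map_add, map_add, map_smul, cj_add, cj_add, cj_smul, ← a2 ⁅D' i, _⁆, ← a2, a6, a5, a4, ← cA_apply,
    map_sum, ← Finset.add_sum_erase _ _ (Finset.mem_univ j),
    ← Finset.add_sum_erase _ _ (Finset.mem_univ j), cA_apply, cj_rU, cj_eE_skew G.two hw hy (a3 j),
    Finset.sum_congr rfl fun l hl =>
      (cA_apply _ _).trans ((H.cc (Finset.ne_of_mem_erase hl) (D l)).cj_r _)]
  simp only [map_add, map_smul]; abel

theorem perm [Finite ι] (hx : x ∈ X) :
    ∃ σ : Equiv.Perm ι, ∀ i D, ∃ E, cj x (ρ i D) = ρ (σ i) E := by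
  have G := H.gw
  have := H.nt
  have hd : 2 ≤ finrank F W := by have := G.dim; omega
  obtain ⟨w, w', h⟩ := G.ex_hp
  obtain ⟨y, a1, a2⟩ := G.ex_aniso h
  have a3 : ∀ i, ∃ j, ∀ D, ∃ E, cj x (ρ i D) = ρ j E := fun i => by_contra fun hc =>
    not_comm (τ := (cA x).comp (ρ i)) hd fun D E => by
      obtain ⟨c, e⟩ := H.scalar (A := cj x (ρ i D)) fun j => (((H.np hR hx i j).fusion h a1 a2
        (H.nrm hR hx i j h.l (Ys_l a1))).resolve_left fun e => hc ⟨j, e⟩) D
      change Commute (cj x (ρ i D)) _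
      exact e ▸ (Commute.one_left _).smul_left c
  choose σ hσ using a3
  refine ⟨Equiv.ofBijective σ (Finite.injective_iff_bijective.1 fun i j e => by_contra fun hn =>
    not_comm (τ := ρ (σ i)) hd fun D E => ?_), hσ⟩
  obtain ⟨D, b1⟩ := G.swap (τ := (cA x).comp (ρ i)) (hσ i) D
  obtain ⟨E, b2⟩ := G.swap (τ := (cA x).comp (ρ j)) (hσ j) E
  rw [b1, e, b2]
  exact H12.Commute.cj (H.comm i j hn D E) x

end Fr

end H27.OW
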