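import Cfsg.Agent.H27.OW11
import Cfsg.Agent.H12.TvBridge

/-!
# Orthogonal tensor powers: maximality of the stabiliser
-/

set_option autoImplicit false
set_option maxHeartbeats 400000

namespace H27.OW

open Module H12 H13.KL QuadraticMap Submodule Function TensorProduct

section Abs

variable {F : Type*} [Field F] {U W : Type*} [AddCommGroup U] [Module F U] [AddCommGroup W]
  [Module F W] {Q : QuadraticForm F (U ⊗[F] W)} {q : QuadraticForm F W}
  {ι : Type*} [DecidableEq ι] [Fintype ι] {ρ : ι → End F W →ₐ[F] End F (U ⊗[F] W)}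
  {π : (ι → W) → U ⊗[F] W} {H X : Subgroup ((U ⊗[F] W) ≃ₗ[F] (U ⊗[F] W))} {j₀ : ι} {c : F}
  [FiniteDimensional F U] [FiniteDimensional F W]
  (h : TPF (CForm.ofQuad Q) (CForm.ofQuad q) H ρ j₀ π c) (G : GW q) (hU : 3 ≤ finrank F U)
include h

omit [FiniteDimensional F U] [FiniteDimensional F W] in
theorem ex_perm (σ : Equiv.Perm ι) : ∃ k ∈ H ⊓ orth Q, (∀ i D, cj k (ρ i D) = ρ (σ i) D) ∧
    ∀ i D, cj k⁻¹ (ρ i D) = ρ (σ.symm i) D :=
  let ⟨k, hk⟩ := h.perm σ
  ⟨k, ⟨(h.mem k).2 ⟨σ, fun i D => ⟨D, h.cj_perm hk i D⟩⟩, h.perm_isom hk⟩, h.cj_perm hk,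
    fun i D => cj_inj (g := k) (by rw [cj_cj_inv, h.cj_perm hk, Equiv.apply_symm_apply])⟩

include G hU

theorem wrH : WrH H ⊤ ρ j₀ :=
  { h with
    tr := fun j l _ _ _ _ => let ⟨k, _, a, _⟩ := ex_perm h (Equiv.swap j l); ⟨k, trivial, a⟩
    pos := by omega
    dim := by have := G.dim; omega }

theorem fr (h1 : H ⊓ OmegaV Q ≤ X) (h2 : X ≤ OmegaV Q) : Fr Q q ρ π X :=
  have w := wrH h G hU
  { h with
    gw := G
    nt := w.nV
    ah := h.adj
    le := h2.trans OmegaV_le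
    om := fun j β hβ => h1 ⟨w.rU_mem j β, map_mem_OmegaV _ (fun _ => h.rU_isom j) β hβ⟩
    pr := fun j m _ β hβ => by
      obtain ⟨k, a1, a2, -⟩ := ex_perm h (Equiv.swap j m)
      have : rU (ρ m) β⁻¹ = k * (rU (ρ j) β)⁻¹ * k⁻¹ := LinearEquiv.toLinearMap_injective (by
        rw [← cj_coe, ← map_inv, rU_coe, rU_coe, a2, Equiv.swap_apply_left])
      refine h1 (Subgroup.mem_inf.2 ⟨mul_mem (w.rU_mem _ _) (w.rU_mem _ _), ?_⟩)
      simpa only [this, mul_assoc] using comm_mem_om (q := Q) (h.rU_isom j hβ) a1.2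
    cyc := fun j m l a b c => by
      obtain ⟨k, a1, a2, a3⟩ := ex_perm h (Equiv.swap m l)
      obtain ⟨g, b1, b2, b3⟩ := ex_perm h (Equiv.swap j m)
      refine ⟨_, h1 (Subgroup.mem_inf.2 ⟨mul_mem (mul_mem (mul_mem a1.1 b1.1) (H.inv_mem a1.1))
        (H.inv_mem b1.1), comm_mem_om a1.2 b1.2⟩), fun D => ?_, fun D => ?_⟩ <;>
      simp [H12.cj_cj, a2, a3, b2, b3, Equiv.swap_apply_of_ne_of_ne, a, b, c, b.symm, c.symm]
    iso := fun i j => let ⟨k, _, a, _⟩ := ex_perm h (Equiv.swap i j)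
      ⟨k, fun D => by rw [a, Equiv.swap_apply_left]⟩ }

theorem tf : ∃ Q₁ : QuadraticForm F U, TF (CForm.ofQuad Q) (CForm.ofQuad Q₁) (CForm.ofQuad q) := by
  obtain ⟨a, b, e⟩ := G.ex_hp
  have two := G.two
  have e1 : ∀ u u', (CForm.ofQuad ((2 : F)⁻¹ • LinearMap.BilinMap.toQuadraticMap
      (TPF.fB (CForm.ofQuad Q) a b))).B u u' = TPF.fB (CForm.ofQuad Q) a b u u' := fun u u' => by
    rw [CForm.ofQuad_B, QuadraticMap.coeFn_smul, polar_smul]
    refine (congrArg _ (LinearMap.BilinMap.polar_toQuadraticMap _ _)).trans ?_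
    change 2⁻¹ * (TPF.fB _ a b u u' + TPF.fB _ a b u' u) = _
    rw [h.fB_symm e.p u u']
    change (2 : F)⁻¹ * (_ + 1 * 1 * TPF.fB (CForm.ofQuad Q) a b u u') = _
    field_simp; ring
  have e2 := fun u w u' w' => (h.B_tmul e.p u w u' w').trans (congrArg (· * _) (e1 u u').symm)
  refine ⟨_, h.nd, h.nd₁ e.p e1, h.nd₂, fun _ => rfl, fun _ => rfl, by simp [quadType],
    by simp [quadType], e2, fun u w u' w' a1 a2 => mul_left_cancel₀ two ?_,
    fun w a1 => mul_left_cancel₀ two ?_, by omega⟩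
  · have a3 := e2 u w u w
    have a4 := e2 u' w' u' w'
    simp only [CForm.ofQuad_B, CForm.ofQuad_N, polar_self'] at *
    rw [a3, a4, a1, a2]
  · simpa [polar_self'] using a1

theorem le_of_full [Finite F] (h2 : X ≤ OmegaV Q) {m : ι} (hF : Full Q q (ρ m) X) :
    OmegaV Q ≤ X := by
  obtain ⟨Q₁, t⟩ := tf h G hU
  obtain ⟨k, ⟨-, a1⟩, a2, -⟩ := ex_perm h (Equiv.swap j₀ m)
  replace a2 : ∀ D, ρ m D = cj k (rA U D) := fun D => by
    rw [← h.base, a2, Equiv.swap_apply_left]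
  have := t.fin (X := X.comap (MulAut.conj k).toMonoidHom) (rootG_quad h.nd (by
    rw [finrank_tensorProduct]; have := Nat.mul_le_mul hU G.dim; omega))
    (fun g hg => by simpa [mul_assoc] using conj_mem_om (inv_mem a1) (h2 hg)) hU G.iso
    fun w b1 b2 g b3 b4 b5 => by
      obtain ⟨w', e⟩ := G.exists_hp b2 b1
      have c1 : (g : End F _) * rA U (rk q w w') = rA U (rk q w w') :=
        TensorProduct.ext' fun u x => by simp [b4]
      have c2 : rA U (rk q w' w) * (g : End F _) = rA U (rk q w' w) := by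
        have d1 : AH Q q (rA U) := h.base ▸ h.adj j₀
        have d2 := (adj_isom (OmegaV_le b3)).symm.mul (d1 _ _ (adj_rk w w'))
        rw [← c1, ← mul_assoc, coe_inv_mul, one_mul] at d2
        exact d2.uniq h.nd (d1 _ _ (adj_rk w w'))
      have c3 : rA U (pY q w w') * (g : End F _) * rA U (pY q w w') = rA U (pY q w w') :=
        TensorProduct.ext' fun u x => by
          obtain ⟨v, d⟩ := mem_tl_singleton.1 (b5 (u ⊗ₜ pY q w w' x) (by simp [Ys_l (e.pY_mem x)]))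
          simp [sub_eq_iff_eq_add.1 d, e.pY_w, pY_of_mem (e.pY_mem x)]
      refine hF w w' e (k * g * k⁻¹) (mul_mem (mul_mem a1 (OmegaV_le b3)) (inv_mem a1))
        ⟨?_, ?_, ?_⟩ <;>
        simp only [a2, ← cj_coe, ← cj_mul', c1, c2, c3]
  exact fun g hg => by simpa [mul_assoc] using this (conj_mem_om (inv_mem a1) hg)

theorem isMax [Finite F] : Cfsg.Geo.IsMaximalIn (OmegaV Q) (H ⊓ OmegaV Q) := by
  obtain ⟨Q₁, t⟩ := tf h G hU
  obtain ⟨w, r, hr⟩ := G.ex_hp
  obtain ⟨f, hf⟩ := t.ex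
  obtain ⟨e, -, he⟩ := exists_mem_not_mem_of_finrank_lt (W := F ∙ f) (W' := ⊤) (by
    have := H11.finrank_span_singleton_le (F := F) f; rw [finrank_top]; omega)
  obtain ⟨u, b1, b2, b3⟩ := t.exists_perp hU e f
  obtain ⟨v, b4, b5⟩ := t.nd₁.exists_perp_eq he 1
  have b0 : (CForm.ofQuad q).B w w = 0 := hr.ll
  have b6 : (CForm.ofQuad q).B w r = 1 := hr.p
  obtain ⟨s, c1, c2⟩ := (rootG_quad h.nd (by
    rw [finrank_tensorProduct]; have := Nat.mul_le_mul hU G.dim; omega)).rho (e ⊗ₜ w) (f ⊗ₜ w)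
      (t.N_tmul e hr.l) (t.N_tmul f hr.l) (by rw [t.hB, b0, mul_zero])
  refine isMaximalIn_of _ _ inf_le_right (fun c => not_gd (φ := (CForm.ofQuad q).B w) hr.ne
    (fun e => by simp [e] at b6) b0 b1 (fun v => by simp only [c2, t.hB, b0]; simp)
    (fun x => by simp only [c2]; simp [hr.ll])
    (fun y => by simp only [c2, t.hB, b2, (CForm.ofQuad Q₁).B_swap_zero b3]; simp) (fun d => ?_)
    ((wrH h G hU).gd (c c1).1)) fun X a b g c d => ?_
  · have := c2 (v ⊗ₜ r)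
    simp only [d, t.hB, b5, b6,
      (CForm.ofQuad Q₁).B_swap_zero ((CForm.ofQuad Q₁).mem_perp_singleton.1 b4)] at this
    exact tmul_ne_zero hf hr.ne (by simpa using this)
  have H' := fr h G hU a b
  have := H'.nt
  obtain ⟨m, e⟩ | e := H'.dich
  · exact le_of_full h G hU b e
  · exact absurd ⟨(h.mem g).2 (H'.perm e c), b c⟩ d

end Abs

open Cfsg.Geo in
/-- The stabiliser of an orthogonal tensor power decomposition is maximal in `Ω`. -/
theorem main {F : Type*} [Field F] [Fintype F] (hodd : Odd (Fintype.card F)) {ι : Type} [Fintype ι]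
    [DecidableEq ι] {Q : QuadraticForm F (ι → F)} (hQ : QNondeg Q) {k t : ℕ} (hk : 3 ≤ k)
    (ht : 2 ≤ t) (hex : ¬ (Fintype.card F = 3 ∧ k = 3)) {e : ι ≃ (Fin t → Fin k)} {P : GL ι F}
    {f₁ : (Fin k → F) → (Fin k → F) → F} (hf₁ : IsSymmetricForm f₁)
    (h4 : k = 4 → ¬ IsPlusTypeOn (fun v : Fin k → F => f₁ v v) ⊤)
    (hT : IsTensorPowerFormStructure id (polar Q) f₁ e P) :
    IsMaximalIn (omegaGL Q) (tensorWreathSubgroup k t e P ⊓ omegaGL Q) := by
  obtain ⟨s, rfl⟩ : ∃ s, t = s + 1 := ⟨t - 1, by omega⟩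
  have h2 := odd_card_iff.1 hodd
  obtain ⟨q, d₂, e₂⟩ := exists_quad_sym hf₁ h2 one_ne_zero
  have : NeZero k := ⟨by omega⟩
  obtain ⟨θ, π, H, ρ, h, e1, e2⟩ := exists_tpw e P
  obtain ⟨c, e3⟩ := tp_bridge (fun _ => rfl) (formOfGram_bilin hf₁.bilinear) hT
  rw [omegaGL_eq_trE Q θ, e1, ← Subgroup.comap_inf]
  refine isMaximalIn_comap _ (isMax (q := q) (c := c) ⟨h, qnondeg_comp hQ θ, d₂, fun _ => rfl,
    fun x y => ?_, fun x y e => mul_left_cancel₀ h2 (by simpa [polar_self'] using e)⟩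
    ⟨d₂, h2, by simpa, ?_, ?_, fun a w w' b y c d => by_contra fun hy => h4 (by simpa using a)
      ⟨span F {w, y}, le_top, fun v hv => ?_, ?_⟩⟩ ?_)
  · simp only [CForm.ofQuad_B, e₂, one_mul, ← e3, ← e2]; exact polar_comp' ..
  · simpa using exists_singular_mem q (W := ⊤) (by simpa)
  · by_cases h3 : k = 3
    · have := Fintype.one_lt_card (α := F)
      obtain ⟨r, hr⟩ := hodd
      exact .inr (H11.exists_sq_ne_one_of_card (by omega))
    · exact .inl (by simp; omega)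
  · obtain ⟨r, s, rfl⟩ := mem_span_pair.1 hv
    beta_reduce
    rw [← one_mul (f₁ _ _), ← e₂]
    simp [polar_self', Q_add, Q_smul, b.l, Ys_l c, d]
  · rw [finrank_top, a, show ({w, y} : Set _) = Set.range ![w, y] by simp [Set.pair_comm],
      finrank_span_eq_card (LinearIndependent.pair_iff.2 fun r s e => by
        have := congrArg (polar q w') e
        simp only [polar_add_right, polar_smul_right, b.p', Ys_r c, polar_zero_right] at this
        simpa [show r = 0 by simpa using this, hy] using e)]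
    rfl
  · simpa using hk.trans (Nat.le_self_pow (by omega) k)

end H27.OW
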