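import Cfsg.Agent.H27.OW1

/-!
# Orthogonal tensor powers: generation and centraliser lemmas for the small factor
-/

set_option autoImplicit false
set_option maxHeartbeats 400000

namespace H27.OW

open Module H12 H13.KL QuadraticMap Submodule

variable {F : Type*} [Field F] {W : Type*} [AddCommGroup W] [Module F W]
  {M : Type*} [AddCommGroup M] [Module F M] {q : QuadraticForm F W} {w w' a y z u v : W}
  {f : W →ₗ[F] W →ₗ[F] M}

theorem mem_of_smul {N : Submodule F M} {c : F} {x : M} (hc : c ≠ 0) (h : c • x ∈ N) : x ∈ N :=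
  (N.smul_mem_iff hc).1 h

theorem eq_zero_of_smul {c : F} {x : M} (hc : c ≠ 0) (h : c • x = 0) : x = 0 :=
  (smul_eq_zero.1 h).resolve_left hc

variable (q f) in
/-- Bilinear maps invariant under the Eichler group. -/
structure CE (w w' : W) : Prop where
  ww : f w w = 0
  wy : ∀ y ∈ Ys q w w', f w y = 0
  yw : ∀ y ∈ Ys q w w', f y w = 0
  ww' : f w w' = f w' w
  yy : ∀ y ∈ Ys q w w', ∀ z ∈ Ys q w w', f y z = polar q y z • f w' w
  yw' : ∀ y ∈ Ys q w w', f y w' = -f w' y

theorem CE.expand (c : CE q f w w') (h : Hp q w w') (b a : W) :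
    f b a = polar q b a • f w' w + polar q w b • f w' (pY q w w' a) -
      polar q w a • f w' (pY q w w' b) + (polar q w b * polar q w a) • f w' w' := by
  have h1 := h.pY_mem a
  have h2 := h.pY_mem b
  have h3 : polar q b a = polar q w' b * polar q w a + polar q w b * polar q w' a +
      polar q (pY q w w' b) (pY q w w' a) := by
    rw [polar_pY h2]; simp [pY_apply]
  conv_lhs => rw [decomp (q := q) w w' a, decomp (q := q) w w' b]
  simp only [map_add, map_smul, LinearMap.add_apply, LinearMap.smul_apply, c.ww, c.wy _ h1,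
    c.yw _ h2, c.ww', c.yy _ h2 _ h1, c.yw' _ h2, h3]
  module

theorem Hp.e_w (h : Hp q w w') (hz : z ∈ Ys q w w') : eE q w z w = w := by
  simp [eE_apply h.l (Ys_l hz), h.ll, Ys_l' hz]

theorem Hp.e_y (h : Hp q w w') (hz : z ∈ Ys q w w') (hy : y ∈ Ys q w w') :
    eE q w z y = y + polar q z y • w := by
  simp [eE_apply h.l (Ys_l hz), Ys_l hy]

theorem Hp.e_w' (h : Hp q w w') (hz : z ∈ Ys q w w') : eE q w z w' = w' - z - q z • w := by
  simp [eE_apply h.l (Ys_l hz), h.p, Ys_r' hz]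

theorem Hp.r_w (h : Hp q w w') {c : F} (hc : c ≠ 0) : rE q (w - c • w') w = c • w' := by
  simp [rE_apply, Q_sub, Q_smul, h.l, h.r, h.p, h.ll, h.p', hc]

theorem Hp.r_w' (h : Hp q w w') {c : F} (hc : c ≠ 0) : rE q (w - c • w') w' = c⁻¹ • w := by
  simp [rE_apply, Q_sub, Q_smul, h.l, h.r, h.p, h.rr, smul_sub, smul_smul, hc]

theorem r_y (c : F) (hy : y ∈ Ys q w w') : rE q (w - c • w') y = y :=
  rE_of_orth (by simp [Ys_l hy, Ys_r hy])

theorem rE_mem_Ys (ha : a ∈ Ys q w w') (hy : y ∈ Ys q w w') : rE q a y ∈ Ys q w w' :=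
  sub_mem hy (smul_mem _ _ ha)

variable [FiniteDimensional F W]

namespace GW

variable (g : GW q)
include g

theorem quartic (h : Hp q w w') {N : Submodule F M} {p : M}
    (hN : ∀ z ∈ Ys q w w', f z z + (q z * q z) • p ∈ N) : p ∈ N := by
  obtain ⟨z, h1, h2⟩ := g.ex_aniso h
  have := g.two
  rcases g.qh with hd | ⟨c, h3, h4⟩
  · obtain ⟨y, h3, h4, h5⟩ := g.ex_perp h hd h1 h2
    refine mem_of_smul (c := 2 * 2 * q z * q y) (by simp [*]) ?_
    convert sub_mem (add_mem (hN _ (add_mem h1 h3)) (hN _ (sub_mem h1 h3)))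
      (smul_mem _ (2 : F) (add_mem (hN _ h1) (hN _ h3))) using 1
    simp only [map_add, map_sub, LinearMap.add_apply, LinearMap.sub_apply, Q_add, Q_sub, h5]
    module
  · refine mem_of_smul (c := c * c * (c * c - 1) * (q z * q z)) (by simp [*, sub_eq_zero]) ?_
    convert sub_mem (hN _ (smul_mem _ c h1)) (smul_mem _ (c * c) (hN _ h1)) using 1
    simp only [map_smul, LinearMap.smul_apply, Q_smul]
    module

theorem ce (h : Hp q w w') {c : W → M}
    (hf : ∀ z ∈ Ys q w w', ∀ b a, f (eE q w z b) (eE q w z a) = f b a + polar q b a • c z) :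
    CE q f w w' ∧ ∀ z ∈ Ys q w w', c z = 0 := by
  have two := g.two
  obtain ⟨a, ha, ha'⟩ := g.ex_aniso h
  have h1 : f w w = 0 := by
    have := hf a ha w a
    simp only [h.e_w ha, h.e_y ha ha, map_add, map_smul, Ys_l ha, polar_self'] at this
    exact eq_zero_of_smul (mul_ne_zero two ha') (by simpa using this)
  have h2 : ∀ z ∈ Ys q w w', f w z = -c z := fun z hz => by
    have := hf z hz w w'
    simp only [h.e_w hz, h.e_w' hz, map_sub, map_smul, h1, h.p] at this
    linear_combination (norm := module) -this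
  have h3 : ∀ z ∈ Ys q w w', f z w = -c z := fun z hz => by
    have := hf z hz w' w
    simp only [h.e_w hz, h.e_w' hz, map_sub, map_smul, LinearMap.sub_apply, LinearMap.smul_apply,
      h1, h.p'] at this
    linear_combination (norm := module) -this
  have h4 : ∀ z ∈ Ys q w w', f z z - f w' z - f z w' - q z • (f w' w + f w w') +
      q z • (f z w + f w z) = 0 := fun z hz => by
    have := hf z hz w' w'
    simp only [h.e_w' hz, map_sub, map_smul, LinearMap.sub_apply, LinearMap.smul_apply,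
      h1, h.rr] at this
    linear_combination (norm := module) this
  have h5 : ∀ z ∈ Ys q w w', f w' z + f z w' = q z • (f z w + f w z) := fun z hz => by
    have a1 := h4 z hz
    have a2 := h4 _ (neg_mem hz)
    simp only [map_neg, LinearMap.neg_apply, QuadraticMap.map_neg] at a2
    exact sub_eq_zero.1 (eq_zero_of_smul two (by linear_combination (norm := module) a2 - a1))
  have h6 : ∀ z ∈ Ys q w w', f w z = 0 := fun z => g.Ys_zero h fun z hz hz' => by
    have a0 : f z w = f w z := by rw [h2 z hz, h3 z hz]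
    rcases g.qh with hd | ⟨t, a1, a2⟩
    · obtain ⟨y, a1, a2, a3⟩ := g.ex_perp h hd hz hz'
      have := hf z hz y y
      rw [h.e_y hz a1, a3, zero_smul, add_zero, polar_self'] at this
      rw [h2 z hz, eq_zero_of_smul (x := c z) (mul_ne_zero two a2)
        (by linear_combination (norm := module) -this), neg_zero]
    · have a3 := h5 z hz
      have a4 := h5 _ (smul_mem _ t hz)
      simp only [map_smul, LinearMap.smul_apply, Q_smul, a0] at a3 a4
      exact eq_zero_of_smul (c := 2 * t * (t * t - 1) * q z) (by simp [*, sub_eq_zero])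
        (by linear_combination (norm := module) t • a3 - a4)
  have h7 : ∀ z ∈ Ys q w w', c z = 0 := fun z hz => by simpa [h6 z hz] using h2 z hz
  have h8 : ∀ z ∈ Ys q w w', f z w = 0 := fun z hz => by simp [h3 z hz, h7 z hz]
  have h9 : ∀ y ∈ Ys q w w', ∀ z ∈ Ys q w w', f y z = polar q y z • f w' w := fun y hy z hz => by
    have := hf y hy w' z
    simp only [h.e_y hy hz, h.e_w' hy, map_sub, map_add, map_smul, LinearMap.sub_apply,
      LinearMap.smul_apply, h1, h6 z hz, h8 y hy, h7 y hy] at this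
    linear_combination (norm := module) -this
  have h10 : ∀ z ∈ Ys q w w', f z w' = -f w' z := fun z hz => by
    have := h5 z hz
    rw [h6 z hz, h8 z hz] at this
    linear_combination (norm := module) this
  refine ⟨⟨h1, h6, h8, ?_, h9, h10⟩, h7⟩
  have := h4 a ha
  rw [h6 a ha, h8 a ha, h9 a ha a ha, h10 a ha, polar_self'] at this
  exact sub_eq_zero.1 (eq_zero_of_smul ha' (by linear_combination (norm := module) -this))

theorem tl (h : Hp q w w') {N : Submodule F W}
    (hN : ∀ t ∈ OmegaV q, ∀ c : F, c ≠ 0 → t w = c • w → t w' = c⁻¹ • w' →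
      ∀ y ∈ Ys q w w', c⁻¹ • t y - y ∈ N) (hy : y ∈ Ys q w w') : y ∈ N := by
  have two := g.two
  refine g.Ys_le h (fun a ha ha' => ?_) hy
  rcases g.qh with hd | ⟨t, a1, a2⟩
  · obtain ⟨c, z, b1, b2, b3, b4, b5, b6⟩ : ∃ c z, c ∈ Ys q w w' ∧ z ∈ Ys q w w' ∧ q c ≠ 0 ∧
        polar q a z = 0 ∧ polar q c z ≠ 0 ∧ polar q a c ≠ 0 := by
      obtain ⟨z, b1, b2, b3⟩ := g.ex_perp h hd ha ha'
      by_cases e : q (a + z) = 0
      · have h5 : 5 ≤ finrank F W := by_contra fun h5 => mul_ne_zero two ha' (by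
          simpa [polar_self', b3] using congrArg (polar q a)
            (g.four (by omega) w w' h _ (add_mem ha b1) e))
        obtain ⟨u, c1, c2, c3, c4⟩ := g.ex_perp₂ h h5 ha ha' b1 b2 b3
        exact ⟨a + z + u, u, add_mem (add_mem ha b1) c1, c1, by simp [Q_add _ (a + z), *], c3,
          by simp [polar_self', *], by simp [polar_self', *]⟩
      · exact ⟨a + z, z, add_mem ha b1, b1, e, b3, by simp [polar_self', *],
          by simp [polar_self', *]⟩
    have := hN _ (comm_mem_om (rE_orth a) (rE_orth c)) 1 one_ne_zero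
      (by simp [rE_inv, rE_of_orth (Ys_l' ha), rE_of_orth (Ys_l' b1)])
      (by simp [rE_inv, rE_of_orth (Ys_r' ha), rE_of_orth (Ys_r' b1)]) _ (rE_mem_Ys b1 b2)
    simp only [rE_inv, LinearEquiv.mul_apply, rE_rE, rE_of_orth b4, inv_one, one_smul] at this
    rw [rE_apply a, sub_sub_cancel_left, ← neg_smul] at this
    exact mem_of_smul (by simp [rE_apply, *]) this
  · have := hN _ (comm_mem_om (mul_mem (rE_orth (w - t • w')) (rE_orth (w - (1 : F) • w')))
      (rE_orth (w - (1 : F) • w'))) (t * t)⁻¹ (by simp [a1])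
      (by simp only [rE_inv, mul_inv_rev, LinearEquiv.mul_apply, rE_rE, map_smul, h.r_w a1,
        h.r_w' a1, h.r_w one_ne_zero, h.r_w' one_ne_zero, smul_smul]; simp)
      (by simp only [rE_inv, mul_inv_rev, LinearEquiv.mul_apply, rE_rE, map_smul, h.r_w a1,
        h.r_w' a1, h.r_w one_ne_zero, h.r_w' one_ne_zero, smul_smul]; simp) a ha
    simp only [rE_inv, mul_inv_rev, LinearEquiv.mul_apply, r_y _ ha, inv_inv] at this
    exact mem_of_smul (sub_ne_zero.2 a2) (by rwa [sub_smul, one_smul])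

theorem sing_le (h0 : u ≠ 0) (hu : q u = 0) {N : Submodule F W}
    (hN : ∀ v, q v = 0 → polar q u v ≠ 0 → v ∈ N) (x : W) : x ∈ N := by
  obtain ⟨u', h⟩ := g.exists_hp h0 hu
  have h1 : ∀ y ∈ Ys q u u', u' - y - q y • u ∈ N := fun y hy => h.e_w' hy ▸
    hN _ (by rw [isom_q (eE_orth _ _), h.r]) (by simp [h.e_w' hy, h.p, h.ll, Ys_l hy])
  have h2 : ∀ y ∈ Ys q u u', y ∈ N := fun y hy => mem_of_smul g.two (by
    convert sub_mem (h1 _ (neg_mem hy)) (h1 y hy) using 1
    rw [QuadraticMap.map_neg]; module)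
  have h3 := hN u' h.r (by simp [h.p])
  obtain ⟨a, ha, ha'⟩ := g.ex_aniso h
  exact h.mem (mem_of_smul ha' (by
    convert sub_mem (sub_mem h3 (h2 a ha)) (h1 a ha) using 1; abel)) h3 h2 x

theorem ex_third (h0 : u ≠ 0) (hu : q u = 0) (hv : v ≠ 0) :
    ∃ x, q x = 0 ∧ polar q u x ≠ 0 ∧ polar q v x ≠ 0 := by
  by_contra! hc
  exact hv (g.nd v (g.sing_le h0 hu (N := LinearMap.ker (polarBilin q v)) hc))

theorem rk_sing {Y : Submodule F (End F W)}
    (h : ∀ u v, q u = 0 → q v = 0 → polar q u v ≠ 0 → rk q u v ∈ Y) (D : End F W) : D ∈ Y := by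
  obtain ⟨u, h0, hu⟩ := g.iso
  refine mem_of_rk' g.nd Y (fun a b => ?_) D
  refine g.sing_le h0 hu (N := Y.comap ((rk q).flip b)) (fun v h1 h2 => ?_) a
  exact g.sing_le (u := v) (by rintro rfl; simp at h2) h1 (N := Y.comap (rk q v))
    (fun x => h v x h1) b

theorem genE (S : Subalgebra F (End F W))
    (h : ∀ w y, q w = 0 → polar q w y = 0 → q y ≠ 0 → nn q w y ∈ S) (D : End F W) : D ∈ S := by
  have h1 : ∀ u, u ≠ 0 → q u = 0 → rk q u u ∈ S := fun u h0 hu => by
    obtain ⟨u', e⟩ := g.exists_hp h0 hu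
    obtain ⟨a, ha, ha'⟩ := g.ex_aniso e
    have := mul_mem (h u a hu (Ys_l ha) ha') (h u a hu (Ys_l ha) ha')
    rw [nn_mul_nn hu (Ys_l ha) (Ys_l ha)] at this
    exact mem_of_smul (N := S.toSubmodule) (by simp [polar_self', ha', g.two]) this
  refine g.rk_sing (Y := S.toSubmodule) (fun u v hu hv e => mem_of_smul e ?_) D
  rw [← rk_mul_rk]
  exact S.mul_mem (h1 u (by rintro rfl; simp at e) hu) (h1 v (by rintro rfl; simp at e) hv)

omit [FiniteDimensional F W] in
theorem nn_two (hw : q w = 0) (hy : polar q w y = 0) :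
    (eE q w y : End F W) - eE q w (-y) = (2 : F) • nn q w y := by
  rw [eE_coe hw hy, eE_coe hw (by simp [hy]), QuadraticMap.map_neg, map_neg]; module

theorem genE' (S : Subalgebra F (End F W))
    (h : ∀ w y, q w = 0 → polar q w y = 0 → q y ≠ 0 → (eE q w y : End F W) ∈ S) (D : End F W) :
    D ∈ S :=
  g.genE S (fun w y a b c => mem_of_smul (N := S.toSubmodule) g.two (g.nn_two a b ▸
    sub_mem (h w y a b c) (h w _ a (by simp [b]) (by simpa using c)))) D

theorem genR {R : Subgroup (W ≃ₗ[F] W)} (hR : OmegaV q ≤ R) : GenR R := fun S h =>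
  g.genE' S fun _ _ a b _ => h _ (hR (g.eE_mem a b))

theorem weyl (h : Hp q w w') : ∃ β ∈ OmegaV q, ∃ c : F, c ≠ 0 ∧ β w = c • w' := by
  obtain ⟨z, hz, hz'⟩ := g.ex_aniso h
  have h1 := smul_mem _ (q z)⁻¹ hz
  refine ⟨eE q w ((q z)⁻¹ • z) * eE q w' z, mul_mem (g.eE_mem h.l (Ys_l h1)) (g.eE_mem h.r (Ys_r hz)),
    -q z, by simpa, ?_⟩
  rw [LinearEquiv.mul_apply, h.symm.e_w' (Ys_symm hz), map_sub, map_sub, map_smul, h.e_w h1,
    h.e_w' h1, h.e_y h1 hz, Q_smul, polar_smul_left, polar_self', smul_eq_mul]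
  match_scalars <;> field_simp <;> ring

theorem trans (h0 : u ≠ 0) (hu : q u = 0) (h0' : v ≠ 0) (hv : q v = 0) :
    ∃ β ∈ OmegaV q, ∃ c : F, c ≠ 0 ∧ β u = c • v := by
  have key : ∀ u v, q u = 0 → q v = 0 → polar q u v ≠ 0 →
      ∃ β ∈ OmegaV q, ∃ c : F, c ≠ 0 ∧ β u = c • v := fun u v hu hv e => by
    obtain ⟨β, h1, c, h2, h3⟩ := g.weyl (w := u) (w' := (polar q u v)⁻¹ • v)
      ⟨hu, by simp [Q_smul, hv], by simp [e]⟩
    exact ⟨β, h1, c * (polar q u v)⁻¹, by simp [h2, e], by rw [h3, smul_smul]⟩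
  obtain ⟨x, h1, h2, h3⟩ := g.ex_third h0 hu h0'
  obtain ⟨β, a1, c, a2, a3⟩ := key u x hu h1 h2
  obtain ⟨β', b1, c', b2, b3⟩ := key x v h1 hv (by rwa [polar_comm])
  exact ⟨β' * β, mul_mem b1 a1, c * c', mul_ne_zero a2 b2, by simp [a3, b3, smul_smul]⟩

theorem wd {R : Subgroup (W ≃ₗ[F] W)} (hR : OmegaV q ≤ R) :
    WD R {N | ∃ v, v ≠ 0 ∧ q v = 0 ∧ N = rk q v v} where
  gen := g.genR hR
  orb := by
    rintro _ ⟨u, a1, a2, rfl⟩ _ ⟨v, b1, b2, rfl⟩
    obtain ⟨β, h1, c, h2, h3⟩ := g.trans a1 a2 b1 b2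
    exact ⟨β, hR h1, (c * c)⁻¹, by
      simp only [cj_rk (OmegaV_le h1), h3, map_smul, LinearMap.smul_apply, smul_smul]
      rw [inv_mul_cancel₀ (mul_ne_zero h2 h2), one_smul]⟩
  span Y h := g.rk_sing fun u v hu hv e => by
    have a1 : u ≠ 0 := by rintro rfl; simp at e
    have a2 : v ≠ 0 := by rintro rfl; simp at e
    obtain ⟨x, h1, h2, h3⟩ := g.ex_third a1 hu a2
    have := h _ ⟨u, a1, hu, rfl⟩ _ ⟨x, by rintro rfl; simp at h2, h1, rfl⟩ _ ⟨v, a2, hv, rfl⟩
    rw [rk_mul_rk, smul_mul_assoc, rk_mul_rk, smul_smul] at this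
    exact mem_of_smul (mul_ne_zero h2 (by rwa [polar_comm])) this

theorem witt (h : Hp q w w') (h' : Hp q v u) : ∃ β ∈ orth q, β w = v ∧ β w' = u := by
  have e : H11.IsHypPair (CForm.ofQuad q) w w' := ⟨h.l, h.r, h.p⟩
  have e' : H11.IsHypPair (CForm.ofQuad q) v u := ⟨h'.l, h'.r, h'.p⟩
  exact g.nd.witt_two e.linearIndependent e'.linearIndependent (h'.l.trans h.l.symm)
    (h'.r.trans h.r.symm) (h'.p.trans h.p.symm)

end GW

end H27.OW
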