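import Cfsg.Agent.H27.OW2

/-!
# Orthogonal tensor powers: components with respect to a factor
-/

set_option autoImplicit false
set_option maxHeartbeats 400000

namespace H27.OW

open Module H12 H13.KL QuadraticMap Submodule Function

section Fix

theorem exists_fix {A κ : Type*} {f : κ → A → A} (hc : ∀ i j x, f i (f j x) = f j (f i x))
    {J Jc : Set A} (hn : ∀ i x, ∃ n, (f i)^[n] x ∈ Jc) (hJ : ∀ i, ∀ x ∈ J, f i x ∈ J)
    (hJc : ∀ i, ∀ x ∈ Jc, f i x ∈ Jc) {x : A} (h1 : x ∈ J) (h2 : x ∉ Jc) (s : Finset κ) :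
    ∃ y ∈ J, y ∉ Jc ∧ ∀ i ∈ s, f i y ∈ Jc := by
  classical
  induction s using Finset.induction with
  | empty => exact ⟨x, h1, h2, by simp⟩
  | insert i s _ ih =>
    obtain ⟨y, a1, a2, a3⟩ := ih
    obtain ⟨n, hn'⟩ : ∃ n, Nat.find (hn i y) = n + 1 :=
      Nat.exists_eq_succ_of_ne_zero fun e => a2 (by simpa [e] using Nat.find_spec (hn i y))
    have b1 : ∀ (Z : Set A), (∀ x ∈ Z, f i x ∈ Z) → ∀ n, ∀ x ∈ Z, (f i)^[n] x ∈ Z :=
      fun Z hZ n x hx => Set.MapsTo.iterate hZ n hx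
    refine ⟨(f i)^[n] y, b1 J (hJ i) n y a1, Nat.find_min (hn i y) (by omega), fun j hj => ?_⟩
    rcases Finset.mem_insert.1 hj with rfl | hj
    · simpa [hn', iterate_succ_apply'] using Nat.find_spec (hn j y)
    · rw [(show Function.Commute (f j) (f i) from hc j i).iterate_right n y]
      exact b1 Jc (hJc i) n _ (a3 j hj)

theorem nil_of_pow (F : Type*) [Field F] [Finite F] {R : Type*} [Ring R] [Algebra F R] {x : R}
    (h : x ^ ringChar F = 1) : (x - 1) ^ ringChar F = 0 := by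
  nontriviality R
  have := Fact.mk (CharP.char_is_prime F (ringChar F))
  have : CharP R (ringChar F) := charP_of_injective_algebraMap (algebraMap F R).injective _
  rw [sub_pow_char_of_commute _ (Commute.one_right x), h, one_pow, sub_self]

end Fix

variable {F : Type*} [Field F] {V W : Type*} [AddCommGroup V] [Module F V] [AddCommGroup W]
  [Module F W] {M : Type*} [AddCommGroup M] [Module F M] {Q : QuadraticForm F V}
  {q : QuadraticForm F W} {τ τ' : End F W →ₐ[F] End F V} {A A' B c k : End F V} {D D' : End F W}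
  {a b x y w w' : W} {g : V ≃ₗ[F] V} {β : W ≃ₗ[F] W}

/-- Conjugation as an algebra homomorphism. -/
def cA (g : V ≃ₗ[F] V) : End F V →ₐ[F] End F V := (g.conjAlgEquiv F).toAlgHom

theorem cA_apply (g : V ≃ₗ[F] V) (A : End F V) : cA g A = cj g A := rfl

theorem cj_add (g : V ≃ₗ[F] V) (A B : End F V) : cj g (A + B) = cj g A + cj g B :=
  map_add (cA g) A B

theorem cj_sub' (g : V ≃ₗ[F] V) (A B : End F V) : cj g (A - B) = cj g A - cj g B :=
  map_sub (cA g) A B

theorem cj_neg (g : V ≃ₗ[F] V) (A : End F V) : cj g (-A) = -cj g A := map_neg (cA g) A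

theorem cj_smul (g : V ≃ₗ[F] V) (c : F) (A : End F V) : cj g (c • A) = c • cj g A :=
  map_smul (cA g) c A

theorem cj_one (g : V ≃ₗ[F] V) : cj g (1 : End F V) = 1 := map_one (cA g)

theorem cj_zero (g : V ≃ₗ[F] V) : cj g (0 : End F V) = 0 := map_zero (cA g)

theorem one_cj (A : End F V) : cj 1 A = A := rfl

theorem cj_coe (g k : V ≃ₗ[F] V) : cj g (k : End F V) = (g * k * g⁻¹ : V ≃ₗ[F] V) := rfl

theorem coe_mul' (g k : V ≃ₗ[F] V) : ((g * k : V ≃ₗ[F] V) : End F V) = (g : End F V) * k := rfl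

theorem coe_one' : ((1 : V ≃ₗ[F] V) : End F V) = 1 := rfl

theorem coe_mul_inv (g : V ≃ₗ[F] V) : (g : End F V) * (g⁻¹ : V ≃ₗ[F] V) = 1 := by
  rw [← coe_mul', mul_inv_cancel, coe_one']

theorem coe_inv_mul (g : V ≃ₗ[F] V) : ((g⁻¹ : V ≃ₗ[F] V) : End F V) * g = 1 := by
  rw [← coe_mul', inv_mul_cancel, coe_one']

theorem comm_of_cj (h : cj g A = A) : Commute (g : End F V) A := by
  change _ = _
  conv_rhs => rw [← h, cj_eq, mul_assoc, coe_inv_mul, mul_one]

theorem comm_inv (h : Commute (g : End F V) A) : Commute ((g⁻¹ : V ≃ₗ[F] V) : End F V) A :=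
  comm_of_cj (by rw [← cj_of_comm h, cj_inv_cj, cj_of_comm h])

theorem cj_inj (h : cj g A = cj g B) : A = B := by rw [← cj_inv_cj g A, h, cj_inv_cj]

theorem Adj.conj (h : Adj Q A A') (hg : g ∈ orth Q) : Adj Q (cj g A) (cj g A') := by
  have := ((adj_isom hg).mul h).mul (adj_isom hg).symm
  rwa [← mul_assoc] at this

theorem cj_nil [Finite F] (h : g ^ ringChar F = 1) (A : End F V) :
    (fun A => cj g A - A)^[ringChar F] A = 0 := by
  have h1 : ∀ n A, ((cA g).toLinearMap ^ n) A = cj (g ^ n) A := fun n => by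
    induction n with
    | zero => exact fun _ => rfl
    | succ n ih => exact fun A => by rw [pow_succ, pow_succ, H12.cj_cj, ← ih]; rfl
  have := LinearMap.congr_fun (nil_of_pow F (x := (cA g).toLinearMap)
    (LinearMap.ext fun A => by rw [h1, h]; rfl)) A
  rwa [End.pow_apply] at this

theorem exists_fix_ne [Finite F] [Finite V] {S : Set (V ≃ₗ[F] V)}
    (h1 : ∀ s ∈ S, s ^ ringChar F = 1) (h2 : ∀ s ∈ S, ∀ t ∈ S, Commute s t)
    (h3 : ∀ s ∈ S, s⁻¹ ∈ S) {T : Set (End F V)} (h4 : ∀ s ∈ S, ∀ A ∈ T, cj s A ∈ T)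
    (h0 : 0 ∈ T) (hp : ringChar F ∣ Nat.card T) : ∃ A ∈ T, A ≠ 0 ∧ ∀ s ∈ S, cj s A = A := by
  have := Fact.mk (CharP.char_is_prime F (ringChar F))
  have : Finite (End F V) := DFunLike.finite _
  have a1 : ∀ x ∈ Subgroup.closure S, ∀ y ∈ Subgroup.closure S, Commute x y := fun x hx y hy =>
    Subgroup.closure_le_centralizer_centralizer S hx y
      ((Subgroup.closure_le (Subgroup.centralizer S)).2
        (fun s hs t ht => (h2 t ht s hs).eq) hy) |>.symm
  have a2 : IsPGroup (ringChar F) (Subgroup.closure S) := fun ⟨x, hx⟩ => ⟨1, Subtype.ext (by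
    rw [pow_one]
    change x ^ _ = 1
    induction hx using Subgroup.closure_induction with
    | mem x hx => exact h1 x hx
    | one => simp
    | mul x y hx hy a b => rw [(a1 x hx y hy).mul_pow, a, b, one_mul]
    | inv x _ a => rw [inv_pow, a, inv_one])⟩
  have a3 : ∀ x ∈ Subgroup.closure S, ∀ A ∈ T, cj x A ∈ T := fun x hx => by
    induction hx using Subgroup.closure_induction_left with
    | one => exact fun _ h => h
    | mul_left x hx y _ a => exact fun A hA => h4 x hx _ (a A hA)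
    | inv_mul_cancel x hx y _ a => exact fun A hA => h4 _ (h3 x hx) _ (a A hA)
  let : MulAction (Subgroup.closure S) T :=
    { smul := fun x A => ⟨cj x.1 A.1, a3 _ x.2 _ A.2⟩
      one_smul := fun _ => rfl
      mul_smul := fun _ _ _ => rfl }
  obtain ⟨A, b1, b2⟩ := a2.exists_fixed_point_of_prime_dvd_card_of_fixed_point T hp (a := ⟨0, h0⟩)
    fun x => Subtype.ext (cj_zero _)
  exact ⟨A, A.2, fun e => b2 (Subtype.ext e.symm), fun s hs =>
    congrArg Subtype.val (b1 ⟨s, Subgroup.subset_closure hs⟩)⟩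

variable (τ) in
/-- The centraliser of a factor. -/
def CC (A : End F V) : Prop := ∀ E, Commute A (τ E)

theorem CC.mul (h : CC τ A) (h' : CC τ B) : CC τ (A * B) := fun E => (h E).mul_left (h' E)

theorem CC.add (h : CC τ A) (h' : CC τ B) : CC τ (A + B) := fun E => (h E).add_left (h' E)

theorem CC.sub (h : CC τ A) (h' : CC τ B) : CC τ (A - B) := fun E => (h E).sub_left (h' E)

theorem CC.neg (h : CC τ A) : CC τ (-A) := fun E => (h E).neg_left

theorem CC.smul (h : CC τ A) (c : F) : CC τ (c • A) := fun E => (h E).smul_left c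

theorem cc_one : CC τ 1 := fun _ => Commute.one_left _

theorem cc_zero : CC τ 0 := fun _ => Commute.zero_left _

theorem CC.inv (h : CC τ (g : End F V)) : CC τ ((g⁻¹ : V ≃ₗ[F] V) : End F V) :=
  fun E => comm_inv (h E)

theorem CC.cj_t (h : CC τ (g : End F V)) (E : End F W) : cj g (τ E) = τ E := cj_of_comm (h E)

theorem CC.conj (h : CC τ A) (hg : CC τ (g : End F V)) : CC τ (cj g A) :=
  (hg.mul h).mul hg.inv

theorem CC.cj_r (h : CC τ A) (β : W ≃ₗ[F] W) : cj (rU τ β) A = A := cj_of_comm (h β).symm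

theorem CC.l (h : CC τ A) (E : End F W) (B : End F V) : τ E * (A * B) = A * (τ E * B) := by
  rw [← mul_assoc, ← (h E).eq, mul_assoc]

theorem CC.r (h : CC τ A) (E : End F W) : τ E * A = A * τ E := (h E).eq.symm

variable (Q q τ) in
/-- Compatibility with adjoints. -/
def AH : Prop := ∀ D D', Adj q D D' → Adj Q (τ D) (τ D')

theorem AH.orth (h : AH Q q τ) (h2 : (2 : F) ≠ 0) (hβ : β ∈ orth q) : rU τ β ∈ orth Q :=
  mem_orth_of_polar h2 fun x y => (h _ _ (adj_isom hβ) x (rU τ β y)).trans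
    (congrArg _ (inv_apply_apply (rU τ β) y))

theorem AH.conj (h : AH Q q τ) (hg : g ∈ H12.orth Q) : AH Q q ((cA g).comp τ) :=
  fun D D' e => (h D D' e).conj hg

theorem t_mul (a b c d : W) : τ (rk q a b) * τ (rk q c d) = polar q b c • τ (rk q a d) := by
  rw [← map_mul, rk_mul_rk, map_smul]

theorem t_mul' (a b c d : W) (A : End F V) :
    τ (rk q a b) * (τ (rk q c d) * A) = polar q b c • (τ (rk q a d) * A) := by
  rw [← mul_assoc, t_mul, smul_mul_assoc]

variable (q τ) in
/-- Symmetry in one factor. -/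
def SJ (f : V →ₗ[F] V →ₗ[F] M) : Prop := ∀ a b c x y,
  f (τ (rk q a c) x) (τ (rk q b c) y) = f (τ (rk q b c) x) (τ (rk q a c) y)

variable [FiniteDimensional F W]

variable (q τ) in
/-- The components of an endomorphism with respect to a factor. -/
noncomputable def fc : End F V →ₗ[F] W →ₗ[F] W →ₗ[F] End F V where
  toFun A := (cp τ A).flip ∘ₗ polarBilin q
  map_add' A B := by ext b a : 2; simp [cp, mul_add, add_mul, Finset.sum_add_distrib]
  map_smul' c A := by ext b a : 2; simp [cp, Finset.smul_sum]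

theorem fc_mul (A : End F V) (b a x y : W) :
    fc q τ A b a * τ (rk q x y) = τ (rk q x b) * A * τ (rk q a y) := cp_mul ..

theorem fc_cc (A : End F V) (b a : W) : CC τ (fc q τ A b a) := cp_comm _ _

theorem fc_ext (hq : QNondeg q) (h : ∀ b a, fc q τ A b a = 0) : A = 0 := by
  have h1 : ∀ x b D, τ (rk q x b) * A * τ D = 0 := fun x b =>
    mem_of_rk' hq (LinearMap.ker (LinearMap.mulLeft F (τ (rk q x b) * A) ∘ₗ τ.toLinearMap))
      fun a y => (fc_mul A b a x y).symm.trans (by rw [h, zero_mul])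
  simpa using mem_of_rk' hq (LinearMap.ker (LinearMap.mulRight F A ∘ₗ τ.toLinearMap))
    (fun x b => by simpa using h1 x b 1) 1

theorem fc_ext' (hq : QNondeg q) (h : ∀ b a, fc q τ A b a = fc q τ B b a) : A = B :=
  sub_eq_zero.1 (fc_ext (τ := τ) hq fun b a => by simp [h])

namespace GW

variable (G : GW q)
include G

theorem cancel (hc : CC τ c) (hx : x ≠ 0) (hy : y ≠ 0) (h : c * τ (rk q x y) = 0) : c = 0 :=
  eq_zero_of_mul_eq hc (G.rk_ne hx hy) h

theorem fc_eq (hc : CC τ c) (h : ∀ x y, τ (rk q x b) * A * τ (rk q a y) = c * τ (rk q x y)) :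
    fc q τ A b a = c := by
  obtain ⟨x, hx, -⟩ := G.iso
  exact sub_eq_zero.1 (G.cancel ((fc_cc A b a).sub hc) hx hx (by rw [sub_mul, fc_mul, h, sub_self]))

theorem fc_cmul (hc : CC τ c) (A : End F V) (b a : W) : fc q τ (c * A) b a = c * fc q τ A b a :=
  G.fc_eq (hc.mul (fc_cc _ _ _)) fun x y => by simp only [mul_assoc, fc_mul, hc.l]

theorem fc_mulc (hc : CC τ c) (A : End F V) (b a : W) : fc q τ (A * c) b a = fc q τ A b a * c :=
  G.fc_eq ((fc_cc _ _ _).mul hc) fun x y => by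
    rw [mul_assoc (fc q τ A b a), ← hc.r, ← mul_assoc (fc q τ A b a), fc_mul]
    simp only [mul_assoc, hc.r]

theorem fc_tmul (h : Adj q D D') (A : End F V) (b a : W) :
    fc q τ (τ D * A) b a = fc q τ A (D' b) a :=
  G.fc_eq (fc_cc _ _ _) fun x y => by rw [fc_mul, ← mul_assoc, ← map_mul, h.rk_mul]

theorem fc_mult (D : End F W) (A : End F V) (b a : W) :
    fc q τ (A * τ D) b a = fc q τ A b (D a) :=
  G.fc_eq (fc_cc _ _ _) fun x y => by
    rw [fc_mul, ← mul_assoc, mul_assoc _ (τ D), ← map_mul, mul_rk]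

theorem fc_c (hc : CC τ c) (b a : W) : fc q τ c b a = polar q b a • c :=
  G.fc_eq (hc.smul _) fun x y => by rw [hc.r, mul_assoc, t_mul]; simp

theorem fc_one (b a : W) : fc q τ 1 b a = polar q b a • 1 := G.fc_c cc_one b a

theorem fc_ct (hc : CC τ c) (D : End F W) (b a : W) :
    fc q τ (c * τ D) b a = polar q b (D a) • c := by rw [G.fc_mult, G.fc_c hc]

theorem fc_t (D : End F W) (b a : W) : fc q τ (τ D) b a = polar q b (D a) • 1 := by
  rw [← one_mul (τ D), G.fc_ct cc_one]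

theorem eq_ct (hc : CC τ c) (h : ∀ b a, fc q τ A b a = polar q b (D a) • c) : A = c * τ D :=
  fc_ext' G.nd fun b a => by rw [h, G.fc_ct hc]

theorem fc_cj (hg : CC τ (g : End F V)) (A : End F V) (b a : W) :
    fc q τ (cj g A) b a = cj g (fc q τ A b a) := by
  rw [cj_eq, G.fc_mulc hg.inv, G.fc_cmul hg, cj_eq]

theorem fc_comm (hk : CC τ k) (h : Commute k A) (b a : W) : Commute k (fc q τ A b a) := by
  change _ = _
  rw [← G.fc_cmul hk, h.eq, G.fc_mulc hk]

theorem fc_cc' (h : ∀ D E, Commute (τ' D) (τ E)) (hA : CC τ' A) (b a : W) :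
    CC τ' (fc q τ A b a) := fun E => (G.fc_comm (h E) (hA E).symm b a).symm

theorem fc_cjr (hβ : β ∈ orth q) (A : End F V) (b a : W) :
    fc q τ (cj (rU τ β) A) b a = fc q τ A (β⁻¹ b) (β⁻¹ a) := by
  rw [cj_eq, ← map_inv, rU_coe, rU_coe, G.fc_mult, G.fc_tmul (adj_isom hβ)]; rfl

theorem fc_adj (hQ : QNondeg Q) [FiniteDimensional F V] (h : AH Q q τ) (e : Adj Q A A') (b a : W) :
    Adj Q (fc q τ A b a) (fc q τ A' a b) := by
  obtain ⟨B, hB⟩ : ∃ B, Adj Q (fc q τ A b a) B :=
    ⟨hQ.adj _, fun x y => (hQ.B_adj' _ x y).symm⟩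
  have h1 : CC τ B := fun E => mem_of_rk' G.nd (((Subalgebra.centralizer F {B}).toSubmodule).comap
    τ.toLinearMap) (fun x y => by
      rintro _ rfl
      exact (hB.mul (h _ _ (adj_rk y x))).uniq hQ
        ((fc_cc A b a _).eq ▸ (h _ _ (adj_rk y x)).mul hB) |>.symm) E B rfl
  suffices fc q τ A' a b = B from this ▸ hB
  refine G.fc_eq h1 fun x y => ?_
  rw [← h1.r, mul_assoc]
  exact (((h _ _ (adj_rk y b)).mul e).mul (h _ _ (adj_rk a x))).uniq hQ
    (fc_mul A b a y x ▸ hB.mul (h _ _ (adj_rk y x)))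

omit G in
theorem sj_of_fc (h : AH Q q τ) (e : ∀ a b, fc q τ A b a = fc q τ A a b) :
    SJ q τ (polarBilin Q ∘ₗ A) := fun a b c x y => by
  have h1 : ∀ a b, polar Q (A (τ (rk q a c) x)) (τ (rk q b c) y) =
      polar Q ((fc q τ A b a * τ (rk q c c)) x) y := fun a b => by
    rw [fc_mul, ← h _ _ (adj_rk c b)]; rfl
  simp [h1, e a b]

theorem symm_of_sj {ι : Type*} [DecidableEq ι] [Finite ι] {ρ : ι → End F W →ₐ[F] End F V}
    {π : (ι → W) → V} (h1 : span F (Set.range π) = ⊤)
    (h2 : ∀ j D x, ρ j D (π x) = π (update x j (D (x j)))) {f : V →ₗ[F] V →ₗ[F] M}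
    (h : ∀ j, SJ q (ρ j) f) (x y : V) : f x y = f y x := by
  have := Fintype.ofFinite ι
  obtain ⟨w, w', e⟩ := G.ex_hp
  have a1 : ∀ j x y, f (π x) (π y) = f (π (update x j (y j))) (π (update y j (x j))) :=
    fun j x y => by simpa [h2, e.p] using h j (x j) (y j) w (π (update x j w')) (π (update y j w'))
  have a2 : ∀ (s : Finset ι) x y, f (π x) (π y) = f (π (s.piecewise y x)) (π (s.piecewise x y)) :=
    fun s x y => by
      induction s using Finset.induction with
      | empty => simp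
      | insert j s hj ih => rw [ih, a1 j]; simp [Finset.piecewise_insert, hj]
  exact LinearMap.congr_fun₂ (LinearMap.ext_on_range h1 fun x => LinearMap.ext_on_range h1
    fun y => by simpa using a2 Finset.univ x y : f = f.flip) x y

end GW

end H27.OW
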