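import Cfsg.Agent.H27.OW3

/-!
# Orthogonal tensor powers: unipotent radicals and Eichler-fixed elements
-/

set_option autoImplicit false
set_option maxHeartbeats 400000

namespace H27.OW

open Module H12 H13.KL QuadraticMap Submodule Function

variable {F : Type*} [Field F] {V W : Type*} [AddCommGroup V] [Module F V] [AddCommGroup W]
  [Module F W] {Q : QuadraticForm F V} {q : QuadraticForm F W} {τ τ' : End F W →ₐ[F] End F V}
  {A A' B c p n o : End F V} {D D' : End F W} {a b x y z w w' : W} {g k : V ≃ₗ[F] V}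
  {β : W ≃ₗ[F] W}

/-- Three orthogonal idempotents. -/
structure Idem (p o n : End F V) : Prop where
  pp : p * p = p
  nn : n * n = n
  pn : p * n = 0
  np : n * p = 0
  sum : o = 1 - p - n

namespace Idem

variable (h : Idem p o n)
include h

theorem po : p * o = 0 := by rw [h.sum, mul_sub, mul_sub, h.pp, h.pn]; simp

theorem op : o * p = 0 := by rw [h.sum, sub_mul, sub_mul, h.pp, h.np]; simp

theorem no : n * o = 0 := by rw [h.sum, mul_sub, mul_sub, h.nn, h.np]; simp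

theorem on' : o * n = 0 := by rw [h.sum, sub_mul, sub_mul, h.nn, h.pn]; simp

theorem oo : o * o = o := by
  conv_lhs => rw [h.sum]
  rw [sub_mul, sub_mul, ← h.sum, h.po, h.no]; simp

theorem mid (A B : End F V) : A * B = A * p * B + A * o * B + A * n * B := by
  rw [h.sum]; noncomm_ring

/-- The unipotent radical attached to the idempotents. -/
def QG : Subgroup (V ≃ₗ[F] V) where
  carrier := {g | (g : End F V) * p = p ∧ n * g = n ∧ o * g * o = o}
  one_mem' := ⟨one_mul _, mul_one _, by rw [coe_one', mul_one, h.oo]⟩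
  mul_mem' := fun {g k} ⟨a1, a2, a3⟩ ⟨b1, b2, b3⟩ => ⟨by rw [coe_mul', mul_assoc, b1, a1],
    by rw [coe_mul', ← mul_assoc, a2, b2], by
      rw [coe_mul', ← mul_assoc, mul_assoc (o * g), h.mid (o * g), mul_assoc o _ p, a1, h.op, a3,
        mul_assoc (o * g) n, ← mul_assoc n, b2, h.no, ← mul_assoc o, b3]; simp⟩
  inv_mem' := fun {g} ⟨a1, a2, a3⟩ => by
    have b1 : ((g⁻¹ : V ≃ₗ[F] V) : End F V) * p = p := by
      rw [← a1, ← mul_assoc, coe_inv_mul, one_mul, a1]
    have b2 : n * ((g⁻¹ : V ≃ₗ[F] V) : End F V) = n := by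
      rw [← a2, mul_assoc, coe_mul_inv, mul_one, a2]
    refine ⟨b1, b2, ?_⟩
    have := h.mid (o * (g⁻¹ : V ≃ₗ[F] V)) (g * o)
    rw [mul_assoc o _ p, b1, h.op, mul_assoc _ o, ← mul_assoc o _ o, a3, mul_assoc _ n,
      ← mul_assoc n, a2, h.no, mul_assoc o, ← mul_assoc _ _ o, coe_inv_mul, one_mul, h.oo] at this
    simpa using this.symm

theorem conj_mem (hg : g ∈ h.QG) (h1 : Commute (k : End F V) p) (h2 : Commute (k : End F V) n) :
    k * g * k⁻¹ ∈ h.QG := by
  have h3 : cj k o = o := by rw [h.sum, cj_sub', cj_sub', cj_one, cj_of_comm h1, cj_of_comm h2]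
  refine ⟨?_, ?_, ?_⟩ <;> rw [← cj_coe]
  · rw [← cj_of_comm h1, ← cj_mul', hg.1]
  · rw [← cj_of_comm h2, ← cj_mul', hg.2.1]
  · rw [← h3, ← cj_mul', ← cj_mul', hg.2.2]

theorem up_mul (hg : g ∈ h.QG) (hk : k ∈ h.QG) :
    p * (g * k : V ≃ₗ[F] V) * o = p * g * o + p * k * o := by
  rw [coe_mul', ← mul_assoc, mul_assoc (p * g), h.mid (p * g), mul_assoc p _ p, hg.1, h.pp,
    mul_assoc (p * g) n, ← mul_assoc n, hk.2.1, h.no, mul_assoc (p * g) o, ← mul_assoc o, hk.2.2,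
    mul_assoc p k]
  simp [add_comm]

theorem dn_mul (hg : g ∈ h.QG) (hk : k ∈ h.QG) :
    o * (g * k : V ≃ₗ[F] V) * n = o * g * n + o * k * n := by
  rw [coe_mul', ← mul_assoc, mul_assoc (o * g), h.mid (o * g), mul_assoc o _ p, hg.1, h.op,
    hg.2.2, mul_assoc (o * g) n, ← mul_assoc n, hk.2.1, h.nn, mul_assoc o k]
  simp [add_comm]

/-- The middle part of an element of the unipotent radical. -/
def mM (_ : Idem p o n) (g : V ≃ₗ[F] V) : End F V := p * g * o + o * g * n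

theorem mM_mul (hg : g ∈ h.QG) (hk : k ∈ h.QG) : h.mM (g * k) = h.mM g + h.mM k := by
  simp only [mM, h.up_mul hg hk, h.dn_mul hg hk]; abel

theorem mM_one : h.mM 1 = 0 := by rw [mM, coe_one', mul_one, mul_one, h.po, h.on', add_zero]

theorem mM_inv (hg : g ∈ h.QG) : h.mM g⁻¹ = -h.mM g :=
  eq_neg_of_add_eq_zero_left (by rw [← h.mM_mul (inv_mem hg) hg, inv_mul_cancel, h.mM_one])

theorem up_inv (hg : g ∈ h.QG) : p * (g⁻¹ : V ≃ₗ[F] V) * o = -(p * g * o) :=
  eq_neg_of_add_eq_zero_left (by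
    rw [← h.up_mul (inv_mem hg) hg, inv_mul_cancel, coe_one', mul_one, h.po])

theorem dn_inv (hg : g ∈ h.QG) : o * (g⁻¹ : V ≃ₗ[F] V) * n = -(o * g * n) :=
  eq_neg_of_add_eq_zero_left (by
    rw [← h.dn_mul (inv_mem hg) hg, inv_mul_cancel, coe_one', mul_one, h.on'])

theorem coe_eq (hg : g ∈ h.QG) : (g : End F V) = 1 + h.mM g + p * g * n := by
  have h1 := h.mid 1 (g * o)
  have h2 := h.mid 1 (g * n)
  have h3 := h.mid g 1
  simp only [one_mul, mul_one, ← mul_assoc, hg.1, hg.2.1, hg.2.2, h.no, h.nn] at h1 h2 h3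
  conv_lhs => rw [h3, h1, h2]
  rw [mM]
  linear_combination (norm := abel_nf) h.sum

theorem cj_mM (h1 : Commute (k : End F V) p) (h2 : Commute (k : End F V) n) (g : V ≃ₗ[F] V) :
    cj k (h.mM g) = h.mM (k * g * k⁻¹) := by
  have h3 : cj k o = o := by rw [h.sum, cj_sub', cj_sub', cj_one, cj_of_comm h1, cj_of_comm h2]
  simp only [mM, cj_add, cj_mul', cj_of_comm h1, cj_of_comm h2, h3, cj_coe]

theorem cj_up (h1 : Commute (k : End F V) p) (h2 : Commute (k : End F V) n) (g : V ≃ₗ[F] V) :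
    cj k (p * g * o) = p * (k * g * k⁻¹ : V ≃ₗ[F] V) * o := by
  have h3 : cj k o = o := by rw [h.sum, cj_sub', cj_sub', cj_one, cj_of_comm h1, cj_of_comm h2]
  simp only [cj_mul', cj_of_comm h1, h3, cj_coe]

theorem comm_mM (hg : g ∈ h.QG) (hk : k ∈ h.QG) (e : g * k = k * g) :
    Commute (h.mM g) (h.mM k) := by
  have a1 : ∀ g k : V ≃ₗ[F] V, h.mM g * (p * k * n) = 0 := fun g k => by
    simp [mM, add_mul, mul_assoc, ← mul_assoc o p, ← mul_assoc n p, h.op, h.np]
  have a2 : ∀ g k : V ≃ₗ[F] V, (p * k * n) * h.mM g = 0 := fun g k => by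
    simp [mM, mul_add, mul_assoc, ← mul_assoc n o, ← mul_assoc n p, h.no, h.np]
  have a3 : ∀ g k : V ≃ₗ[F] V, (p * k * n) * (p * g * n) = 0 := fun g k => by
    simp [mul_assoc, ← mul_assoc n p, h.np]
  have := congrArg (fun g : V ≃ₗ[F] V => (g : End F V)) e
  simp only [coe_mul'] at this
  rw [h.coe_eq hg, h.coe_eq hk] at this
  simp only [mul_add, add_mul, a1, a2, a3, one_mul, mul_one] at this
  change _ = _
  linear_combination (norm := abel_nf) this

theorem adj_up (h1 : Adj Q p n) (hg : g ∈ h.QG) (hg' : g ∈ orth Q) :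
    Adj Q (p * g * o) (-(o * g * n)) := by
  have h3 : Adj Q o o := by
    have := (adj_one.sub h1).sub h1.symm
    rwa [sub_right_comm 1 n, ← h.sum] at this
  rw [← h.dn_inv hg, mul_assoc o]
  exact (h1.mul (adj_isom hg')).mul h3

theorem adj_mM (h1 : Adj Q p n) (hg : g ∈ h.QG) (hg' : g ∈ orth Q) :
    Adj Q (h.mM g) (-h.mM g) := by
  have h2 := h.adj_up h1 hg hg'
  have := h2.add h2.symm.neg
  rwa [neg_neg, ← neg_add, add_comm (o * g * n)] at this

end Idem

theorem Hp.idem (h : Hp q w w') (τ : End F W →ₐ[F] End F V) :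
    Idem (τ (rk q w w')) (τ (pY q w w')) (τ (rk q w' w)) :=
  ⟨by simp [t_mul, h.p'], by simp [t_mul, h.p], by simp [t_mul, h.rr], by simp [t_mul, h.ll],
    by simp [pY]⟩

theorem Hp.pY_w (h : Hp q w w') : pY q w w' w = 0 := by simp [pY_apply, h.p', h.ll]

theorem Hp.pY_w' (h : Hp q w w') : pY q w w' w' = 0 := by simp [pY_apply, h.p, h.rr]

theorem Hp.mem_QG (h : Hp q w w') {N P : End F V} {s : F} (e : (g : End F V) = 1 + N)
    (hP : P = s • τ (rk q w w)) (hs : s ≠ 0) (h1 : N * P = 0) (h2 : P * N = 0)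
    (h3 : ∃ A B, N = P * A + B * P) : g ∈ (h.idem τ).QG := by
  subst hP
  have a1 := eq_zero_of_smul hs ((mul_smul_comm ..).symm.trans h1)
  have a2 := eq_zero_of_smul hs ((smul_mul_assoc ..).symm.trans h2)
  obtain ⟨A, B, h3⟩ := h3
  refine ⟨?_, ?_, ?_⟩
  · have : τ (rk q w w') = τ (rk q w w) * τ (rk q w' w') := by simp [t_mul, h.p]
    rw [e, add_mul, one_mul, this, ← mul_assoc, a1, zero_mul, add_zero]
  · have : τ (rk q w' w) = τ (rk q w' w') * τ (rk q w w) := by simp [t_mul, h.p']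
    rw [e, mul_add, mul_one, this, mul_assoc, a2, mul_zero, add_zero]
  · have b1 : τ (pY q w w') * τ (rk q w w) = 0 := by rw [← map_mul, mul_rk, h.pY_w]; simp
    have b2 : τ (rk q w w) * τ (pY q w w') = 0 := by
      rw [← map_mul, adj_pY.rk_mul, h.pY_w]; simp
    rw [e, mul_add, add_mul, mul_one, (h.idem τ).oo, h3]
    simp [mul_add, add_mul, mul_assoc, b2, ← mul_assoc (τ (pY q w w')) (τ (rk q w w)), b1]

theorem eE_QG (h : Hp q w w') {v v' : W} (h' : Hp q v v') {s : F} (hs : s ≠ 0)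
    (e : τ' (rk q v v) = s • τ (rk q w w)) (hz : polar q v z = 0) :
    rU τ' (eE q v z) ∈ (h.idem τ).QG := by
  have hz' : polar q z v = 0 := by rw [polar_comm, hz]
  refine h.mem_QG (N := τ' (nn q v z - q z • rk q v v)) (by
    rw [rU_coe, eE_coe h'.l hz, add_sub_assoc, map_add, map_one]) e hs ?_ ?_
    ⟨τ' (rk q v' z - q z • 1), -τ' (rk q z v'), ?_⟩
  · simp [nn_eq, sub_mul, t_mul, h'.ll, hz']
  · simp [nn_eq, mul_sub, t_mul, h'.ll, hz]
  · simp [nn_eq, mul_sub, t_mul, h'.p, h'.p']; abel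

theorem Hp.mM_eE (h : Hp q w w') (hz : z ∈ Ys q w w') :
    (h.idem τ).mM (rU τ (eE q w z)) = τ (nn q w z) := by
  rw [Idem.mM, rU_coe, ← map_mul, ← map_mul, ← map_mul, ← map_mul, ← map_add]
  congr 1
  ext x
  have := h.pY_mem x
  simp [h.e_y hz this, h.e_w' hz, h.p', Ys_r this, polar_pY hz, h.pY_w, h.pY_w', pY_of_mem hz,
    sub_eq_add_neg]

variable (q) in
/-- Minus one on the complement of a hyperbolic pair. -/
noncomputable def Hp.sY (h : Hp q w w') : W ≃ₗ[F] W :=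
  LinearEquiv.ofInvolutive (1 - (2 : F) • pY q w w' : End F W) fun x => by
    simp [pY_of_mem (h.pY_mem x)]; module

theorem Hp.sY_apply (h : Hp q w w') (x : W) : h.sY q x = x - (2 : F) • pY q w w' x := rfl

theorem Hp.sY_inv (h : Hp q w w') : (h.sY q)⁻¹ = h.sY q := rfl

theorem Hp.sY_w (h : Hp q w w') : h.sY q w = w := by simp [h.sY_apply, h.pY_w]

theorem Hp.sY_w' (h : Hp q w w') : h.sY q w' = w' := by simp [h.sY_apply, h.pY_w']

theorem Hp.sY_y (h : Hp q w w') (hy : y ∈ Ys q w w') : h.sY q y = -y := by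
  rw [h.sY_apply, pY_of_mem hy]; module

theorem Hp.sY_orth (h : Hp q w w') (h2 : (2 : F) ≠ 0) : h.sY q ∈ orth q :=
  mem_orth_of_polar h2 fun x y => by
    simp [h.sY_apply, polar_pY (h.pY_mem x), adj_pY x y]
    ring

variable [FiniteDimensional F W]

namespace GW

variable (G : GW q)
include G

theorem fc_mid (A B : End F V) (a c b x : W) :
    fc q τ (A * τ (rk q a c) * B) b x = fc q τ A b a * fc q τ B c x := by
  obtain ⟨u, u', e⟩ := G.ex_hp
  refine G.fc_eq ((fc_cc _ _ _).mul (fc_cc _ _ _)) fun y z => ?_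
  have h1 : τ (rk q a c) = τ (rk q a u) * τ (rk q u' c) := by simp [t_mul, e.p]
  have h2 : τ (rk q y z) = τ (rk q y u) * τ (rk q u' z) := by simp [t_mul, e.p]
  rw [h2, mul_assoc (fc q τ A b a), ← mul_assoc (fc q τ B c x), ← (fc_cc B c x).r,
    mul_assoc (τ (rk q y u)), fc_mul, ← mul_assoc (fc q τ A b a), fc_mul, h1]
  simp only [mul_assoc]

theorem fc_fc (h : ∀ D E, Commute (τ' D) (τ E)) (A : End F V) (x y b a : W) :
    fc q τ' (fc q τ A x y) b a = fc q τ (fc q τ' A b a) x y :=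
  G.fc_eq (G.fc_cc' h (fc_cc _ _ _) _ _) fun u v => by
    rw [← G.fc_cmul (h _), ← G.fc_mulc (h _), ← fc_mul, G.fc_mulc (h _)]

theorem ce_mod (h : Hp q w w') (e : ∀ z ∈ Ys q w w', CC τ (cj (rU τ (eE q w z)) A - A)) :
    CE q (fc q τ A) w w' :=
  (G.ce h (c := fun z => cj (rU τ (eE q w (-z))) A - A) fun z hz b a => by
    rw [← G.fc_c (e _ (neg_mem hz)), map_sub, LinearMap.sub_apply, LinearMap.sub_apply,
      G.fc_cjr (eE_orth _ _), eE_neg h.l (Ys_l hz), inv_inv, add_sub_cancel]).1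

theorem ce_of_comm (h : Hp q w w') (e : ∀ z ∈ Ys q w w', cj (rU τ (eE q w z)) A = A) :
    CE q (fc q τ A) w w' := G.ce_mod h fun z hz => by rw [e z hz, sub_self]; exact cc_zero

theorem eE_pow [Finite F] (hw : q w = 0) (hz : polar q w z = 0) : eE q w z ^ ringChar F = 1 := by
  rw [← eE_nsmul hw hz, ← Nat.cast_smul_eq_nsmul F, ringChar.Nat.cast_ringChar, zero_smul, eE_zero]

theorem fixmod [Finite F] (h : Hp q w w') {J : AddSubgroup (End F V)}
    (hJ : ∀ z ∈ Ys q w w', ∀ A ∈ J, cj (rU τ (eE q w z)) A ∈ J) (hA : A ∈ J) (hn : ¬ CC τ A) :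
    ∃ A ∈ J, ¬ CC τ A ∧ CE q (fc q τ A) w w' := by
  have : Finite W := Module.finite_of_finite F
  have := Fintype.ofFinite (Ys q w w')
  obtain ⟨B, h1, h2, h3⟩ := exists_fix (κ := Ys q w w')
    (f := fun z A => cj (rU τ (eE q w z)) A - A) (J := J) (Jc := {A | CC τ A})
    (fun i j x => by
      simp only [cj_sub', ← H12.cj_cj, ← map_mul, ← eE_add h.l (Ys_l i.2) (Ys_l j.2),
        ← eE_add h.l (Ys_l j.2) (Ys_l i.2), add_comm i.1]; abel)
    (fun i x => ⟨_, by
      rw [cj_nil (by rw [← map_pow, G.eE_pow h.l (Ys_l i.2), map_one])]; exact cc_zero⟩)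
    (fun i x hx => sub_mem (hJ i i.2 x hx) hx)
    (fun i x hx => by rw [CC.cj_r hx, sub_self]; exact cc_zero) hA hn Finset.univ
  exact ⟨B, h1, h2, G.ce_mod h fun z hz => h3 ⟨z, hz⟩ (Finset.mem_univ _)⟩

theorem ce_eq (h : Hp q w w') (e : CE q (fc q τ A) w w')
    (h1 : ∀ a ∈ Ys q w w', q a ≠ 0 → fc q τ A w' a = 0) :
    A = fc q τ A w' w + fc q τ A w' w' * τ (rk q w w) :=
  fc_ext' (τ := τ) G.nd fun b a => by
    rw [e.expand h, G.Ys_zero h h1 (h.pY_mem a), G.Ys_zero h h1 (h.pY_mem b)]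
    simp [G.fc_c (fc_cc _ _ _), G.fc_ct (fc_cc _ _ _), polar_comm q b w, mul_comm]

theorem ce_refl (h : Hp q w w') (e : CE q (fc q τ A) w w') (ha : a ∈ Ys q w w') :
    A - cj (rU τ (rE q a)) A = ((q a)⁻¹ • fc q τ A w' a) * τ (nn q w a) :=
  G.eq_ct ((fc_cc _ _ _).smul _) fun b x => by
    rw [map_sub, LinearMap.sub_apply, LinearMap.sub_apply, G.fc_cjr (rE_orth a), rE_inv,
      e.expand h (rE q a b), isom_polar (rE_orth a), e.expand h b]
    simp only [rE_apply, map_sub, map_smul, pY_of_mem ha, polar_sub_right, polar_smul_right,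
      Ys_l ha, nn_apply, smul_eq_mul, polar_comm q b w, polar_comm q b a]
    module

end GW

end H27.OW
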