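import Cfsg.Agent.H27.OW4

/-!
# Orthogonal tensor powers: frames, and the abelian unipotent radical
-/

set_option autoImplicit false
set_option maxHeartbeats 400000

namespace H27.OW

open Module H12 H13.KL QuadraticMap Submodule Function

variable {F : Type*} [Field F] {V W : Type*} [AddCommGroup V] [Module F V] [AddCommGroup W]
  [Module F W] {Q : QuadraticForm F V} {q : QuadraticForm F W} {τ τ' : End F W →ₐ[F] End F V}
  {A B M M' S : End F V} {a c y z w w' : W} {g k : V ≃ₗ[F] V} {β : W ≃ₗ[F] W}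
  {ι : Type*} [DecidableEq ι] {ρ : ι → End F W →ₐ[F] End F V} {π : (ι → W) → V}
  {X : Subgroup (V ≃ₗ[F] V)} {j m l : ι} {s : Set ι}

variable (q X τ) in
/-- No central elements in the unipotent radicals. -/
def Z0 : Prop := ∀ w, w ≠ 0 → q w = 0 → ∀ S, CC τ S → ∀ g ∈ X,
  (g : End F V) = 1 + S * τ (rk q w w) → S = 0

variable (q X τ) in
/-- The unipotent radicals meet `X` in the Eichler groups. -/
def RE : Prop := ∀ w w' (h : Hp q w w'), ∀ g ∈ X, g ∈ (h.idem τ).QG →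
  ∃ y ∈ Ys q w w', g = rU τ (eE q w y)

variable (Q q X τ) in
/-- The unipotent radicals lie in `X`. -/
def Full : Prop := ∀ w w' (h : Hp q w w'), ∀ g ∈ orth Q, g ∈ (h.idem τ).QG → g ∈ X

variable (X τ) in
/-- The middle parts of the elements of a unipotent radical. -/
def mG (h : Hp q w w') : AddSubgroup (End F V) where
  carrier := {M | ∃ g ∈ X, g ∈ (h.idem τ).QG ∧ (h.idem τ).mM g = M}
  zero_mem' := ⟨1, one_mem _, one_mem _, Idem.mM_one _⟩
  add_mem' := by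
    rintro _ _ ⟨g, a, b, rfl⟩ ⟨k, c, d, rfl⟩
    exact ⟨g * k, mul_mem a c, mul_mem b d, Idem.mM_mul _ b d⟩
  neg_mem' := by
    rintro _ ⟨g, a, b, rfl⟩
    exact ⟨g⁻¹, inv_mem a, inv_mem b, Idem.mM_inv _ b⟩

theorem mG_conj {h : Hp q w w'} (hM : M ∈ mG τ X h) (hk : k ∈ X)
    (h1 : Commute (k : End F V) (τ (rk q w w'))) (h2 : Commute (k : End F V) (τ (rk q w' w))) :
    cj k M ∈ mG τ X h := by
  obtain ⟨g, a, b, rfl⟩ := hM
  exact ⟨_, mul_mem (mul_mem hk a) (inv_mem hk), Idem.conj_mem _ b h1 h2,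
    (Idem.cj_mM _ h1 h2 g).symm⟩

theorem mG_adj {h : Hp q w w'} (hM : M ∈ mG τ X h) (hX : X ≤ orth Q) (ha : AH Q q τ) :
    Adj Q M (-M) := by
  obtain ⟨g, a, b, rfl⟩ := hM
  exact Idem.adj_mM _ (ha _ _ (adj_rk _ _)) b (hX a)

theorem comm_rU (hβ : β ∈ orth q) {x y : W} (h1 : β x = x) (h2 : β y = y) :
    Commute (rU τ β : End F V) (τ (rk q x y)) :=
  comm_of_cj (by rw [cj_rU, cj_rk hβ, h1, h2])

theorem mul_cj_eq_zero (h : A * cj g B = 0) : A * g * B = 0 := by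
  have := congrArg (· * (g : End F V)) h
  simpa only [cj_eq, mul_assoc, coe_inv_mul, mul_one, zero_mul] using this

variable (q ρ s) in
/-- The group generated by the factors outside `s`. -/
def KK : Subgroup (V ≃ₗ[F] V) :=
  Subgroup.closure {g | ∃ l ∉ s, ∃ β ∈ OmegaV q, g = rU (ρ l) β}

theorem rU_mem_KK (hl : l ∉ s) (hβ : β ∈ OmegaV q) : rU (ρ l) β ∈ KK q ρ s :=
  Subgroup.subset_closure ⟨l, hl, β, hβ, rfl⟩

theorem KK_cc (h : Fam ρ) (hk : k ∈ KK q ρ s) (hj : j ∈ s) : CC (ρ j) (k : End F V) := by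
  induction hk using Subgroup.closure_induction with
  | mem x hx => obtain ⟨l, a, β, -, rfl⟩ := hx; exact h.comm l j (by rintro rfl; exact a hj) β
  | one => exact cc_one
  | mul x y _ _ a b => exact a.mul b
  | inv x _ a => exact a.inv

variable (Q q ρ π X) in
/-- A tensor power frame together with an overgroup of its stabiliser. -/
structure Fr : Prop extends Fam ρ where
  gw : GW q
  nd : QNondeg Q
  nt : Nontrivial V
  ah : ∀ j, AH Q q (ρ j)
  span : span F (Set.range π) = ⊤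
  act : ∀ j D x, ρ j D (π x) = π (update x j (D (x j)))
  le : X ≤ orth Q
  om : ∀ j, ∀ β ∈ OmegaV q, rU (ρ j) β ∈ X
  pr : ∀ j m, j ≠ m → ∀ β ∈ orth q, rU (ρ j) β * rU (ρ m) β⁻¹ ∈ X
  cyc : ∀ j m l, j ≠ m → m ≠ l → j ≠ l →
    ∃ c ∈ X, (∀ D, cj c (ρ j D) = ρ m D) ∧ ∀ D, cj c (ρ m D) = ρ l D
  iso : ∀ i j, ∃ c : V ≃ₗ[F] V, ∀ D, cj c (ρ i D) = ρ j D

variable [FiniteDimensional F W]

theorem pgn (h : Hp q w w') (A : End F V) :
    τ (rk q w w') * A * τ (rk q w' w) = fc q τ A w' w' * τ (rk q w w) := (fc_mul ..).symm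

theorem Z0.eq_one (hz : Z0 q τ X) {h : Hp q w w'} (h1 : g ∈ X) (h2 : g ∈ (h.idem τ).QG)
    (h3 : (h.idem τ).mM g = 0) : g = 1 := by
  have h4 := Idem.coe_eq _ h2
  rw [h3, add_zero, pgn h] at h4
  rw [hz w h.ne h.l _ (fc_cc _ _ _) g h1 h4, zero_mul, add_zero] at h4
  exact LinearEquiv.toLinearMap_injective h4

theorem Z0.comm (hz : Z0 q τ X) {h : Hp q w w'} (hM : M ∈ mG τ X h) (hM' : M' ∈ mG τ X h) :
    Commute M M' := by
  obtain ⟨g, a, b, rfl⟩ := hM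
  obtain ⟨k, c, d, rfl⟩ := hM'
  refine Idem.comm_mM _ b d (mul_inv_eq_one.1 (hz.eq_one (h := h) (mul_mem (mul_mem a c)
    (inv_mem (mul_mem c a))) (mul_mem (mul_mem b d) (inv_mem (mul_mem d b))) ?_))
  rw [Idem.mM_mul _ (mul_mem b d) (inv_mem (mul_mem d b)), Idem.mM_inv _ (mul_mem d b),
    Idem.mM_mul _ b d, Idem.mM_mul _ d b]
  abel

namespace GW

variable (G : GW q)
include G

theorem span_om {N : Submodule F (End F W)} (h : ∀ β ∈ OmegaV q, (β : End F W) ∈ N)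
    (D : End F W) : D ∈ N := by
  let S : Submonoid (End F W) :=
    { carrier := {D | ∃ β ∈ OmegaV q, (β : End F W) = D}
      one_mem' := ⟨1, one_mem _, rfl⟩
      mul_mem' := by rintro _ _ ⟨a, b, rfl⟩ ⟨c, d, rfl⟩; exact ⟨a * c, mul_mem b d, rfl⟩ }
  have := G.genR le_rfl (Algebra.adjoin F S) (fun β hβ => Algebra.subset_adjoin ⟨β, hβ, rfl⟩) D
  rw [← Subalgebra.mem_toSubmodule, Algebra.adjoin_eq_span, Submonoid.closure_eq] at this
  exact span_le.2 (by rintro _ ⟨β, a, rfl⟩; exact h β a) this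

theorem mG_fc {h : Hp q w w'} (hM : M ∈ mG τ X h) (b a : W) : fc q τ M b a =
    polar q w b • fc q τ M w' (pY q w w' a) + polar q w a • fc q τ M (pY q w w' b) w' := by
  obtain ⟨g, -, -, rfl⟩ := hM
  simp [Idem.mM, G.fc_mult, G.fc_tmul (adj_rk _ _), G.fc_tmul adj_pY, h.p, h.pY_w',
    pY_of_mem (h.pY_mem _), Ys_l (h.pY_mem _)]

theorem ce_sY (h : Hp q w w') (e : CE q (fc q τ A) w w') :
    let B := A - cj (rU τ (h.sY q)) A
    CE q (fc q τ B) w w' ∧ fc q τ B w' w = 0 ∧ fc q τ B w' w' = 0 ∧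
      ∀ y ∈ Ys q w w', fc q τ B w' y = (2 : F) • fc q τ A w' y := by
  have h1 : ∀ b a, fc q τ (A - cj (rU τ (h.sY q)) A) b a =
      fc q τ A b a - fc q τ A (h.sY q b) (h.sY q a) := fun b a => by
    simp [G.fc_cjr (h.sY_orth G.two), h.sY_inv]
  refine ⟨⟨?_, fun y hy => ?_, fun y hy => ?_, ?_, fun y hy z hz => ?_, fun y hy => ?_⟩, ?_, ?_,
    fun y hy => ?_⟩ <;> simp only [h1, h.sY_w, h.sY_w']
  · simp
  · simp [h.sY_y hy, e.wy y hy]
  · simp [h.sY_y hy, e.yw y hy]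
  · simp
  · simp [h.sY_y hy, h.sY_y hz]
  · simp [h.sY_y hy, e.yw' y hy]; abel
  · simp
  · simp
  · simp [h.sY_y hy, two_smul]

end GW

namespace Fr

variable (H : Fr Q q ρ π X)
include H

omit [FiniteDimensional F W] in
theorem cc (h : l ≠ j) (D : End F W) : CC (ρ j) (ρ l D) := H.comm l j h D

omit [FiniteDimensional F W] in
theorem KK_le : KK q ρ s ≤ X :=
  (Subgroup.closure_le _).2 (by rintro _ ⟨l, -, β, a, rfl⟩; exact H.om l β a)

theorem prime (hB : ∀ l ∈ s, CC (ρ l) B) (h : ∀ k ∈ KK q ρ s, A * k * B = 0) (h0 : B ≠ 0) :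
    A = 0 := by
  obtain ⟨x, hx⟩ := DFunLike.ne_iff.1 h0
  let T : Set V := {x | ∃ k ∈ KK q ρ s, ∃ y, k (B y) = x}
  have h1 : Submodule.span F T ≤ LinearMap.ker A := span_le.2 (by
    rintro _ ⟨k, hk, x, rfl⟩; exact LinearMap.congr_fun (h k hk) x)
  refine LinearMap.ext fun z => h1 (H.irr (Y := Submodule.span F T) (H.gw.genR le_rfl)
    (fun j β hβ => ?_) (subset_span (show B x ∈ T from ⟨1, one_mem _, x, rfl⟩)) hx z)
  have h2 : Submodule.span F T ≤ (Submodule.span F T).comap (ρ j β) := span_le.2 (by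
    rintro _ ⟨k, hk, x, rfl⟩
    by_cases hj : j ∈ s
    · exact subset_span ⟨k, hk, ρ j β x,
        LinearMap.congr_fun (((KK_cc H.toFam hk hj).mul (hB j hj)) β).eq x⟩
    · exact subset_span ⟨_, mul_mem (rU_mem_KK hj hβ) hk, x, rfl⟩)
  exact h2

theorem eE_mem (j : ι) (hw : q w = 0) (hz : polar q w z = 0) : rU (ρ j) (eE q w z) ∈ X :=
  H.om j _ (H.gw.eE_mem hw hz)

theorem nn_mem (h : Hp q w w') (hz : z ∈ Ys q w w') : ρ j (nn q w z) ∈ mG (ρ j) X h :=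
  ⟨_, H.eE_mem j h.l (Ys_l hz), eE_QG h h one_ne_zero (one_smul ..).symm (Ys_l hz), h.mM_eE hz⟩

variable [FiniteDimensional F V] (hz : Z0 q (ρ j) X) {h : Hp q w w'} (hM : M ∈ mG (ρ j) X h)
include hz hM

theorem psi (hy : y ∈ Ys q w w') : fc q (ρ j) M y w' = -fc q (ρ j) M w' y := by
  have := congrArg (fun A => fc q (ρ j) A w' w') (hz.comm hM (H.nn_mem h hy)).eq
  simpa [H.gw.fc_mult, H.gw.fc_tmul (adj_nn _ _), Ys_r' hy, h.p, eq_comm] using this

theorem cj_sY : cj (rU (ρ j) (h.sY q)) M = -M :=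
  fc_ext' (τ := ρ j) H.gw.nd fun b a => by
    rw [H.gw.fc_cjr (h.sY_orth H.gw.two), h.sY_inv, H.gw.mG_fc hM, map_neg, LinearMap.neg_apply,
      LinearMap.neg_apply, H.gw.mG_fc hM b a]
    simp [h.sY_apply, pY_of_mem (h.pY_mem _), Ys_l (h.pY_mem _)]
    module

theorem caseP (hm : m ≠ j) (e : CE q (fc q (ρ m) M) w w')
    (h0 : ∀ a ∈ Ys q w w', q a ≠ 0 → fc q (ρ m) M w' a = 0) : fc q (ρ m) M w' w' = 0 := by
  have G := H.gw
  have e1 := G.ce_eq h e h0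
  have c1 := fc_cc (q := q) (τ := ρ m) M w' w
  have c2 := fc_cc (q := q) (τ := ρ m) M w' w'
  have a1 := G.fc_adj H.nd (H.ah m) (mG_adj hM H.le (H.ah j)) w' w'
  rw [map_neg, LinearMap.neg_apply, LinearMap.neg_apply] at a1
  have a2 : ∀ b a, fc q (ρ j) (fc q (ρ m) M w' w') b a = fc q (ρ m) (fc q (ρ j) M b a) w' w' :=
    fun b a => G.fc_fc (H.comm j m hm.symm) _ _ _ _ _
  generalize fc q (ρ m) M w' w = M₁ at *
  generalize fc q (ρ m) M w' w' = M₂ at *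
  obtain ⟨ω, b1, t, b2, b3⟩ := G.weyl h
  obtain ⟨z, b4, b5⟩ := G.ex_aniso h
  have key : ∀ β ∈ orth q, β w = w → β w' = w' → ∀ k ∈ KK q ρ {j, m},
      M₂ * ρ j β * k * M₂ = 0 := fun β d1 d2 d3 k hk => by
    have k1 := KK_cc H.toFam hk (j := j) (by simp)
    have k2 := KK_cc H.toFam hk (j := m) (by simp)
    have d4 : β⁻¹ w = w := by rw [← d2, inv_apply_apply, d2]
    have d5 := (hz.comm hM (mG_conj (mG_conj (mG_conj hM (H.KK_le hk) (k1 _) (k1 _))
      (H.pr j m hm.symm β d1) ((comm_rU d1 d2 d3).mul_left (H.cc hm _ _))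
      ((comm_rU d1 d3 d2).mul_left (H.cc hm _ _))) (H.om m ω b1) (H.cc hm _ _) (H.cc hm _ _))).eq
    have d6 : CC (ρ m) (rU (ρ j) β * k : V ≃ₗ[F] V) := (H.cc hm.symm _).mul k2
    have d7 : ∀ A, CC (ρ m) A → cj (rU (ρ m) ω) (cj (rU (ρ j) β * rU (ρ m) β⁻¹) (cj k A)) =
        cj (rU (ρ j) β * k) A := fun A hA => by
      rw [H12.cj_cj, (hA.conj k2).cj_r, ← H12.cj_cj (rU (ρ j) β), (hA.conj d6).cj_r]
    have d8 : cj (rU (ρ m) ω) (cj (rU (ρ j) β * rU (ρ m) β⁻¹) (cj k M)) = cj (rU (ρ j) β * k) M₁ +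
        cj (rU (ρ j) β * k) M₂ * ρ m (rk q (t • w') (t • w')) := by
      rw [e1]
      simp only [cj_add, cj_mul', d7 _ c1, d7 _ c2]
      rw [k2.cj_t, H12.cj_cj (rU (ρ j) β) (rU (ρ m) β⁻¹), cj_rU, cj_rk (inv_mem d1), d4, CC.cj_t (H.cc hm.symm _), cj_rU,
        cj_rk (OmegaV_le b1), b3]
    rw [d8] at d5
    have c3 := c1.conj d6
    have c4 := c2.conj d6
    have d9 : M₂ * cj (rU (ρ j) β * k) M₂ = 0 := by
      generalize cj (rU (ρ j) β * k) M₁ = M₃ at *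
      generalize cj (rU (ρ j) β * k) M₂ = M₄ at *
      have f1 := congrArg (fun A => fc q (ρ m) A z z) d5
      have f2 := congrArg (fun A => fc q (ρ m) A w' w) d5
      rw [e1] at f1 f2
      simp only [mul_add, add_mul, mul_assoc, c1.r, c3.r, c2.l, c4.l, map_add, LinearMap.add_apply,
        G.fc_cmul c1, G.fc_cmul c2, G.fc_cmul c3, G.fc_cmul c4, G.fc_c c1, G.fc_c c3, ← map_mul,
        G.fc_t] at f1 f2
      simp [Ys_l b4, Ys_r b4, polar_self', b5, G.two] at f1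
      simpa [h.p, h.p', h.ll, h.rr, f1, b2] using f2
    simpa only [coe_mul', rU_coe, mul_assoc] using mul_cj_eq_zero d9
  have h1 : ∀ a ∈ Ys q w w', q a ≠ 0 → fc q (ρ j) M₂ w' a = 0 := fun a ha ha' => by
    have d1 := G.fc_adj H.nd (H.ah j) a1 w' a
    by_contra d2
    refine d2 (H.prime (s := {j, m}) (B := fc q (ρ j) M₂ a w') ?_ (fun k hk => ?_) fun d3 => d2 ?_)
    · rintro l (rfl | rfl)
      · exact fc_cc _ _ _
      · exact G.fc_cc' (H.comm l j hm) c2 _ _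
    · have d3 := key 1 (one_mem _) rfl rfl k hk
      have d4 := key _ (rE_orth a) (rE_of_orth (Ys_l' ha)) (rE_of_orth (Ys_r' ha)) k hk
      rw [coe_one', map_one, mul_one] at d3
      rw [rE_coe, map_sub, map_one, map_smul, mul_sub, sub_mul, sub_mul, mul_one, d3, zero_sub,
        neg_eq_zero, mul_smul_comm, smul_mul_assoc, smul_mul_assoc, mul_assoc _ _ M₂] at d4
      have := congrArg (fun A => fc q (ρ j) A w' w') (eq_zero_of_smul (inv_ne_zero ha') d4)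
      rw [G.fc_mid, G.fc_cmul (KK_cc H.toFam hk (j := j) (by simp)), ← mul_assoc] at this
      simpa using this
    · simp only [map_neg, LinearMap.neg_apply, d3, neg_zero] at d1
      exact d1.symm.uniq H.nd fun x y => by simp
  refine fc_ext (τ := ρ j) G.nd fun b a => ?_
  have h2 : ∀ y ∈ Ys q w w', fc q (ρ m) (fc q (ρ j) M w' y) w' w' = 0 := fun y hy => by
    rw [← a2]; exact G.Ys_zero h h1 hy
  rw [a2, G.mG_fc hM, H.psi hz hM (h.pY_mem b)]
  simp [h2 _ (h.pY_mem _)]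

theorem caseN (hm : m ≠ j) (e : CE q (fc q (ρ m) M) w w') (h1 : fc q (ρ m) M w' w = 0)
    (hc : c ∈ Ys q w w') (hc' : q c ≠ 0) : fc q (ρ m) M w' c = 0 := by
  have G := H.gw
  have cm := H.comm m j hm
  have a0 : M * ρ m (rk q w w) = 0 := fc_ext (τ := ρ m) G.nd fun b a => by
    simp [G.fc_mult, e.expand h b, h1, h.pY_w, h.ll]
  have key : ∀ l, l ≠ j → l ≠ m → ∀ β ∈ orth q, β w = w → β w' = w' → ∀ γ ∈ orth q, γ w' = w →
      ∀ k ∈ KK q ρ {j, m}, M * ρ j β * (ρ m γ * k * M * ρ m (rk q w' w')) = 0 :=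
    fun l l1 l2 β d1 d2 d3 γ d4 d5 k hk => by
      have k1 := KK_cc H.toFam hk (j := j) (by simp)
      have k2 := KK_cc H.toFam hk (j := m) (by simp)
      have := G.span_om (N := LinearMap.ker (LinearMap.mulLeft F (M * ρ j β * ρ m γ *
        ρ l (β⁻¹ * γ⁻¹ : W ≃ₗ[F] W)) ∘ₗ LinearMap.mulRight F (k * M * ρ m (rk q w' w')) ∘ₗ
          (ρ l).toLinearMap)) (fun ω hω => ?_) (γ * β : W ≃ₗ[F] W)
      · simp only [LinearMap.mem_ker, LinearMap.comp_apply, LinearMap.mulLeft_apply,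
          LinearMap.mulRight_apply, AlgHom.toLinearMap_apply] at this
        rw [mul_assoc, ← mul_assoc (ρ l _), ← map_mul, ← coe_mul', ← mul_inv_rev, inv_mul_cancel,
          coe_one', map_one, one_mul] at this
        simpa only [mul_assoc] using this
      have c1 : CC (ρ j) (rU (ρ m) γ * rU (ρ l) γ⁻¹ * (rU (ρ l) ω * k) : V ≃ₗ[F] V) :=
        ((H.cc hm _).mul (H.cc l1 _)).mul ((H.cc l1 _).mul k1)
      have d6 := (hz.comm hM (mG_conj (k := rU (ρ j) β * rU (ρ l) β⁻¹ * (rU (ρ m) γ * rU (ρ l) γ⁻¹ *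
        (rU (ρ l) ω * k))) hM (mul_mem (H.pr j l l1.symm β d1) (mul_mem (H.pr m l l2.symm γ d4)
          (mul_mem (H.om l ω hω) (H.KK_le hk))))
        (((comm_rU d1 d2 d3).mul_left (H.cc l1 _ _)).mul_left (c1 _))
        (((comm_rU d1 d3 d2).mul_left (H.cc l1 _ _)).mul_left (c1 _)))).eq
      have d7 : cj (rU (ρ j) β * rU (ρ l) β⁻¹ * (rU (ρ m) γ * rU (ρ l) γ⁻¹ * (rU (ρ l) ω * k)))
          (ρ m (rk q w' w')) = ρ m (rk q w w) := by
        simp only [H12.cj_cj]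
        rw [k2.cj_t, CC.cj_t (H.cc l2 _), CC.cj_t (H.cc l2 _), cj_rU, cj_rk d4, d5,
          CC.cj_t (H.cc l2 _), CC.cj_t (H.cc hm.symm _)]
      have d8 := congrArg (· * ρ m (rk q w w)) d6
      rw [mul_assoc _ M, a0, mul_zero, mul_assoc, ← d7, ← cj_mul'] at d8
      simpa only [coe_mul', rU_coe, mul_assoc, map_mul, (H.cc l2 _).l, LinearMap.mem_ker,
        LinearMap.comp_apply, LinearMap.mulLeft_apply, LinearMap.mulRight_apply,
        AlgHom.toLinearMap_apply] using mul_cj_eq_zero d8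
  have h2 : ∀ a ∈ Ys q w w', q a ≠ 0 → fc q (ρ m) (fc q (ρ j) M w' a) w' c = 0 := fun a ha ha' => by
    have d1 := G.fc_adj H.nd (H.ah m) (G.fc_adj H.nd (H.ah j) (mG_adj hM H.le (H.ah j)) w' a) w' c
    have d2 : fc q (ρ m) (fc q (ρ j) M a w') c w' = fc q (ρ m) (fc q (ρ j) M w' a) w' c := by
      rw [H.psi hz hM ha, map_neg, LinearMap.neg_apply, LinearMap.neg_apply, G.fc_fc cm,
        G.fc_fc cm, e.yw' c hc]; simp
    simp only [map_neg, LinearMap.neg_apply, d2] at d1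
    have d3 : ∀ l ∈ ({j, m} : Set ι), CC (ρ l) (fc q (ρ m) (fc q (ρ j) M w' a) w' c) := by
      rintro l (rfl | rfl)
      · exact G.fc_cc' (H.comm l m hm.symm) (fc_cc _ _ _) _ _
      · exact fc_cc _ _ _
    by_contra d0
    by_cases hl : ∀ l, l ∈ ({j, m} : Set ι)
    · obtain ⟨t, ht⟩ := H.scalar fun l => d3 l (hl l)
      rw [ht] at d1 d0
      exact d0 (skew_scalar G.two H.nd d1)
    obtain ⟨l, hl⟩ := not_forall.1 hl
    simp only [Set.mem_insert_iff, Set.mem_singleton_iff, not_or] at hl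
    refine d0 (H.prime d3 (fun k hk => ?_) d0)
    have k1 := KK_cc H.toFam hk (j := j) (by simp)
    have k2 := KK_cc H.toFam hk (j := m) (by simp)
    have f1 : ∀ γ ∈ orth q, γ w' = w → fc q (ρ j) M w' a *
        (ρ m γ * (k * fc q (ρ j) M a w' * ρ m (rk q w' w'))) = 0 := fun γ b1 b2 => by
      have d4 := key l hl.1 hl.2 1 (one_mem _) rfl rfl γ b1 b2 k hk
      have d5 := key l hl.1 hl.2 _ (rE_orth a) (rE_of_orth (Ys_l' ha)) (rE_of_orth (Ys_r' ha))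
        γ b1 b2 k hk
      rw [coe_one', map_one, mul_one] at d4
      rw [rE_coe, map_sub, map_one, map_smul, mul_sub, sub_mul, mul_one, d4, zero_sub,
        neg_eq_zero, mul_smul_comm, smul_mul_assoc] at d5
      have := congrArg (fun A => fc q (ρ j) A w' w') (eq_zero_of_smul (inv_ne_zero ha') d5)
      rw [G.fc_mid, G.fc_mulc (H.cc hm _), G.fc_cmul ((H.cc hm _).mul k1)] at this
      simpa [mul_assoc] using this
    have r1 : rE q (w - (1 : F) • w') w' = w := by simpa using h.r_w' one_ne_zero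
    have d4 := f1 _ (rE_orth _) r1
    have d5 := f1 _ (mul_mem (rE_orth _) (rE_orth c)) (by
      rw [LinearEquiv.mul_apply, rE_of_orth (Ys_r' hc), r1])
    rw [coe_mul', rE_coe c, mul_sub, mul_one, mul_smul_comm, mul_rk, LinearEquiv.coe_coe, r_y _ hc,
      map_sub, sub_mul, mul_sub, d4, zero_sub, neg_eq_zero, map_smul, smul_mul_assoc,
      mul_smul_comm, ← mul_assoc] at d5
    have := congrArg (fun A => fc q (ρ m) A w' w) (eq_zero_of_smul (inv_ne_zero hc') d5)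
    rw [G.fc_mid, G.fc_mult, G.fc_cmul k2] at this
    simpa [h.p', d2, mul_assoc] using this
  have h3 : ∀ y ∈ Ys q w w', fc q (ρ j) (fc q (ρ m) M w' c) w' y = 0 := fun y =>
    G.Ys_zero h fun a ha ha' => by rw [← G.fc_fc cm, h2 a ha ha']
  refine fc_ext (τ := ρ j) G.nd fun b a => ?_
  rw [← G.fc_fc cm, G.mG_fc hM, H.psi hz hM (h.pY_mem b)]
  simp [G.fc_fc cm, h3 _ (h.pY_mem _)]

omit hM in
theorem mG_cc [Finite F] (hm : m ≠ j) (hM : M ∈ mG (ρ j) X h) : CC (ρ m) M := by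
  have G := H.gw
  by_contra hn
  obtain ⟨M, h1, h2, h3⟩ := G.fixmod h (fun z hz A hA =>
    mG_conj hA (H.eE_mem m h.l (Ys_l hz)) (H.cc hm _ _) (H.cc hm _ _)) hM hn
  have s1 := h.sY_orth G.two
  have h4 := add_mem h1 (mG_conj h1 (H.pr m j hm _ s1)
    ((H.cc hm _ _).mul_left (comm_rU (inv_mem s1) h.sY_w h.sY_w'))
    ((H.cc hm _ _).mul_left (comm_rU (inv_mem s1) h.sY_w' h.sY_w)))
  rw [H12.cj_cj, h.sY_inv, H.cj_sY hz h1, cj_neg, ← sub_eq_add_neg] at h4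
  obtain ⟨a1, a2, -, a3⟩ := G.ce_sY h h3
  have h5 : ∀ a ∈ Ys q w w', q a ≠ 0 → fc q (ρ m) M w' a = 0 := fun a ha ha' =>
    eq_zero_of_smul G.two ((a3 a ha).symm.trans (H.caseN hz h4 hm a1 a2 ha ha'))
  have h6 := G.ce_eq h h3 h5
  rw [H.caseP hz h1 hm h3 h5, zero_mul, add_zero] at h6
  exact h2 (h6 ▸ fc_cc _ _ _)

omit hM in
theorem re_of_z0 [Finite F] : RE q (ρ j) X := fun w w' h g h1 h2 => by
  have G := H.gw
  have := H.nt
  have hM : (h.idem (ρ j)).mM g ∈ mG (ρ j) X h := ⟨g, h1, h2, rfl⟩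
  obtain ⟨ξ, hξ⟩ := exists_dual_one (F := F) (one_ne_zero (α := End F V))
  obtain ⟨y, hy⟩ := G.nd.exists_rep (ξ ∘ₗ fc q (ρ j) ((h.idem (ρ j)).mM g) w' ∘ₗ pY q w w')
  replace hy : ∀ x, polar q y x = ξ (fc q (ρ j) ((h.idem (ρ j)).mM g) w' (pY q w w' x)) := hy
  have h3 : y ∈ Ys q w w' := ⟨(polar_comm ..).trans (by simp [hy, h.pY_w]),
    (polar_comm ..).trans (by simp [hy, h.pY_w'])⟩
  have h4 : ∀ x, fc q (ρ j) ((h.idem (ρ j)).mM g) w' (pY q w w' x) = polar q y x • 1 := fun x => by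
    obtain ⟨t, ht⟩ := H.scalar (A := fc q (ρ j) ((h.idem (ρ j)).mM g) w' (pY q w w' x)) fun l => by
      by_cases e : l = j
      · exact e ▸ fc_cc _ _ _
      · exact G.fc_cc' (H.comm l j e) (H.mG_cc hz e hM) _ _
    simp [hy, ht, hξ]
  have h5 := eE_QG (τ := ρ j) h h one_ne_zero (one_smul ..).symm (Ys_l h3)
  refine ⟨y, h3, mul_inv_eq_one.1 (hz.eq_one (h := h) (mul_mem h1 (inv_mem
    (H.eE_mem j h.l (Ys_l h3)))) (mul_mem h2 (inv_mem h5)) ?_)⟩
  rw [Idem.mM_mul _ h2 (inv_mem h5), Idem.mM_inv _ h5, h.mM_eE h3, add_neg_eq_zero]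
  refine fc_ext' (τ := ρ j) G.nd fun b a => ?_
  rw [G.mG_fc hM, H.psi hz hM (h.pY_mem b), h4, h4, G.fc_t]
  simp [polar_comm q b, sub_smul, smul_smul, mul_comm, sub_eq_add_neg, add_smul]

end Fr

end H27.OW
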