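import Cfsg.Agent.H27.OW5

/-!
# Orthogonal tensor powers: central elements force the full unipotent radical
-/

set_option autoImplicit false
set_option maxHeartbeats 400000

namespace H27.OW

open Module H12 H13.KL QuadraticMap Submodule Function

variable {F : Type*} [Field F] {V W : Type*} [AddCommGroup V] [Module F V] [AddCommGroup W]
  [Module F W] {Q : QuadraticForm F V} {q : QuadraticForm F W} {τ τ' : End F W →ₐ[F] End F V}
  {A A' B D M M' S p o n p' o' n' : End F V} {a c y z w w' : W} {g k : V ≃ₗ[F] V} {β : W ≃ₗ[F] W}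
  {ι : Type*} [DecidableEq ι] {ρ : ι → End F W →ₐ[F] End F V} {π : (ι → W) → V}
  {X : Subgroup (V ≃ₗ[F] V)} {j m l : ι} {s : Set ι}

theorem Idem.conj_mem' (h : Idem p o n) (h' : Idem p' o' n') (hg : g ∈ h.QG) (h1 : cj k p = p')
    (h2 : cj k n = n') : k * g * k⁻¹ ∈ h'.QG := by
  have h3 : cj k o = o' := by rw [h.sum, h'.sum, cj_sub', cj_sub', cj_one, h1, h2]
  refine ⟨?_, ?_, ?_⟩ <;> rw [← cj_coe]
  · rw [← h1, ← cj_mul', hg.1]
  · rw [← h2, ← cj_mul', hg.2.1]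
  · rw [← h3, ← cj_mul', ← cj_mul', hg.2.2]

theorem Idem.coe_comm (h : Idem p o n) (hg : g ∈ h.QG) (hk : k ∈ h.QG) :
    ((g * k * g⁻¹ * k⁻¹ : V ≃ₗ[F] V) : End F V) = 1 + (h.mM g * h.mM k - h.mM k * h.mM g) := by
  have a1 : ∀ g k : V ≃ₗ[F] V, h.mM g * (p * k * n) = 0 := fun g k => by
    simp [Idem.mM, add_mul, mul_assoc, ← mul_assoc o p, ← mul_assoc n p, h.op, h.np]
  have a2 : ∀ g k : V ≃ₗ[F] V, (p * k * n) * h.mM g = 0 := fun g k => by
    simp [Idem.mM, mul_add, mul_assoc, ← mul_assoc n o, ← mul_assoc n p, h.no, h.np]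
  have a3 : ∀ g k : V ≃ₗ[F] V, (p * k * n) * (p * g * n) = 0 := fun g k => by
    simp [mul_assoc, ← mul_assoc n p, h.np]
  have a4 : ∀ g k : V ≃ₗ[F] V, h.mM g * h.mM k = p * g * o * o * k * n := fun g k => by
    simp [Idem.mM, mul_add, add_mul, mul_assoc, ← mul_assoc n o, ← mul_assoc n p, h.no, h.np,
      ← mul_assoc o p, h.op]
  have a5 : (g : End F V) * k = k * g + (h.mM g * h.mM k - h.mM k * h.mM g) := by
    rw [h.coe_eq hg, h.coe_eq hk]
    simp only [mul_add, add_mul, a1, a2, a3, one_mul, mul_one]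
    abel
  rw [coe_mul', coe_mul', coe_mul', a5, add_mul, add_mul, mul_assoc _ (g : End F V), coe_mul_inv,
    mul_one, coe_mul_inv, a4, a4]
  simp only [sub_mul, mul_assoc, (inv_mem hg).2.1, (inv_mem hk).2.1]

theorem coe_inv_eq (h : (g : End F V) * B = 1) : ((g⁻¹ : V ≃ₗ[F] V) : End F V) = B := by
  rw [← one_mul B, ← coe_inv_mul g, mul_assoc, h, mul_one]

theorem coe_inv_zG (hw : q w = 0) (hS : CC τ S) (e : (g : End F V) = 1 + S * τ (rk q w w)) :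
    ((g⁻¹ : V ≃ₗ[F] V) : End F V) = 1 + -S * τ (rk q w w) :=
  coe_inv_eq (by simp [e, mul_add, add_mul, mul_assoc, hS.l, t_mul, polar_self', hw])

variable (q X τ) in
/-- The coefficients of the central elements of a unipotent radical. -/
def zG (hw : q w = 0) : AddSubgroup (End F V) where
  carrier := {S | CC τ S ∧ ∃ g ∈ X, (g : End F V) = 1 + S * τ (rk q w w)}
  zero_mem' := ⟨cc_zero, 1, one_mem _, by rw [coe_one', zero_mul, add_zero]⟩
  add_mem' := by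
    rintro S S' ⟨a, g, b, c⟩ ⟨a', g', b', c'⟩
    exact ⟨a.add a', g * g', mul_mem b b', by
      simp [coe_mul', c, c', mul_add, add_mul, mul_assoc, a'.l, t_mul, polar_self', hw]; abel⟩
  neg_mem' := by
    rintro S ⟨a, g, b, c⟩
    exact ⟨a.neg, g⁻¹, inv_mem b, coe_inv_zG hw a c⟩

theorem zG_conj {hw : q w = 0} (h : S ∈ zG q τ X hw) (hk : k ∈ X)
    (h1 : cj k (τ (rk q w w)) = τ (rk q w w)) (h2 : CC τ (cj k S)) : cj k S ∈ zG q τ X hw :=
  let ⟨_, g, b, c⟩ := h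
  ⟨h2, _, mul_mem (mul_mem hk b) (inv_mem hk), by rw [← cj_coe, c, cj_add, cj_one, cj_mul', h1]⟩

variable (X τ) in
/-- The coefficients of the pure elements of a unipotent radical. -/
def qS (h : Hp q w w') : Submodule F (End F V) where
  carrier := {A | CC τ A ∧ ∀ y ∈ Ys q w w', ∃ g ∈ X, g ∈ (h.idem τ).QG ∧
    τ (rk q w w') * g * τ (pY q w w') = A * τ (rk q w y)}
  zero_mem' := ⟨cc_zero, fun y _ => ⟨1, one_mem _, one_mem _, by
    rw [coe_one', mul_one, (h.idem τ).po, zero_mul]⟩⟩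
  add_mem' a b := ⟨a.1.add b.1, fun y hy => by
    obtain ⟨g, a1, a2, a3⟩ := a.2 y hy
    obtain ⟨k, b1, b2, b3⟩ := b.2 y hy
    exact ⟨g * k, mul_mem a1 b1, mul_mem a2 b2, by rw [Idem.up_mul _ a2 b2, a3, b3, add_mul]⟩⟩
  smul_mem' c _ a := ⟨a.1.smul c, fun y hy => by simpa using a.2 _ (smul_mem _ c hy)⟩

theorem qS_conj {h : Hp q w w'} (hA : A ∈ qS τ X h) (hk : k ∈ X) (hβ : β ∈ orth q) (h1 : β w = w)
    (h2 : β w' = w') (e : ∀ D, cj k (τ D) = τ (cj β D)) : cj k A ∈ qS τ X h := by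
  have c1 : ∀ x y, β x = x → β y = y → Commute (k : End F V) (τ (rk q x y)) := fun x y a b =>
    comm_of_cj (by rw [e, cj_rk hβ, a, b])
  refine ⟨fun E => ?_, fun y hy => ?_⟩
  · rw [← cj_cj_inv β E, ← e]; exact H12.Commute.cj (hA.1 _) k
  obtain ⟨g, a1, a2, a3⟩ := hA.2 (β⁻¹ y) (mem_Ys.2 ⟨by
    rw [← isom_polar hβ, apply_inv_apply, h1, Ys_l hy], by
    rw [← isom_polar hβ, apply_inv_apply, h2, Ys_r hy]⟩)
  exact ⟨_, mul_mem (mul_mem hk a1) (inv_mem hk), Idem.conj_mem _ a2 (c1 _ _ h1 h2) (c1 _ _ h2 h1),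
    by rw [← Idem.cj_up (h.idem τ) (c1 _ _ h1 h2) (c1 _ _ h2 h1), a3, cj_mul', e, cj_rk hβ, h1,
      apply_inv_apply]⟩

variable (X τ) in
/-- The multiplier algebra. -/
def mI (h : Hp q w w') : Subalgebra F (End F V) where
  carrier := {D | CC τ D ∧ ∀ A ∈ qS τ X h, D * A ∈ qS τ X h}
  mul_mem' a b := ⟨a.1.mul b.1, fun A hA => by rw [mul_assoc]; exact a.2 _ (b.2 A hA)⟩
  add_mem' a b := ⟨a.1.add b.1, fun A hA => by rw [add_mul]; exact add_mem (a.2 A hA) (b.2 A hA)⟩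
  algebraMap_mem' c := ⟨fun E => Algebra.commutes c _, fun A hA => by
    rw [← Algebra.smul_def]; exact smul_mem _ c hA⟩

theorem mI_conj {h : Hp q w w'} (hD : D ∈ mI τ X h) (hk : k ∈ X) (hβ : β ∈ orth q) (h1 : β w = w)
    (h2 : β w' = w') (e : ∀ D, cj k (τ D) = τ (cj β D)) : cj k D ∈ mI τ X h :=
  ⟨fun E => by rw [← cj_cj_inv β E, ← e]; exact H12.Commute.cj (hD.1 _) k, fun A hA => by
    rw [← cj_cj_inv k A, ← cj_mul']
    exact qS_conj (hD.2 _ (qS_conj hA (inv_mem hk) (inv_mem hβ)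
      (by rw [← h1, inv_apply_apply, h1]) (by rw [← h2, inv_apply_apply, h2]) fun D => by
        rw [← cj_cj_inv β D, ← e, cj_inv_cj, cj_inv_cj])) hk hβ h1 h2 e⟩

theorem mem_mI (h : Hp q w w') (hD : CC τ D) (hg : g ∈ X)
    (e : (g : End F V) = 1 + D * τ (nn q w w')) : D ∈ mI τ X h := ⟨hD, fun A hA => by
  have c1 : Commute (g : End F V) (τ (rk q w w')) := by
    change _ = _; simp [e, add_mul, mul_add, mul_assoc, hD.l, nn_eq, mul_sub, sub_mul, t_mul,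
      h.p, h.p', h.ll, h.rr]
  have c2 : Commute (g : End F V) (τ (rk q w' w)) := by
    change _ = _; simp [e, add_mul, mul_add, mul_assoc, hD.l, nn_eq, mul_sub, sub_mul, t_mul,
      h.p, h.p', h.ll, h.rr]
  suffices A + D * A ∈ qS τ X h by simpa using sub_mem this hA
  refine ⟨hA.1.add (hD.mul hA.1), fun y hy => ?_⟩
  obtain ⟨k, a1, a2, a3⟩ := hA.2 y hy
  refine ⟨_, mul_mem (mul_mem hg a1) (inv_mem hg), Idem.conj_mem _ a2 c1 c2, ?_⟩
  have c3 : τ (rk q w y) * g = τ (rk q w y) := by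
    simp [e, mul_add, hD.l, nn_eq, mul_sub, t_mul, Ys_l' hy, Ys_r' hy]
  rw [← Idem.cj_up (h.idem τ) c1 c2, a3, cj_eq, ← c3, mul_assoc, mul_assoc, mul_assoc, coe_mul_inv,
    mul_one, c3, e]
  simp [add_mul, mul_assoc, hA.1.l, nn_eq, sub_mul, t_mul, h.p', h.ll]⟩

variable (q) in
/-- The group generated by `Ω` and the stabiliser of a pair. -/
def RP (w w' : W) : Subgroup (W ≃ₗ[F] W) where
  carrier := {β | ∃ ω ∈ OmegaV q, ∃ γ ∈ orth q, γ w = w ∧ γ w' = w' ∧ β = ω * γ}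
  one_mem' := ⟨1, one_mem _, 1, one_mem _, rfl, rfl, rfl⟩
  mul_mem' := by
    rintro _ _ ⟨ω, a, γ, b, c, d, rfl⟩ ⟨ω', a', γ', b', c', d', rfl⟩
    exact ⟨_, mul_mem a (conj_mem_om b a'), γ * γ', mul_mem b b', by simp [c, c'],
      by simp [d, d'], by group⟩
  inv_mem' := by
    rintro _ ⟨ω, a, γ, b, c, d, rfl⟩
    exact ⟨_, conj_mem_om (inv_mem b) (inv_mem a), γ⁻¹, inv_mem b,
      by rw [← c, inv_apply_apply, c], by rw [← d, inv_apply_apply, d], by group⟩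

theorem om_le_RP : OmegaV q ≤ RP q w w' := fun ω a => ⟨ω, a, 1, one_mem _, rfl, rfl, rfl⟩

variable [FiniteDimensional F W]

theorem GW.extr [Finite F] (G : GW q) (hρ : Fam ρ) (h : Hp q w w') :
    Extr ρ (RP q w w') {N | ∃ v, v ≠ 0 ∧ q v = 0 ∧ N = rk q v v} := fun j J h1 h2 A hA hn => by
  obtain ⟨A, a1, a2, a3⟩ := G.fixmod h (J := J.toAddSubgroup)
    (fun z hz => h1 j _ (om_le_RP (G.eE_mem h.l (Ys_l hz)))) hA hn
  refine ⟨_, ⟨w, h.ne, h.l, rfl⟩, ?_⟩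
  by_cases e : ∀ a ∈ Ys q w w', q a ≠ 0 → fc q (ρ j) A w' a = 0
  · have e1 := G.ce_eq h a3 e
    have c1 := fc_cc (q := q) (τ := ρ j) A w' w
    have c2 := fc_cc (q := q) (τ := ρ j) A w' w'
    generalize fc q (ρ j) A w' w = M₁ at *
    generalize fc q (ρ j) A w' w' = M₂ at *
    refine ⟨M₂, ⟨c2, ?_⟩, by rintro rfl; exact a2 (by simpa [e1] using c1)⟩
    obtain ⟨ω, b1, t, b2, b3⟩ := G.weyl h
    have b4 : ∀ z ∈ Ys q w w', M₁ + (t * t) • (M₂ * ρ j (rk q (w' - z - q z • w)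
        (w' - z - q z • w))) ∈ J := fun z hz => by
      have b5 := mul_mem (G.eE_mem h.l (Ys_l hz)) b1
      have := h1 j _ (om_le_RP b5) A a1
      rwa [e1, cj_add, cj_mul', c1.cj_r, c2.cj_r, cj_rU, cj_rk (OmegaV_le b5),
        LinearEquiv.mul_apply, b3, map_smul (eE q w z), h.e_w' hz, map_smul (rk q), map_smul,
        LinearMap.smul_apply, smul_smul, map_smul, mul_smul_comm] at this
    refine G.quartic h (N := J.comap (LinearMap.mulLeft F M₂ ∘ₗ (ρ j).toLinearMap))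
      (f := rk q - (polarBilin q).compr₂
        (LinearMap.toSpanSingleton F _ ((2 : F)⁻¹ • (rk q w w' + rk q w' w)))) fun z hz => ?_
    refine mem_of_smul (c := 2 * (t * t)) (by simp [b2, G.two]) ?_
    have := G.two
    convert sub_mem (add_mem (b4 z hz) (b4 _ (neg_mem hz))) (smul_mem _ (2 : F) (b4 0 (zero_mem _)))
      using 1
    simp only [mem_comap, LinearMap.comp_apply, LinearMap.mulLeft_apply, AlgHom.toLinearMap_apply,
      map_smul, map_add, map_sub, map_neg, LinearMap.sub_apply, LinearMap.neg_apply,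
      LinearMap.smul_apply, LinearMap.compr₂_apply, polarBilin_apply_apply, polar_self',
      LinearMap.toSpanSingleton_apply, QuadraticMap.map_neg, QuadraticMap.map_zero, map_zero,
      mul_add, mul_sub, mul_smul_comm, mul_neg, sub_zero, zero_smul]
    congr! 1
    match_scalars <;> field_simp <;> ring
  · push Not at e
    obtain ⟨a, b1, b2, b3⟩ := e
    have b4 : (q a)⁻¹ • fc q (ρ j) A w' a ∈ Jd (ρ j) (nn q w a) J := ⟨(fc_cc _ _ _).smul _, by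
      rw [← G.ce_refl h a3 b1]
      exact sub_mem a1 (h1 j _ ⟨1, one_mem _, _, rE_orth a, rE_of_orth (Ys_l' b1),
        rE_of_orth (Ys_r' b1), (one_mul _).symm⟩ A a1)⟩
    have b5 := smul_ne_zero (inv_ne_zero b2) b3
    obtain ⟨B, b6, b7⟩ := hρ.mul_ne (G.genR om_le_RP) (h1.Jd hρ j _) b5 b4 b5
    have := Jd_smul (Jd_mul h2 b4 b6) (-polar q a a)⁻¹
    rw [nn_mul_nn h.l (Ys_l b1) (Ys_l b1), inv_smul_smul₀ (by simp [polar_self', b2, G.two])] at this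
    exact ⟨_, this, b7⟩

theorem GW.not_cc (G : GW q) (h : Hp q w w') (hA : CC τ A) (h0 : A ≠ 0) :
    ¬ CC τ (A * τ (rk q w w)) := fun e => h0 (by
  have := congrArg (fun A => fc q τ A w' w) (e (rk q w' w')).eq
  simpa [G.fc_mult, G.fc_tmul (adj_rk _ _), G.fc_c hA, h.p, h.p', h.ll] using this)

theorem GW.adj_zG [FiniteDimensional F V] (G : GW q) (hQ : QNondeg Q) (ha : AH Q q τ)
    (h : Hp q w w') (hS : CC τ S) (hg : g ∈ orth Q) (e : (g : End F V) = 1 + S * τ (rk q w w)) :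
    Adj Q S (-S) := by
  simpa [e, coe_inv_zG h.l hS e, G.fc_one, G.fc_ct hS, h.p, h.p', h.rr] using G.fc_adj hQ ha (adj_isom hg) w' w'

theorem one_qS (h : Hp q w w') (hX : ∀ y ∈ Ys q w w', rU τ (eE q w y) ∈ X) : 1 ∈ qS τ X h :=
  ⟨cc_one, fun y hy => ⟨_, hX y hy, eE_QG h h one_ne_zero (one_smul ..).symm (Ys_l hy), by
    rw [rU_coe, ← map_mul, ← map_mul, one_mul]
    congr 1
    ext x
    simp [h.e_y hy (h.pY_mem x), h.p', Ys_r (h.pY_mem x), polar_pY hy]⟩⟩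

theorem GW.comm_zG (G : GW q) (hQ : QNondeg Q) (ha : AH Q q τ) (hX : X ≤ orth Q) (h : Hp q w w')
    (hE : ∀ y ∈ Ys q w w', rU τ (eE q w y) ∈ X) (hA : A ∈ qS τ X h) (e : Adj Q A A')
    (hA' : CC τ A') : A - A' ∈ zG q τ X h.l := by
  obtain ⟨y, h1, h2⟩ := G.ex_aniso h
  obtain ⟨g, a1, a2, a3⟩ := hA.2 y h1
  have h3 := smul_mem _ (-(2 * q y)⁻¹) h1
  have h4 := eE_QG (τ := τ) h h one_ne_zero (one_smul ..).symm (Ys_l h3)
  have a4 := (Idem.adj_up _ (ha _ _ (adj_rk _ _)) a2 (hX a1)).uniq hQ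
    (a3 ▸ e.mul (ha _ _ (adj_rk w y)))
  refine ⟨hA.1.sub hA', _, mul_mem (mul_mem (mul_mem a1 (hE _ h3)) (inv_mem a1))
    (inv_mem (hE _ h3)), ?_⟩
  rw [Idem.coe_comm _ a2 h4, h.mM_eE h3, Idem.mM, a3, neg_eq_iff_eq_neg.1 a4]
  have := G.two
  simp only [hA'.r, nn_eq, map_sub, map_smul, LinearMap.smul_apply, add_mul, mul_add, mul_sub,
    sub_mul, neg_mul, mul_neg, mul_assoc, hA.1.l, hA'.l, t_mul, mul_smul_comm, smul_mul_assoc,
    Ys_l h1, Ys_l' h1, h.ll, polar_self' q y, zero_smul, mul_zero, smul_zero]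
  match_scalars <;> field_simp <;> ring

variable (q ρ) in
/-- The Eichler groups of the other factors. -/
def SU (j : ι) (w w' : W) : Set (V ≃ₗ[F] V) :=
  {g | ∃ l ≠ j, ∃ z ∈ Ys q w w', g = rU (ρ l) (eE q w z)}

namespace Fr

variable (H : Fr Q q ρ π X) [Finite ι]
include H

theorem skew_zero (h : Hp q w w') (hS : Adj Q S (-S)) (h1 : CC (ρ j) S)
    (h2 : ∀ l ≠ j, CE q (fc q (ρ l) S) w w' ∧ ∀ a ∈ Ys q w w', q a ≠ 0 → fc q (ρ l) S w' a = 0) :
    S = 0 := by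
  have G := H.gw
  have h3 := G.symm_of_sj H.span H.act (f := polarBilin Q ∘ₗ S) fun l => GW.sj_of_fc (H.ah l)
    fun a b => by
      by_cases e : l = j
      · rw [e, G.fc_c h1, G.fc_c h1, polar_comm]
      · rw [G.ce_eq h (h2 l e).1 (h2 l e).2]
        simp [G.fc_c (fc_cc _ _ _), G.fc_ct (fc_cc _ _ _), polar_comm q a, polar_comm q b w, mul_comm]
  have h4 : Adj Q S S := fun x y => (h3 x y).trans (polar_comm ..)
  exact eq_zero_of_smul G.two (by rw [two_smul]; nth_rw 1 [h4.uniq H.nd hS]; simp)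

variable [Finite F] [FiniteDimensional F V]

omit [Finite ι] in
theorem fix_ne (h : Hp q w w') {T : Set (End F V)} (h4 : ∀ s ∈ SU q ρ j w w', ∀ A ∈ T, cj s A ∈ T)
    (h0 : 0 ∈ T) (hp : ringChar F ∣ Nat.card T) : ∃ A ∈ T, A ≠ 0 ∧
      ∀ l ≠ j, ∀ z ∈ Ys q w w', cj (rU (ρ l) (eE q w z)) A = A := by
  have : Finite V := Module.finite_of_finite F
  obtain ⟨A, a, b, c⟩ := exists_fix_ne (S := SU q ρ j w w') (by
    rintro _ ⟨l, -, z, hz, rfl⟩
    rw [← map_pow, H.gw.eE_pow h.l (Ys_l hz), map_one]) (by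
    rintro _ ⟨l, -, z, hz, rfl⟩ _ ⟨l', -, z', hz', rfl⟩
    by_cases e : l = l'
    · subst e
      change _ = _
      rw [← map_mul, ← map_mul, ← eE_add h.l (Ys_l hz) (Ys_l hz'), add_comm,
        eE_add h.l (Ys_l hz') (Ys_l hz)]
    · exact LinearEquiv.toLinearMap_injective (H.comm l l' e _ _).eq) (by
    rintro _ ⟨l, hl, z, hz, rfl⟩
    exact ⟨l, hl, -z, neg_mem hz, by rw [eE_neg h.l (Ys_l hz), map_inv]⟩) h4 h0 hp
  exact ⟨A, a, b, fun l hl z hz => c _ ⟨l, hl, z, hz, rfl⟩⟩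

theorem pure (h : Hp q w w') (hS : S ∈ zG q (ρ j) X h.l) (h0 : S ≠ 0) : ∃ m ≠ j, ∃ b, b ≠ 0 ∧
    CC (ρ j) b ∧ CC (ρ m) b ∧ b * ρ m (nn q w w') ∈ zG q (ρ j) X h.l := by
  have G := H.gw
  have := Fact.mk (CharP.char_is_prime F (ringChar F))
  have c1 : ∀ l ≠ j, ∀ β ∈ OmegaV q, ∀ A ∈ zG q (ρ j) X h.l,
      cj (rU (ρ l) β) A ∈ zG q (ρ j) X h.l := fun l hl β hβ A hA =>
    zG_conj hA (H.om l β hβ) (CC.cj_t (H.cc hl _) _) (hA.1.conj (H.cc hl _))
  obtain ⟨S, a1, a2, a3⟩ := H.fix_ne (j := j) h (T := zG q (ρ j) X h.l) (by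
    rintro _ ⟨l, hl, z, hz, rfl⟩; exact c1 l hl _ (G.eE_mem h.l (Ys_l hz))) (zero_mem _) (by
    rw [← addOrderOf_eq_prime (p := ringChar F) (x := (⟨S, hS⟩ : zG q (ρ j) X h.l)) (Subtype.ext (by
      simp [← Nat.cast_smul_eq_nsmul F])) (by simpa using h0)]
    exact addOrderOf_dvd_natCard _)
  obtain ⟨g, b1, b2⟩ := a1.2
  by_cases e : ∀ l ≠ j, ∀ a ∈ Ys q w w', q a ≠ 0 → fc q (ρ l) S w' a = 0
  · exact absurd (H.skew_zero h (G.adj_zG H.nd (H.ah j) h a1.1 (H.le b1) b2) a1.1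
      fun l hl => ⟨G.ce_of_comm h (a3 l hl), e l hl⟩) a2
  push Not at e
  obtain ⟨m, hm, a, b3, b4, b5⟩ := e
  have c2 : CC (ρ j) (fc q (ρ m) S w' a) := G.fc_cc' (H.comm j m hm.symm) a1.1 _ _
  have c3 := (fc_cc (q := q) (τ := ρ m) S w' a).smul (q a)⁻¹
  have b6 : cj (rU (ρ j) (rE q a) * rU (ρ m) (rE q a)⁻¹) S = cj (rU (ρ m) (rE q a)) S := by
    rw [H12.cj_cj, rE_inv, (a1.1.conj (H.cc hm _)).cj_r]
  have b7 := sub_mem a1 (zG_conj a1 (H.pr j m hm.symm _ (rE_orth a)) (by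
    rw [H12.cj_cj, CC.cj_t (H.cc hm _), cj_rU, cj_rk (rE_orth a), rE_of_orth (Ys_l' b3)])
    (b6 ▸ a1.1.conj (H.cc hm _)))
  rw [b6, G.ce_refl h (G.ce_of_comm h (a3 m hm)) b3] at b7
  have b8 := sub_mem (c1 m hm _ (G.eE_mem h.r (Ys_r b3)) _ b7)
    (c1 m hm _ (G.eE_mem h.r (Ys_r (neg_mem b3))) _ b7)
  refine ⟨m, hm, (2 * 2 : F) • fc q (ρ m) S w' a, smul_ne_zero (mul_ne_zero G.two G.two) b5,
    c2.smul _, (fc_cc _ _ _).smul _, ?_⟩
  convert b8 using 1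
  simp only [cj_mul', c3.cj_r, cj_rU, cj_nn (eE_orth _ _), h.symm.e_w' (Ys_symm b3),
    h.symm.e_w' (Ys_symm (neg_mem b3)), h.symm.e_y (Ys_symm b3) (Ys_symm b3),
    h.symm.e_y (Ys_symm (neg_mem b3)) (Ys_symm b3)]
  rw [← mul_sub, ← map_sub, smul_mul_assoc, smul_mul_assoc, ← mul_smul_comm, ← mul_smul_comm,
    ← map_smul, ← map_smul]
  congr 2
  simp only [nn_eq, map_add, map_sub, map_smul, map_neg, LinearMap.add_apply, LinearMap.sub_apply,
    LinearMap.smul_apply, LinearMap.neg_apply, polar_neg_left, polar_self', QuadraticMap.map_neg]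
  match_scalars <;> (try field_simp) <;> ring

omit [Finite F] [Finite ι] [FiniteDimensional F V] [FiniteDimensional F W] in
theorem inv_mI (h : Hp q w w') : Inv ρ (RP q w w') (mI (ρ m) X h).toSubmodule := by
  rintro l _ ⟨ω, a, γ, b, c, d, rfl⟩ D hD
  by_cases e : l = m
  · rwa [e, CC.cj_r hD.1]
  have := mI_conj (mI_conj hD (H.pr l m e γ b) (inv_mem b) (by rw [← c, inv_apply_apply, c])
    (by rw [← d, inv_apply_apply, d]) fun D => by rw [H12.cj_cj, cj_rU, CC.cj_t (H.cc e _)])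
    (H.om l ω a) (one_mem _) rfl rfl fun D => CC.cj_t (H.cc e _) _
  rwa [H12.cj_cj (rU (ρ l) γ), CC.cj_r hD.1, ← H12.cj_cj, ← map_mul] at this

theorem full_of (h : Hp q w w') (hS : S ∈ zG q (ρ j) X h.l) (h0 : S ≠ 0) :
    ∃ m, Full Q q (ρ m) X := by
  have G := H.gw
  have := G.nt
  obtain ⟨m, hm, b, b1, b2, b3, -, g, b4, b5⟩ := H.pure h hS h0
  have c0 := fun l D hD h1 => H.all_mem (G.wd om_le_RP) (G.extr H.toFam h) (H.inv_mI (m := m) h)
    (fun A hA B hB => (mI (ρ m) X h).mul_mem hA hB) (j := l) (A := D) hD h1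
  have hE := fun y (hy : y ∈ Ys q w w') => H.eE_mem m h.l (Ys_l hy)
  have c1 : ∀ E, ρ j E ∈ mI (ρ m) X h := c0 j _ (mem_mI h (b3.mul (H.cc hm.symm _)) b4
    (by rw [b5, mul_assoc, mul_assoc, (H.comm m j hm _ _).eq])) (G.not_cc h b2 b1)
  have c2 : ∀ D ∈ mI (ρ m) X h, D ∈ qS (ρ m) X h := fun D hD => by
    simpa using hD.2 1 (one_qS h hE)
  have c3 : ∀ A, CC (ρ m) A → A ∈ qS (ρ m) X h := fun A hA => c2 A (H.mem_of_comm m _
    (fun l hl => by
      by_cases e : l = j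
      · exact e ▸ c1
      obtain ⟨-, k, d1, d2⟩ := G.comm_zG H.nd (H.ah m) H.le h hE (c2 _ (c1 _))
        (H.ah j _ _ (adj_rk w w')) (H.cc hm.symm _)
      obtain ⟨c, d3, d4, d5⟩ := H.cyc j m l hm.symm hl.symm (Ne.symm e)
      refine c0 l _ (mem_mI h (D := 1 * ρ l (rk q w w)) (cc_one.mul (H.cc hl _))
        (mul_mem (mul_mem d3 d1) (inv_mem d3)) ?_) (G.not_cc h cc_one ?_)
      · rw [← cj_coe, d2, cj_add, cj_one, cj_mul', ← map_sub, d4, d5, one_mul,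
          (H.comm m l hl.symm _ _).eq, nn_eq]
      · have := H.nt; exact one_ne_zero) hA)
  have c4 : ∀ g ∈ orth Q, g ∈ (h.idem (ρ m)).QG → g ∈ X := fun g d1 d2 => by
    let N : Submodule F (End F W) :=
      { carrier := {D | ∀ c : F, ∃ k ∈ X, k ∈ (h.idem (ρ m)).QG ∧ ρ m (rk q w w') * k *
          ρ m (pY q w w') = c • (ρ m (rk q w w') * g * ρ m (pY q w w' * D * pY q w w'))}
        zero_mem' := fun c => ⟨1, one_mem _, one_mem _, by
          rw [coe_one', mul_one, (h.idem (ρ m)).po]; simp⟩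
        add_mem' := fun a b c => by
          obtain ⟨g, a1, a2, a3⟩ := a c
          obtain ⟨k, b1, b2, b3⟩ := b c
          exact ⟨g * k, mul_mem a1 b1, mul_mem a2 b2, by
            rw [Idem.up_mul _ a2 b2, a3, b3]; simp [mul_add, add_mul]⟩
        smul_mem' := fun t _ a c => by simpa [smul_smul] using a (c * t) }
    obtain ⟨k, d3, d4, d5⟩ := mem_of_rk' G.nd N (fun a b c => by
      rw [mul_rk, adj_pY.rk_mul, ← fc_mul, ← smul_mul_assoc]
      exact (c3 _ ((fc_cc _ _ _).smul c)).2 _ (h.pY_mem b)) 1 1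
    rw [one_smul, mul_one, map_mul, (h.idem (ρ m)).oo] at d5
    have d6 := mul_mem d2 (inv_mem d4)
    have d7 := mul_mem d1 (inv_mem (H.le d3))
    have d8 : ρ m (rk q w w') * (g * k⁻¹ : V ≃ₗ[F] V) * ρ m (pY q w w') = 0 := by
      rw [Idem.up_mul _ d2 (inv_mem d4), Idem.up_inv _ d4, d5, add_neg_cancel]
    have d9 := Idem.adj_up _ (H.ah m _ _ (adj_rk _ _)) d6 d7
    have d10 := Idem.coe_eq _ d6
    rw [Idem.mM, d8, neg_eq_zero.1 (d9.uniq (B' := 0) H.nd fun x y => by rw [d8]; simp), add_zero,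
      add_zero, pgn h] at d10
    have d11 := G.adj_zG H.nd (H.ah m) h (fc_cc _ _ _) d7 d10
    obtain ⟨-, k', e1, e2⟩ := G.comm_zG H.nd (H.ah m) H.le h hE
      (c3 _ ((fc_cc _ _ _).smul _)) (d11.smul (2 : F)⁻¹) ((fc_cc _ _ _).neg.smul _)
    rw [← smul_sub, sub_neg_eq_add, ← two_smul F, inv_smul_smul₀ G.two, ← d10] at e2
    simpa [LinearEquiv.toLinearMap_injective e2] using mul_mem e1 d3
  refine ⟨m, fun v v' h' g d1 d2 => ?_⟩
  obtain ⟨β, d3, d4, d5⟩ := G.witt h' h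
  have d6 := H.pr m j hm β d3
  have d7 : ∀ D, cj (rU (ρ m) β * rU (ρ j) β⁻¹) (ρ m D) = ρ m (cj β D) := fun D => by
    rw [H12.cj_cj, CC.cj_t (H.cc hm.symm _), cj_rU]
  have := c4 _ (mul_mem (mul_mem (H.le d6) d1) (inv_mem (H.le d6)))
    (Idem.conj_mem' _ _ d2 (by rw [d7, cj_rk d3, d4, d5]) (by rw [d7, cj_rk d3, d4, d5]))
  simpa [mul_assoc] using mul_mem (mul_mem (inv_mem d6) this) d6

theorem dich : (∃ m, Full Q q (ρ m) X) ∨ ∀ j, RE q (ρ j) X := by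
  by_cases e : ∀ j, Z0 q (ρ j) X
  · exact Or.inr fun j => H.re_of_z0 (e j)
  simp only [Z0, not_forall] at e
  obtain ⟨j, w, h0, hw, S, h1, g, h2, h3, h4⟩ := e
  obtain ⟨w', h⟩ := H.gw.exists_hp h0 hw
  exact Or.inl (H.full_of h ⟨h1, g, h2, h3⟩ h4)

end Fr

end H27.OW
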