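import Cfsg.Agent.H27.OW6

/-!
# Orthogonal tensor powers: the barycentre argument
-/

set_option autoImplicit false
set_option maxHeartbeats 400000

namespace H27.OW

open Module H12 H13.KL QuadraticMap Submodule Function

variable {F : Type*} [Field F] {V W : Type*} [AddCommGroup V] [Module F V] [AddCommGroup W]
  [Module F W] {Q : QuadraticForm F V} {q : QuadraticForm F W} {τ τ' : End F W →ₐ[F] End F V}
  {A B S S₀ : End F V} {a c y z w w' : W} {g k x : V ≃ₗ[F] V} {β : W ≃ₗ[F] W}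
  {ι : Type*} [DecidableEq ι] {ρ : ι → End F W →ₐ[F] End F V} {π : (ι → W) → V}
  {X : Subgroup (V ≃ₗ[F] V)} {j m l : ι}

variable (q X τ) in
/-- A factor whose `Ω` lies in `X` and whose centraliser in `X` is irreducible. -/
structure Good : Prop where
  om : ∀ β ∈ OmegaV q, rU τ β ∈ X
  irr : ∀ T, CC τ T → (∀ g ∈ X, CC τ (g : End F V) → Commute (g : End F V) T) → ∃ c : F, T = c • 1

theorem rU_cA (k : V ≃ₗ[F] V) (β : W ≃ₗ[F] W) : rU ((cA k).comp τ) β = k * rU τ β * k⁻¹ := rfl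

theorem cc_cA : CC ((cA k).comp τ) (cj k A) ↔ CC τ A :=
  ⟨fun h E => by simpa only [AlgHom.comp_apply, cA_apply, cj_inv_cj] using H12.Commute.cj (h E) k⁻¹,
    fun h E => H12.Commute.cj (h E) k⟩

theorem Good.conj (h : Good q τ X) (hk : k ∈ X) : Good q ((cA k).comp τ) X :=
  ⟨fun β hβ => mul_mem (mul_mem hk (h.om β hβ)) (inv_mem hk), fun T h1 h2 => by
    rw [← cj_cj_inv k T] at h1 ⊢
    obtain ⟨c, hc⟩ := h.irr _ (cc_cA.1 h1) fun g a b => by
      have : Commute (cj k g) T := h2 _ (mul_mem (mul_mem hk a) (inv_mem hk)) (cc_cA.2 b)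
      simpa only [cj_inv_cj] using H12.Commute.cj this k⁻¹
    exact ⟨c, by rw [hc, cj_smul, cj_one]⟩⟩

theorem Good.congr (h : Good q τ X) (hβ : ∀ γ ∈ orth q, β * γ * β⁻¹ ∈ orth q)
    (e : ∀ D, τ' D = τ (cj β D)) : Good q τ' X :=
  ⟨fun γ hγ => by
    have : rU τ' γ = rU τ (β * γ * β⁻¹) := LinearEquiv.toLinearMap_injective (e γ)
    exact this ▸ h.om _ (map_mem_OmegaV (MulAut.conj β).toMonoidHom hβ γ hγ),
  fun T h1 h2 => h.irr T (fun E => by rw [← cj_cj_inv β E, ← e]; exact h1 _) fun g a b =>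
    h2 g a fun E => by rw [e]; exact b _⟩

variable (q τ) in
/-- Commuting with an Eichler group. -/
def CmE (w w' : W) : Subgroup (V ≃ₗ[F] V) :=
  Subgroup.centralizer {g | ∃ z ∈ Ys q w w', g = rU τ (eE q w z)}

theorem mem_CmE : x ∈ CmE q τ w w' ↔ ∀ z ∈ Ys q w w', cj (rU τ (eE q w z)) x = x :=
  ⟨fun h z hz => cj_of_comm (congrArg LinearEquiv.toLinearMap (h _ ⟨z, hz, rfl⟩)), fun h => by
    rintro _ ⟨z, hz, rfl⟩; exact LinearEquiv.toLinearMap_injective (comm_of_cj (h z hz)).eq⟩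

theorem map_mem_Ys {t : W ≃ₗ[F] W} (ht : t ∈ orth q) {c : F} (hc : c ≠ 0) (h1 : t w = c • w)
    (h2 : t w' = c⁻¹ • w') (hy : y ∈ Ys q w w') : t y ∈ Ys q w w' := by
  have a1 := isom_polar ht w y
  have a2 := isom_polar ht w' y
  rw [h1, Ys_l hy] at a1
  rw [h2, Ys_r hy] at a2
  exact mem_Ys.2 ⟨by simpa [hc] using a1, by simpa [hc] using a2⟩

theorem conj_CmE (h : Hp q w w') {t : W ≃ₗ[F] W} (ht : t ∈ orth q) {c : F} (hc : c ≠ 0)
    (h1 : t w = c • w) (h2 : t w' = c⁻¹ • w') (hx : x ∈ CmE q τ w w') :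
    (rU τ t)⁻¹ * x * rU τ t ∈ CmE q τ w w' := by
  rintro _ ⟨z, hz, rfl⟩
  have h3 := map_mem_Ys ht hc h1 h2 hz
  have h4 : t * eE q w z * t⁻¹ = eE q w (c • t z) := by
    have := congrArg Subtype.val (eich_conj ⟨t, ht⟩ h.l (Ys_l hz))
    rwa [h1, eich_smul_left h.l (Ys_l h3)] at this
  have := hx _ ⟨_, smul_mem _ c h3, rfl⟩
  rw [← h4, map_mul, map_mul, map_inv] at this
  calc _ = (rU τ t)⁻¹ * (rU τ t * rU τ (eE q w z) * (rU τ t)⁻¹ * x) * rU τ t := by group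
    _ = _ := by rw [this]; group

variable [FiniteDimensional F W]

namespace GW

variable (G : GW q) (h : Hp q w w')
include G h

theorem ce_rk_w (e : CE q (fc q τ B) w w') (y : W) :
    B * τ (rk q w y) = fc q τ B w' w * τ (rk q w y) :=
  G.eq_ct (fc_cc _ _ _) fun b a => by
    simp [G.fc_mult, e.expand h b, h.pY_w, h.ll, smul_smul]

theorem ce_rk_y (e : CE q (fc q τ B) w w') (ha : a ∈ Ys q w w') (y : W) :
    B * τ (rk q a y) = fc q τ B w' w * τ (rk q a y) + fc q τ B w' a * τ (rk q w y) :=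
  fc_ext' (τ := τ) G.nd fun b x => by
    simp [G.fc_mult, G.fc_c (fc_cc _ _ _), e.expand h b, pY_of_mem ha, Ys_l ha, polar_comm q b w,
      smul_smul, mul_comm]

theorem f1_mul (e : CE q (fc q τ B) w w') (A : End F V) :
    fc q τ (A * B) w' w = fc q τ A w' w * fc q τ B w' w :=
  G.fc_eq ((fc_cc _ _ _).mul (fc_cc _ _ _)) fun x y => by
    rw [mul_assoc, mul_assoc, G.ce_rk_w h e, ← (fc_cc B w' w).r, ← mul_assoc, ← mul_assoc,
      ← fc_mul, mul_assoc, (fc_cc B w' w).r, mul_assoc]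

theorem phi_mul (e : CE q (fc q τ B) w w') (A : End F V) (ha : a ∈ Ys q w w') :
    fc q τ (A * B) w' a = fc q τ A w' a * fc q τ B w' w + fc q τ A w' w * fc q τ B w' a :=
  G.fc_eq (((fc_cc _ _ _).mul (fc_cc _ _ _)).add ((fc_cc _ _ _).mul (fc_cc _ _ _))) fun x y => by
    rw [mul_assoc, mul_assoc, G.ce_rk_y h e ha, ← (fc_cc B w' w).r, ← (fc_cc B w' a).r]
    simp only [mul_add, add_mul, ← mul_assoc, ← fc_mul]
    simp only [mul_assoc, (fc_cc B w' w).r, (fc_cc B w' a).r]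

theorem mem_QG_of_ce (e : CE q (fc q τ (g : End F V)) w w') (h1 : fc q τ (g : End F V) w' w = 1) :
    g ∈ (h.idem τ).QG := by
  refine ⟨by rw [G.ce_rk_w h e, h1, one_mul], fc_ext' (τ := τ) G.nd fun b a => ?_,
    fc_ext' (τ := τ) G.nd fun b a => ?_⟩
  · simp [G.fc_tmul (adj_rk _ _), G.fc_t, e.expand h w, h1, h.pY_w, h.ll, smul_smul,
      polar_comm q b w', mul_comm]
  · rw [G.fc_mult, G.fc_tmul adj_pY, e.yy _ (h.pY_mem b) _ (h.pY_mem a), h1, G.fc_t,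
      ← adj_pY, pY_of_mem (h.pY_mem b), adj_pY]

theorem ce_CmE (hx : x ∈ CmE q τ w w') : CE q (fc q τ (x : End F V)) w w' :=
  G.ce_of_comm h (mem_CmE.1 hx)

theorem f1_inv (hx : x ∈ CmE q τ w w') :
    fc q τ (x : End F V) w' w * fc q τ ((x⁻¹ : V ≃ₗ[F] V) : End F V) w' w = 1 := by
  rw [← G.f1_mul h (G.ce_CmE h (inv_mem hx)), coe_mul_inv, G.fc_one, h.p', one_smul]

theorem tla [Nontrivial V] (hR : RE q τ X) (hx : x ∈ CmE q τ w w')
    (hX : ∀ t ∈ OmegaV q, (rU τ t)⁻¹ * x * rU τ t * x⁻¹ ∈ X) : ∃ y ∈ Ys q w w', ∀ a ∈ Ys q w w',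
      fc q τ (x : End F V) w' a = polar q y a • fc q τ (x : End F V) w' w := by
  have e := G.ce_CmE h hx
  have h1 : ∀ a ∈ Ys q w w', fc q τ (x : End F V) w' a ∈ F ∙ fc q τ (x : End F V) w' w :=
    fun a => G.tl h (N := Submodule.comap (fc q τ (x : End F V) w')
      (F ∙ fc q τ (x : End F V) w' w)) fun t ht c c0 c1 c2 a ha => by
      have a1 := conj_CmE h (OmegaV_le ht) c0 c1 c2 hx
      have a2 : ∀ b a, fc q τ (((rU τ t)⁻¹ * x * rU τ t : V ≃ₗ[F] V) : End F V) b a =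
          fc q τ (x : End F V) (t b) (t a) := fun b a => by
        have := G.fc_cjr (τ := τ) (inv_mem (OmegaV_le ht)) x b a
        rwa [cj_coe, map_inv, inv_inv, inv_inv] at this
      obtain ⟨y, a3, a4⟩ := hR w w' h _ (hX t ht) (G.mem_QG_of_ce h
        (G.ce_CmE h (mul_mem a1 (inv_mem hx))) (by
          rw [coe_mul', G.f1_mul h (G.ce_CmE h (inv_mem hx)), a2, c1, c2, ← G.f1_inv h hx]
          simp [smul_smul, c0]))
      have a5 := a2 w' a
      rw [mul_inv_eq_iff_eq_mul.1 a4, coe_mul', rU_coe, G.fc_tmul (adj_isom (eE_orth _ _)),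
        ← eE_neg h.l (Ys_l a3), LinearEquiv.coe_coe, h.e_w' (neg_mem a3), c2] at a5
      refine mem_span_singleton.2 ⟨polar q y a, ?_⟩
      simp only [map_sub, map_neg, map_smul, LinearMap.sub_apply, LinearMap.neg_apply,
        LinearMap.smul_apply, e.wy a ha, e.yy y a3 a ha] at a5 ⊢
      rw [← a5]; module
  obtain ⟨ξ, hξ⟩ := exists_dual_one (F := F) (left_ne_zero_of_mul_eq_one (G.f1_inv h hx))
  obtain ⟨y, hy⟩ := G.nd.exists_rep (ξ ∘ₗ fc q τ (x : End F V) w' ∘ₗ pY q w w')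
  replace hy : ∀ a, polar q y a = ξ (fc q τ (x : End F V) w' (pY q w w' a)) := hy
  refine ⟨y, ⟨(polar_comm ..).trans (by simp [hy, h.pY_w]),
    (polar_comm ..).trans (by simp [hy, h.pY_w'])⟩, fun a ha => ?_⟩
  obtain ⟨t, ht⟩ := mem_span_singleton.1 (h1 a ha)
  simp [hy, pY_of_mem ha, ← ht, hξ]

end GW

variable (Q q X τ) in
/-- The central translates of a factor that are good. -/
def SG (w : W) : Set (End F V) := {S | CC τ S ∧ ∃ z ∈ orth Q,
  (z : End F V) = 1 + S * τ (rk q w w) ∧ Good q ((cA z).comp τ) X}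

omit [FiniteDimensional F W] in
theorem SG_map (hX : X ≤ orth Q) (hw : q w = 0) {z : V ≃ₗ[F] V} (h0 : CC τ S₀) (h1 : z ∈ orth Q)
    (h2 : (z : End F V) = 1 + S₀ * τ (rk q w w)) (hg : g ∈ X)
    (hg' : CC ((cA z).comp τ) (g : End F V)) (hS : S ∈ SG Q q τ X w) :
    S₀ + cj (z⁻¹ * g * z) (S - S₀) ∈ SG Q q τ X w := by
  obtain ⟨a1, k, a2, a3, a4⟩ := hS
  have c1 : CC τ ((z⁻¹ * g * z : V ≃ₗ[F] V) : End F V) := cc_cA.1 (by
    rwa [cj_coe, show z * (z⁻¹ * g * z) * z⁻¹ = g by group])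
  have c2 := (a1.sub h0).conj c1
  refine ⟨h0.add c2, z * (z⁻¹ * g * z * (z⁻¹ * k) * (z⁻¹ * g * z)⁻¹), mul_mem h1 (mul_mem (mul_mem
    (mul_mem (mul_mem (inv_mem h1) (hX hg)) h1) (mul_mem (inv_mem h1) a2))
    (inv_mem (mul_mem (mul_mem (inv_mem h1) (hX hg)) h1))), ?_,
    (a4.conj hg).congr (β := 1) (by simp) fun D => ?_⟩
  · have : ((z⁻¹ * k : V ≃ₗ[F] V) : End F V) = 1 + (S - S₀) * τ (rk q w w) := by
      rw [coe_mul', coe_inv_zG hw h0 h2, a3]
      simp [mul_add, add_mul, sub_mul, mul_assoc, a1.l, t_mul, polar_self', hw]; abel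
    rw [coe_mul', ← cj_coe, this, cj_add, cj_one, cj_mul', c1.cj_t, h2]
    generalize cj (z⁻¹ * g * z) (S - S₀) = B at *
    simp [mul_add, add_mul, mul_assoc, c2.l, t_mul, polar_self', hw]; abel
  · simp only [AlgHom.comp_apply, cA_apply, one_cj]
    rw [H12.cj_cj, H12.cj_cj _ (z⁻¹ * g * z)⁻¹, c1.inv.cj_t, ← H12.cj_cj, ← H12.cj_cj]
    congr 1; group

theorem GW.sum_SG [FiniteDimensional F V] (G : GW q) (hQ : QNondeg Q) (ha : AH Q q τ)
    (hX : X ≤ orth Q) (h : Hp q w w') {T : Finset (End F V)} (hT : ∀ S, S ∈ T ↔ S ∈ SG Q q τ X w)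
    (h0 : S₀ ∈ SG Q q τ X w) : ∑ S ∈ T, (S - S₀) = 0 := by
  classical
  obtain ⟨a1, z, a2, a3, a4⟩ := h0
  obtain ⟨c, hc⟩ := a4.irr (cj z (∑ S ∈ T, (S - S₀))) (cc_cA.2 fun E =>
    Commute.sum_left _ _ _ fun S hS => (((hT S).1 hS).1.sub a1) E) fun g b1 b2 => by
      have b3 : Set.InjOn (fun S => S₀ + cj (z⁻¹ * g * z) (S - S₀)) T := fun S _ S' _ e =>
        sub_left_injective (cj_inj (add_left_cancel e))
      have b4 : T.image (fun S => S₀ + cj (z⁻¹ * g * z) (S - S₀)) = T :=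
        Finset.eq_of_subset_of_card_le (Finset.image_subset_iff.2 fun S hS =>
          (hT _).2 (SG_map hX h.l a1 a2 a3 b1 b2 ((hT S).1 hS)))
          (Finset.card_image_of_injOn b3).ge
      have b5 : cj (z⁻¹ * g * z) (∑ S ∈ T, (S - S₀)) = ∑ S ∈ T, (S - S₀) := by
        conv_rhs => rw [← b4, Finset.sum_image b3]
        simp only [add_sub_cancel_left, ← cA_apply, map_sum]
      refine comm_of_cj ?_
      conv_rhs => rw [← b5]
      rw [← H12.cj_cj, ← H12.cj_cj]; congr 1; group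
  replace hc : ∑ S ∈ T, (S - S₀) = c • 1 := cj_inj (g := z) (by rw [hc, cj_smul, cj_one])
  have : Adj Q (∑ S ∈ T, (S - S₀)) (-∑ S ∈ T, (S - S₀)) :=
    Finset.sum_induction _ (fun A => Adj Q A (-A)) (fun A B a b => neg_add A B ▸ a.add b)
      (fun x y => by simp) fun S hS => by
        obtain ⟨b1, k, b2, b3, -⟩ := (hT S).1 hS
        simpa [sub_eq_add_neg, add_comm] using (G.adj_zG hQ ha h b1 b2 b3).sub
          (G.adj_zG hQ ha h a1 a2 a3)
  rw [hc] at this ⊢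
  exact skew_scalar G.two hQ this

namespace Fr

variable (H : Fr Q q ρ π X)
include H

theorem good (j : ι) : Good q (ρ j) X :=
  ⟨H.om j, fun T h1 h2 => H.scalar fun l => by
    by_cases e : l = j
    · exact e ▸ h1
    · exact fun D => (H.gw.genR le_rfl ((Subalgebra.centralizer F {T}).comap (ρ l)) (fun β hβ => by
        rintro _ rfl; exact (h2 _ (H.om l β hβ) (H.cc e _)).eq.symm) D T rfl)⟩

variable [Finite ι] [Finite F] [FiniteDimensional F V]

theorem SG_zero (hR : ∀ j, RE q (ρ j) X) (h : Hp q w w') (hS : S ∈ SG Q q (ρ j) X w) : S = 0 := by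
  have G := H.gw
  have := H.nt
  have : Finite V := Module.finite_of_finite F
  have : Finite (End F V) := DFunLike.finite _
  have h0 : 0 ∈ SG Q q (ρ j) X w := ⟨cc_zero, 1, one_mem _, by rw [coe_one', zero_mul, add_zero],
    (H.good j).congr (β := 1) (by simp) fun _ => rfl⟩
  have hT := fun S => (Set.toFinite (SG Q q (ρ j) X w)).mem_toFinset (a := S)
  have h1 := G.sum_SG H.nd (H.ah j) H.le h hT h0
  have h2 := G.sum_SG H.nd (H.ah j) H.le h hT hS
  rw [Finset.sum_sub_distrib, Finset.sum_const] at h1 h2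
  rw [smul_zero, sub_zero] at h1
  rw [h1, zero_sub, neg_eq_zero, ← Nat.cast_smul_eq_nsmul F] at h2
  refine (smul_eq_zero.1 h2).resolve_left fun h3 => ?_
  obtain ⟨S, ⟨a1, z, a2, a3, a4⟩, a5, a6⟩ := H.fix_ne (j := j) h (T := SG Q q (ρ j) X w) (by
    rintro _ ⟨l, hl, z, hz, rfl⟩ A hA
    simpa using SG_map H.le h.l cc_zero (one_mem _) (by rw [coe_one', zero_mul, add_zero])
      (H.eE_mem l h.l (Ys_l hz)) (H.cc hl _) hA) h0 (by
    rwa [Nat.card_eq_card_finite_toFinset (Set.toFinite _), ← ringChar.spec])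
  refine a5 (H.skew_zero h (G.adj_zG H.nd (H.ah j) h a1 a2 a3) a1 fun m hm =>
    ⟨G.ce_of_comm h (a6 m hm), fun a ha _ => ?_⟩)
  obtain ⟨ω, b1, t, b2, b3⟩ := G.weyl h
  have b4 : ((rU (ρ j) ω * z⁻¹ * (rU (ρ j) ω)⁻¹ : V ≃ₗ[F] V) : End F V) =
      1 + -S * ρ j (rk q (t • w') (t • w')) := by
    rw [← cj_coe, coe_inv_zG h.l a1 a3, cj_add, cj_one, cj_mul', a1.neg.cj_r, cj_rU,
      cj_rk (OmegaV_le b1), b3]
  have b5 : z ∈ CmE q (ρ m) w w' := mem_CmE.2 fun y hy => by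
    rw [a3, cj_add, cj_one, cj_mul', a6 m hm y hy, CC.cj_r (H.cc hm.symm _)]
  have b6 : rU (ρ j) ω * z⁻¹ * (rU (ρ j) ω)⁻¹ ∈ CmE q (ρ m) w w' := mem_CmE.2 fun y hy => by
    rw [b4, cj_add, cj_one, cj_mul', cj_neg, a6 m hm y hy, CC.cj_r (H.cc hm.symm _)]
  have b7 : z * (rU (ρ j) ω * z⁻¹ * (rU (ρ j) ω)⁻¹) ∈ X := by
    simpa only [rU_cA, mul_assoc] using mul_mem (a4.om ω b1) (inv_mem (H.om j ω b1))
  obtain ⟨y, -, b8⟩ := G.tla h (hR m) (mul_mem b5 b6) fun t ht =>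
    mul_mem (mul_mem (mul_mem (inv_mem (H.om m t ht)) b7) (H.om m t ht)) (inv_mem b7)
  have b9 := b8 a ha
  rw [coe_mul', G.phi_mul h (G.ce_CmE h b6) _ ha, G.f1_mul h (G.ce_CmE h b6), a3, b4] at b9
  have c1 : CC (ρ j) (fc q (ρ m) S w' a) := G.fc_cc' (H.comm j m hm.symm) a1 _ _
  have c2 : CC (ρ j) (fc q (ρ m) S w' w) := G.fc_cc' (H.comm j m hm.symm) a1 _ _
  simp only [map_add, LinearMap.add_apply, G.fc_one, G.fc_mulc (H.cc hm.symm _), map_neg,
    LinearMap.neg_apply, h.p', Ys_r ha, one_smul, zero_smul, zero_add] at b9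
  generalize fc q (ρ m) S w' a = N at *
  generalize fc q (ρ m) S w' w = M at *
  have d1 : (1 - M * ρ j (rk q w w)) * (1 + M * ρ j (rk q w w)) = 1 := by
    simp [mul_add, sub_mul, mul_assoc, c2.l, t_mul, h.ll]
  have d2 : (1 + -M * ρ j (rk q (t • w') (t • w'))) * (1 + M * ρ j (rk q (t • w') (t • w'))) = 1 := by
    simp [mul_add, add_mul, mul_assoc, c2.l, t_mul, h.rr]
  have d3 := congrArg (fun A => (1 - M * ρ j (rk q w w)) * A *
    (1 + M * ρ j (rk q (t • w') (t • w')))) b9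
  have d4 : N * ρ j (rk q w w - rk q (t • w') (t • w')) = polar q y a • 1 := by
    rw [mul_smul_comm, smul_mul_assoc, ← mul_assoc (1 - _), d1, one_mul, d2, mul_add (1 - _),
      ← mul_assoc (1 - _) (1 + _), d1, one_mul, add_mul, mul_assoc, mul_assoc, d2, mul_one] at d3
    rw [← d3]
    simp [mul_add, add_mul, mul_assoc, c1.l, c2.l, t_mul, h.rr, h.ll, sub_eq_add_neg]
  have d8 := congrArg (fun A => fc q (ρ j) A w' w') d4
  rw [G.fc_ct c1, map_smul] at d8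
  simpa [G.fc_one, h.p, h.p', h.rr] using d8

end Fr

end H27.OW
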