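import Cfsg.Agent.H27.OW7

/-!
# Orthogonal tensor powers: a point determines the factor
-/

set_option autoImplicit false
set_option maxHeartbeats 400000

namespace H27.OW

open Module H12 H13.KL QuadraticMap Submodule Function

variable {F : Type*} [Field F] {V W : Type*} [AddCommGroup V] [Module F V] [AddCommGroup W]
  [Module F W] {Q : QuadraticForm F V} {q : QuadraticForm F W} {τ τ' : End F W →ₐ[F] End F V}
  {A B S S₀ : End F V} {a c y z w w' v v' : W} {g k x : V ≃ₗ[F] V} {β : W ≃ₗ[F] W}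
  {ι : Type*} [DecidableEq ι] {ρ : ι → End F W →ₐ[F] End F V} {π : (ι → W) → V}
  {X : Subgroup (V ≃ₗ[F] V)} {j m l : ι} {s : F}

variable (Q q X τ) in
/-- A good factor determined by any of its points. -/
structure Nice : Prop extends Good q τ X where
  ah : AH Q q τ
  pt : ∀ w, w ≠ 0 → q w = 0 → ∀ τ' : End F W →ₐ[F] End F V, AH Q q τ' → Good q τ' X →
    ∀ v, v ≠ 0 → q v = 0 → ∀ s : F, s ≠ 0 → τ' (rk q v v) = s • τ (rk q w w) → ∀ D, ∃ E, τ' D = τ E

theorem Nice.conj (h : Nice Q q τ X) (hX : X ≤ orth Q) (hk : k ∈ X) :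
    Nice Q q ((cA k).comp τ) X :=
  ⟨h.toGood.conj hk, h.ah.conj (hX hk), fun w a b τ' c d v e f s h1 h2 D => by
    obtain ⟨E, hE⟩ := h.pt w a b _ (c.conj (hX (inv_mem hk))) (d.conj (inv_mem hk)) v e f s h1 (by
      simp only [AlgHom.comp_apply, cA_apply] at h2 ⊢
      rw [h2, cj_smul, cj_inv_cj]) D
    exact ⟨E, by rw [AlgHom.comp_apply, ← hE, AlgHom.comp_apply, cA_apply, cA_apply, cj_cj_inv]⟩⟩

theorem Nice.norm (h : Nice Q q τ X) (hX : X ≤ orth Q) (hk : k ∈ X) (h0 : w ≠ 0) (hw : q w = 0)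
    (e : Commute (k : End F V) (τ (rk q w w))) (D : End F W) : ∃ E, cj k (τ D) = τ E :=
  h.pt w h0 hw _ (h.ah.conj (hX hk)) (h.toGood.conj hk) w h0 hw 1 one_ne_zero
    ((cj_of_comm e).trans (one_smul ..).symm) D

theorem Adj.sim {D D' : End F W} (h : Adj q D D') (hs : s ≠ 0)
    (hβ : ∀ x y, polar q (β x) (β y) = s * polar q x y) : Adj q (cj β⁻¹ D) (cj β⁻¹ D') :=
  fun x y => mul_left_cancel₀ hs (by
    rw [← hβ, ← hβ, cj_apply, cj_apply, apply_inv_apply, apply_inv_apply, h]; rfl)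

theorem cj_rk_sim (hβ : ∀ x y, polar q (β x) (β y) = s * polar q x y) (a b : W) :
    s • cj β (rk q a b) = rk q (β a) (β b) := by
  ext x
  rw [LinearMap.smul_apply, cj_apply, rk_apply, rk_apply, map_smul, smul_smul, ← hβ, apply_inv_apply]

variable [FiniteDimensional F W] [FiniteDimensional F V]

theorem GW.intertw (G : GW q) (hQ : QNondeg Q) (ha : AH Q q τ) (ha' : AH Q q τ') (h : Hp q w w')
    (e : τ' (rk q w w) = τ (rk q w w)) :
    ∃ z ∈ orth Q, (∀ D, τ' D = cj z (τ D)) ∧ (z : End F V) * τ (rk q w w) = τ (rk q w w) := by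
  obtain ⟨Z, hZ⟩ : ∃ Z, Z = ∑ r, τ' (rk q (finBasis F W r) w') *
    τ (((finBasis F W).coord r).smulRight w) := ⟨_, rfl⟩
  have h1 : ∀ a c, Z * τ (rk q a c) = τ' (rk q a w') * τ (rk q w c) := fun a c => by
    conv_rhs => rw [← (finBasis F W).sum_repr a]
    simp only [hZ, Finset.sum_mul, map_sum, LinearMap.sum_apply, map_smul, LinearMap.smul_apply,
      mul_assoc, ← map_mul, smul_mul_assoc, ← mul_smul_comm]
    refine Finset.sum_congr rfl fun r _ => ?_
    rw [← map_smul]; congr 2; ext x; simp [smul_smul, mul_comm]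
  have h2 : ∀ a c, τ' (rk q a c) * Z = τ' (rk q a w') * τ (rk q w c) := fun a c => by
    simp only [hZ, Finset.mul_sum, t_mul', ← mul_smul_comm, ← map_smul]
    rw [← Finset.mul_sum, ← map_sum]; congr 2; ext x
    conv_rhs => rw [← (finBasis F W).sum_repr x, map_sum]
    simp [smul_smul, mul_comm]
  have h3 : ∀ D, τ' D * Z = Z * τ D := mem_of_rk' G.nd (LinearMap.eqLocus
    (LinearMap.mulRight F Z ∘ₗ τ'.toLinearMap) (LinearMap.mulLeft F Z ∘ₗ τ.toLinearMap))
    fun a c => (h2 a c).trans (h1 a c).symm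
  have h4 : Adj Q Z (hQ.adj Z) := fun x y => (hQ.B_adj' _ x y).symm
  have h5 : hQ.adj Z * Z = 1 := fc_ext' (τ := τ) G.nd fun b a => by
    rw [G.fc_one]
    refine G.fc_eq (cc_one.smul _) fun x y => ?_
    have a1 : τ (rk q x w) = τ (rk q x w') * τ' (rk q w w) := by simp [e, t_mul, h.p']
    have a2 : τ (rk q w y) = τ' (rk q w w) * τ (rk q w' y) := by simp [e, t_mul, h.p]
    rw [← mul_assoc, mul_assoc _ Z, h1, (h4.mul (ha _ _ (adj_rk b x))).uniq hQ
      (h1 b x ▸ (ha' _ _ (adj_rk b w')).mul (ha _ _ (adj_rk w x))), a1, a2]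
    simp only [mul_assoc, t_mul' (τ := τ'), h.p, h.p', one_smul, mul_smul_comm]
    simp [h.p, h.p', e, t_mul', t_mul]
  have h6 : Injective Z := fun x y e => by
    simpa [← End.mul_apply, h5] using congrArg (hQ.adj Z) e
  refine ⟨LinearEquiv.ofInjectiveEndo Z h6, mem_orth_of_polar G.two fun x y =>
    (h4 x (Z y)).trans (by rw [← End.mul_apply, h5]; rfl), fun D => ?_, ?_⟩
  · rw [cj_eq, eq_comm, ← mul_one (τ' D), ← coe_mul_inv (LinearEquiv.ofInjectiveEndo Z h6),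
      ← mul_assoc]
    exact congrArg (· * _) (h3 D).symm
  · exact (h1 w w).trans (by simp [← e, t_mul, h.p'])

namespace Fr

variable (H : Fr Q q ρ π X) [Finite ι] [Finite F] (hR : ∀ j, RE q (ρ j) X)
include H hR

theorem pt₀ (h : Hp q w w') (ha : AH Q q τ') (hg : Good q τ' X)
    (e : τ' (rk q w w) = ρ j (rk q w w)) (e' : ∀ y ∈ Ys q w w', τ' (nn q w y) = ρ j (nn q w y))
    (D : End F W) : ∃ E, τ' D = ρ j E := by
  have G := H.gw
  have := H.nt
  obtain ⟨z, a1, a2, a3⟩ := G.intertw H.nd (H.ah j) ha h e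
  have a4 : z ∈ CmE q (ρ j) w w' := mem_CmE.2 fun y hy => cj_of_comm (comm_of_cj (by
    rw [rU_coe, ← a2, eE_coe h.l (Ys_l hy)]; simp [e, e' y hy])).symm
  have a5 : fc q (ρ j) (z : End F V) w' w = 1 := by
    simpa [G.fc_mult, G.fc_t, h.p, h.p'] using congrArg (fun A => fc q (ρ j) A w' w') a3
  have a6 : ∀ β, rU τ' β = z * rU (ρ j) β * z⁻¹ := fun β =>
    LinearEquiv.toLinearMap_injective (a2 β)
  obtain ⟨y, b1, b2⟩ := G.tla h (hR j) a4 fun t ht => by
    simpa only [a6, mul_assoc] using mul_mem (inv_mem (H.om j t ht)) (hg.om t ht)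
  have b3 : rU (ρ j) (eE q w (-y)) ∈ CmE q (ρ j) w w' := by
    rintro _ ⟨u, hu, rfl⟩
    rw [← map_mul, ← map_mul, ← eE_add h.l (Ys_l hu) (Ys_l (neg_mem b1)), add_comm,
      eE_add h.l (Ys_l (neg_mem b1)) (Ys_l hu)]
  have b4 := G.ce_eq h (G.ce_CmE h (mul_mem a4 b3)) fun a ha _ => by
    rw [coe_mul', rU_coe, G.fc_mult, LinearEquiv.coe_coe, h.e_y (neg_mem b1) ha]
    simp [b2 a ha, a5]
  have b5 : fc q (ρ j) (z * rU (ρ j) (eE q w (-y)) : V ≃ₗ[F] V) w' w = 1 := by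
    rw [coe_mul', rU_coe, G.fc_mult, LinearEquiv.coe_coe, h.e_w (neg_mem b1), a5]
  rw [b5] at b4
  have b6 := H.SG_zero hR h ⟨fc_cc _ _ _, _, mul_mem a1 (H.le (H.eE_mem j h.l (Ys_l (neg_mem b1)))),
    b4, hg.congr (β := eE q w (-y)) (fun γ hγ => mul_mem (mul_mem (eE_orth _ _) hγ)
      (inv_mem (eE_orth _ _))) fun D => by
        rw [a2, AlgHom.comp_apply, cA_apply, H12.cj_cj, cj_rU]⟩
  rw [b6, zero_mul, add_zero] at b4
  rw [a2, mul_eq_one_iff_eq_inv.1 (LinearEquiv.toLinearMap_injective b4), ← map_inv, cj_rU]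
  exact ⟨_, rfl⟩

theorem nice (j : ι) : Nice Q q (ρ j) X := ⟨H.good j, H.ah j, fun w h0 hw τ' ha hg v h0' hv s hs e => by
  have G := H.gw
  have := H.nt
  obtain ⟨w', h⟩ := G.exists_hp h0 hw
  obtain ⟨v', h'⟩ := G.exists_hp h0' hv
  let L : Ys q w w' →ₗ[F] End F V := (ρ j).toLinearMap ∘ₗ nn q w ∘ₗ (Ys q w w').subtype
  have hL : Injective L := (injective_iff_map_eq_zero L).2 fun y e => Subtype.ext (by
    simpa [Ys_r' y.2, h.p] using LinearMap.congr_fun (tau_inj (ρ j) (e.trans (map_zero _).symm)) w')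
  have a1 : ∀ x, (τ'.toLinearMap ∘ₗ nn q v ∘ₗ pY q v v') x ∈ LinearMap.range L := fun x => by
    have b1 := Ys_l (h'.pY_mem x)
    obtain ⟨y, b2, b3⟩ := hR j w w' h _ (hg.om _ (G.eE_mem hv b1)) (eE_QG h h' hs e b1)
    have b4 := congrArg (fun g : V ≃ₗ[F] V => (g : End F V) - (g⁻¹ : V ≃ₗ[F] V)) b3
    simp only [← map_inv, rU_coe, ← map_sub, ← eE_neg hv b1, ← eE_neg hw (Ys_l b2),
      G.nn_two hv b1, G.nn_two hw (Ys_l b2), map_smul] at b4
    exact ⟨⟨y, b2⟩, smul_right_injective _ G.two b4.symm⟩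
  obtain ⟨σ, a2, a3⟩ : ∃ σ : End F W, (∀ x, σ x ∈ Ys q w w') ∧
      ∀ x, ρ j (nn q w (σ x)) = τ' (nn q v (pY q v v' x)) :=
    ⟨(Ys q w w').subtype ∘ₗ (LinearEquiv.ofInjective L hL).symm.toLinearMap ∘ₗ
      LinearMap.codRestrict _ _ a1, fun x => Subtype.prop _, fun x =>
        congrArg Subtype.val ((LinearEquiv.ofInjective L hL).apply_symm_apply _)⟩
  have a4 : ∀ x y, polar q (σ x) (σ y) = s * polar q (pY q v v' x) (pY q v v' y) := fun x y => by
    have := congrArg₂ (· * ·) (a3 x) (a3 y)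
    simp only [← map_mul, nn_mul_nn hw (Ys_l (a2 x)) (Ys_l (a2 y)),
      nn_mul_nn hv (Ys_l (h'.pY_mem x)) (Ys_l (h'.pY_mem y)), map_smul, e, smul_smul] at this
    have := smul_left_injective F (fun e => G.rk_ne h0 h0
      (tau_inj (ρ j) (e.trans (map_zero _).symm))) this
    linear_combination -this
  let γ : End F W := s • rk q w v' + rk q w' v + σ
  have a5 : ∀ x y, polar q (γ x) (γ y) = s * polar q x y := fun x y => by
    have : polar q x y = polar q v' x * polar q v y + polar q v x * polar q v' y +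
        polar q (pY q v v' x) (pY q v v' y) := by
      rw [polar_pY (h'.pY_mem x)]; simp [pY_apply]
    simp [γ, h.ll, h.p, h.p', h.rr, Ys_l (a2 _), Ys_r (a2 _), Ys_l' (a2 _), Ys_r' (a2 _), a4]
    rw [this]; ring
  have a6 : Injective γ := (injective_iff_map_eq_zero γ).2 fun x e => G.nd x fun y =>
    (mul_eq_zero.1 ((a5 x y).symm.trans (by simp [e]))).resolve_left hs
  obtain ⟨β, hβ⟩ : ∃ β : W ≃ₗ[F] W, ∀ x, β x = γ x := ⟨LinearEquiv.ofInjectiveEndo γ a6, fun _ => rfl⟩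
  simp only [← hβ] at a5
  have a7 : σ v = 0 := congrArg Subtype.val (hL (a₁ := ⟨_, a2 v⟩) (a₂ := 0)
    ((a3 v).trans (by simp [h'.pY_w])))
  have a8 : β v = s • w := by simp [hβ, γ, h'.p', h'.ll, a7]
  have a9 : ∀ D, τ' D = τ'.comp (cA β⁻¹) (cj β D) := fun D => by
    rw [AlgHom.comp_apply, cA_apply, cj_inv_cj]
  intro D
  rw [a9]
  refine H.pt₀ (τ' := τ'.comp (cA β⁻¹)) hR h (fun D D' e => ha _ _ (e.sim hs a5)) (hg.congr (β := β⁻¹) (fun t ht =>
    mem_orth_of_polar G.two fun x y => mul_left_cancel₀ hs ?_) fun _ => rfl) ?_ (fun y hy => ?_) _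
  · simp only [← a5, LinearEquiv.mul_apply, apply_inv_apply, isom_polar ht, inv_inv]
  · have : cj β (rk q v v) = s • rk q w w := smul_right_injective _ hs (by
      simp only [cj_rk_sim a5, a8, map_smul, LinearMap.smul_apply])
    refine smul_right_injective _ hs ?_
    simp only []
    rw [← e, a9, this, map_smul]
  · obtain ⟨x, rfl⟩ := β.surjective y
    have b1 : polar q v x = 0 := by
      have := a5 v x
      rw [a8, polar_smul_left, Ys_l hy] at this
      simpa [hs, eq_comm] using this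
    have b2 : polar q v' x = 0 := by
      simpa [hβ, γ, h.p', h.rr, Ys_r (a2 _), hs] using Ys_r hy
    have b3 : β x = σ x := by simp [hβ, γ, b1, b2]
    have b4 : cj β (nn q v x) = nn q w (β x) := smul_right_injective _ hs (by
      simp only [nn_eq, cj_sub', smul_sub, cj_rk_sim a5, a8, map_smul, LinearMap.smul_apply])
    rw [← b4, ← a9, b4, b3, a3, pY_of_mem ⟨b1, b2⟩]⟩

end Fr

end H27.OW
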