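import Cfsg.Agent.H27.OW8

/-!
# Orthogonal tensor powers: unipotent isometries of the small factor
-/

set_option autoImplicit false
set_option maxHeartbeats 400000

namespace H27.OW

open Module H12 H13.KL QuadraticMap Submodule Function

variable {F : Type*} [Field F] {W : Type*} [AddCommGroup W] [Module F W] {q : QuadraticForm F W}
  {a b y z w w' v v' : W} {β : W ≃ₗ[F] W}

theorem dual_pair (ha : a ≠ 0) (hb : b ∉ F ∙ a) :
    ∃ φ ψ : Dual F W, φ a = 1 ∧ φ b = 0 ∧ ψ a = 0 ∧ ψ b = 1 := by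
  obtain ⟨ψ, h1, h2⟩ := exists_dual_eq_one hb
  obtain ⟨φ, h3⟩ := exists_dual_one (F := F) ha
  have := h1 a (mem_span_singleton_self a)
  exact ⟨φ - φ b • ψ, ψ, by simp [*], by simp [*], this, h2⟩

theorem eig_one {N : ℕ} (h : ((β : End F W) - 1) ^ N = 0) {Z : Submodule F W} {c : F}
    (hZ : ∀ x ∈ Z, β x ∈ Z) (h1 : β a - c • a ∈ Z) (h2 : a ∉ Z) : c = 1 := by
  have : ∀ n, (((β : End F W) - 1) ^ n) a - (c - 1) ^ n • a ∈ Z := fun n => by
    induction n with
    | zero => simp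
    | succ n ih =>
      convert add_mem (sub_mem (hZ _ ih) ih) (smul_mem _ ((c - 1) ^ n) h1) using 1
      simp only [pow_succ', End.mul_apply, LinearMap.sub_apply, End.one_apply, map_sub, map_smul,
        LinearEquiv.coe_coe]
      module
  by_contra hc
  have := this N
  rw [h, LinearMap.zero_apply, zero_sub, neg_mem_iff] at this
  exact h2 (mem_of_smul (pow_ne_zero _ (sub_ne_zero.2 hc)) this)

theorem im_perp_fix (hβ : β ∈ orth q) (hv : β v = v) (x : W) : polar q (β x - x) v = 0 := by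
  rw [polar_sub_left, ← hv, isom_polar hβ, hv, sub_self]

theorem exists_last {n : End F W} {N k : ℕ} (h : n ^ N = 0) (hk : n ^ k ≠ 0) :
    ∃ s x, (n ^ (s + k)) x ≠ 0 ∧ n ^ (s + k + 1) = 0 := by
  classical
  have h1 : ∃ s, n ^ (s + k) = 0 := ⟨N, by rw [pow_add, h, zero_mul]⟩
  obtain ⟨s, hs⟩ : ∃ s, Nat.find h1 = s + 1 :=
    Nat.exists_eq_succ_of_ne_zero fun e => hk (by simpa [e] using Nat.find_spec h1)
  obtain ⟨x, hx⟩ := DFunLike.ne_iff.1 (Nat.find_min h1 (show s < Nat.find h1 by omega))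
  exact ⟨s, x, hx, by simpa [hs, add_right_comm] using Nat.find_spec h1⟩

variable [FiniteDimensional F W]

namespace GW

variable (G : GW q)
include G

theorem hp_perp (h0 : w ≠ 0) (hw : q w = 0) (hy : polar q w y = 0) (hy' : q y ≠ 0) :
    ∃ w', Hp q w w' ∧ y ∈ Ys q w w' := by
  obtain ⟨w', h1, h2⟩ := H11.exists_hypPair_perp G.nd hw hy fun e => by
    obtain ⟨c, rfl⟩ := mem_span_singleton.1 e
    simp [Q_smul, hy'] at hw
    simp [hw] at h0
  exact ⟨w', ⟨h1.1, h1.2, h1.3⟩, hy, h2⟩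

theorem big {N : ℕ} (hd : 4 ≤ finrank F W) (hβ : β ∈ orth q) (h : ((β : End F W) - 1) ^ N = 0)
    (h1 : β ≠ 1) : ∃ (x₀ x₁ x₂ : W) (φ₁ φ₂ ψ : Dual F W), φ₁ (β x₁ - x₁) = 1 ∧ φ₁ (β x₂ - x₂) = 0 ∧
      φ₂ (β x₁ - x₁) = 0 ∧ φ₂ (β x₂ - x₂) = 1 ∧ (∀ x, ψ (β x - x) = 0) ∧ ψ x₁ = 0 ∧ ψ x₂ = 0 ∧
        ψ x₀ = 1 := by
  obtain ⟨n, hn⟩ : ∃ n : End F W, n = β - 1 := ⟨_, rfl⟩
  have e : ∀ x, β x - x = n x := fun x => by simp [hn]
  simp only [e, ← hn] at h ⊢
  by_cases h2 : n ^ 2 = 0
  · have a0 : ∀ x, n (n x) = 0 := fun x => by simpa [pow_two] using LinearMap.congr_fun h2 x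
    have a1 : ∀ x y, polar q (n x) (n y) = 0 := fun x y => e x ▸ im_perp_fix hβ
      (sub_eq_zero.1 ((e _).trans (a0 y))) x
    have a2 : ∀ x y, polar q (n x) y = -polar q x (n y) := fun x y => by
      have := isom_polar hβ x y
      rw [← sub_add_cancel (β x) x, ← sub_add_cancel (β y) y, e, e] at this
      simp only [polar_add_left, polar_add_right, a1] at this
      linear_combination this
    have a3 : ∀ x, polar q x (n x) = 0 := fun x => mul_left_cancel₀ G.two (by
      have := a2 x x; rw [polar_comm] at this; linear_combination this)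
    have a4 : ∀ x, q (n x) = 0 := fun x => mul_left_cancel₀ G.two (by rw [← polar_self', a1]; simp)
    obtain ⟨x₁, b1⟩ : ∃ x, n x ≠ 0 := by
      by_contra! hc; exact h1 (LinearEquiv.ext fun x => sub_eq_zero.1 ((e x).trans (hc x)))
    obtain ⟨x₂, b2⟩ := G.exists_one b1
    have b3 : polar q x₁ (n x₂) = -1 := by rw [← b2, a2, neg_neg]
    have h5 : 5 ≤ finrank F W := by_contra fun h5 => by
      obtain ⟨s, c1⟩ := G.exists_hp b1 (a4 x₁)
      have := congrArg (polar q x₁) (G.four (by omega) _ _ c1 _ (c1.pY_mem (n x₂)) (by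
        simp [pY_apply, a1, Q_sub, Q_smul, a4]))
      simp [pY_apply, a1, a3, b3] at this
    have c1 := n.finrank_range_add_finrank_ker
    have c2 := Submodule.finrank_mono (show LinearMap.range n ≤ LinearMap.ker n by
      rintro _ ⟨x, rfl⟩; exact a0 x)
    obtain ⟨y, c3, c4⟩ := (Submodule.ne_bot_iff _).1 (LinearMap.ker_ne_bot_of_finrank_lt
      (f := ((polarBilin q x₁).prod (polarBilin q x₂)) ∘ₗ (LinearMap.ker n).subtype)
      (by simp; omega))
    obtain ⟨x₀, c5⟩ := G.exists_one (y := y.1) (by simpa using c4)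
    replace c3 : polar q x₁ y = 0 ∧ polar q x₂ y = 0 := ⟨congrArg Prod.fst c3, congrArg Prod.snd c3⟩
    exact ⟨x₀, x₁, x₂, polarBilin q x₂, -polarBilin q x₁, polarBilin q y,
      (polar_comm ..).trans b2, a3 _, by simp [a3], by simp [b3], fun x => by
        have := a2 y x; rw [show n y = 0 from y.2] at this; simpa using this,
      (polar_comm ..).trans c3.1, (polar_comm ..).trans c3.2, c5⟩
  obtain ⟨s, x, a1, a2⟩ := exists_last h h2
  have a3 : n (n ((n ^ s) x)) ≠ 0 := by simpa only [pow_succ', End.mul_apply] using a1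
  have a4 : n (n (n ((n ^ s) x))) = 0 := by
    simpa only [pow_succ', End.mul_apply, LinearMap.zero_apply] using LinearMap.congr_fun a2 x
  generalize (n ^ s) x = u at a3 a4
  obtain ⟨φ₂, φ₁, b1, b2, b3, b4⟩ := dual_pair (F := F) a3 (b := n u) fun e => by
    obtain ⟨c, hc⟩ := mem_span_singleton.1 e
    exact a3 (by rw [← hc, map_smul, a4, smul_zero])
  obtain ⟨x₀, b5⟩ : ∃ x₀, x₀ ∉ (F ∙ u) ⊔ LinearMap.range n := by
    by_contra! hc
    have c0 : ∀ x ∈ span F {u, n u, n (n u)}, n x ∈ span F {u, n u, n (n u)} :=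
      span_le (p := Submodule.comap n (span F {u, n u, n (n u)})).2 (by
        rintro _ (rfl | rfl | rfl)
        exacts [subset_span (by simp), subset_span (by simp), by simp [a4]])
    have c1 : ∀ k, (n ^ k) u ∈ span F {u, n u, n (n u)} := fun k => by
      induction k with
      | zero => exact subset_span (by simp)
      | succ k ih => rw [pow_succ']; exact c0 _ ih
    have c2 : ∀ k y, ∃ y', y - (n ^ k) y' ∈ span F {u, n u, n (n u)} := fun k y => by
      induction k with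
      | zero => exact ⟨y, by simp⟩
      | succ k ih =>
        obtain ⟨y', ih⟩ := ih
        obtain ⟨_, d1, _, ⟨z, rfl⟩, rfl⟩ := mem_sup.1 (hc y')
        obtain ⟨c, rfl⟩ := mem_span_singleton.1 d1
        exact ⟨z, by simpa [pow_succ, sub_add_eq_sub_sub_swap] using add_mem ih (smul_mem _ c (c1 k))⟩
    have c3 : span F {u, n u, n (n u)} = ⊤ := eq_top_iff.2 fun y _ => by simpa [h] using c2 N y
    classical
    have c4 := finrank_span_finset_le_card (R := F) ({u, n u, n (n u)} : Finset W)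
    have c5 := Finset.card_le_three (a := u) (b := n u) (c := n (n u))
    rw [Set.finrank, Finset.coe_insert, Finset.coe_insert, Finset.coe_singleton, c3,
      finrank_top] at c4
    omega
  obtain ⟨ψ, b6, b7⟩ := exists_dual_eq_one b5
  exact ⟨x₀, u, n u, φ₁, φ₂, ψ, b4, b3, b2, b1, fun x => b6 _ (mem_sup_right ⟨x, rfl⟩),
    b6 _ (mem_sup_left (mem_span_singleton_self u)), b6 _ (mem_sup_right ⟨u, rfl⟩), b7⟩

variable (hd : finrank F W = 3)
include hd

theorem three (h : Hp q w w') (hy : y ∈ Ys q w w') (hy' : q y ≠ 0) (hz : z ∈ Ys q w w') :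
    z = ((2 * q y)⁻¹ * polar q y z) • y := by
  have two := G.two
  let L : W →ₗ[F] F × F × F := (polarBilin q w).prod ((polarBilin q w').prod (polarBilin q y))
  have h1 : Surjective L := fun ⟨a, b, c⟩ => ⟨a • w' + b • w + ((2 * q y)⁻¹ * c) • y, by
    simp [L, h.p, h.p', h.ll, h.rr, Ys_l hy, Ys_r hy, Ys_l' hy, Ys_r' hy, polar_self' q y]
    field_simp⟩
  refine (LinearMap.injective_iff_surjective_of_finrank_eq_finrank (by simp [hd])).2 h1 ?_
  simp [L, Ys_l hy, Ys_r hy, Ys_l hz, Ys_r hz, polar_self' q y]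
  field_simp

theorem fix_three {N : ℕ} (hβ : β ∈ orth q) (h : ((β : End F W) - 1) ^ N = 0) :
    ∃ v v', Hp q v v' ∧ ∀ z ∈ Ys q v v', cj β (eE q v z) = eE q v z := by
  by_cases h1 : ((β : End F W) - 1) ^ 1 = 0
  · obtain ⟨v, v', e⟩ := G.ex_hp
    obtain rfl : β = 1 := LinearEquiv.toLinearMap_injective (sub_eq_zero.1 ((pow_one _).symm.trans h1))
    exact ⟨v, v', e, fun _ _ => rfl⟩
  obtain ⟨s, x, a1, a2⟩ := exists_last h h1
  have a3 : β ((((β : End F W) - 1) ^ (s + 1)) x) = (((β : End F W) - 1) ^ (s + 1)) x := by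
    simpa [pow_succ' _ (s + 1), sub_eq_zero] using LinearMap.congr_fun a2 x
  have a4 : q ((((β : End F W) - 1) ^ (s + 1)) x) = 0 := mul_left_cancel₀ G.two (by
    rw [← polar_self', mul_zero, ← im_perp_fix hβ a3 ((((β : End F W) - 1) ^ s) x), pow_succ']; rfl)
  generalize (((β : End F W) - 1) ^ (s + 1)) x = v at *
  obtain ⟨v', e⟩ := G.exists_hp a1 a4
  obtain ⟨y, b1, b2⟩ := G.ex_aniso e
  have b3 : polar q v (β y) = 0 := by rw [← a3, isom_polar hβ, Ys_l b1]
  have b4 := decomp (q := q) v v' (β y)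
  rw [b3, G.three hd e b1 b2 (e.pY_mem _), zero_smul, add_zero] at b4
  have b5 := eig_one h (Z := F ∙ v) (a := y) (c := (2 * q y)⁻¹ * polar q y (pY q v v' (β y)))
    (span_le (p := Submodule.comap (β : End F W) (F ∙ v)).2 (by simp [a3]))
    (mem_span_singleton.2 ⟨_, (sub_eq_iff_eq_add.2 b4).symm⟩) fun c => by
      obtain ⟨c, rfl⟩ := mem_span_singleton.1 c
      simp [Q_smul, a4] at b2
  rw [b5, one_smul] at b4
  refine ⟨v, v', e, fun z hz => ?_⟩
  rw [eE_coe a4 (Ys_l hz), cj_sub', cj_add, cj_one, cj_smul, cj_rk hβ, cj_nn hβ, a3,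
    G.three hd e b1 b2 hz, map_smul β, b4]
  simp [nn_eq, smul_sub]

theorem eq_eE_three {N : ℕ} (h : Hp q w w') (hy : y ∈ Ys q w w') (hy' : q y ≠ 0) (hβ : β ∈ orth q)
    (hn : ((β : End F W) - 1) ^ N = 0) (e : cj β (eE q w y) = eE q w y) :
    ∃ c : F, β = eE q w (c • y) := by
  have two := G.two
  have e' : cj β (eE q w (-y)) = eE q w (-y) := by
    rw [eE_neg h.l (Ys_l hy)]; exact cj_of_comm (comm_inv (comm_of_cj e).symm).symm
  have a1 : nn q (β w) (β y) = nn q w y := smul_right_injective _ two (by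
    simp only [← cj_nn hβ, ← cj_smul, ← G.nn_two h.l (Ys_l hy), cj_sub', e, e'])
  have a2 : rk q (β w) (β w) = rk q w w := smul_right_injective _ hy' (by
    rw [eE_coe h.l (Ys_l hy), cj_sub', cj_add, cj_one, cj_smul, cj_rk hβ, cj_nn hβ, a1] at e
    exact sub_right_injective e)
  have a3 : polar q w (β w') • w = β w := by
    simpa [isom_polar hβ, h.p] using LinearMap.congr_fun a2.symm (β w')
  have a4 := eig_one hn (Z := ⊥) (a := w) (by simp) (by rw [← a3, sub_self]; simp) (by simp [h.ne])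
  rw [a4, one_smul] at a3
  have a5 : β y = y + polar q (β y) w' • w := by
    have := LinearMap.congr_fun a1 w'
    simp only [← a3, nn_apply, h.p, Ys_r' hy] at this
    linear_combination (norm := module) -this
  have a6 := smul_mem _ ((2 * q y)⁻¹ * polar q (β y) w') hy
  refine ⟨(2 * q y)⁻¹ * polar q (β y) w',
    LinearEquiv.toLinearMap_injective (sub_eq_zero.1 (h.ext ?_ ?_ fun z hz => ?_))⟩
  · rw [LinearMap.sub_apply, LinearEquiv.coe_coe, LinearEquiv.coe_coe, h.e_w a6, ← a3, sub_self]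
  · have b1 := decomp (q := q) w w' (β w')
    have b2 := isom_polar hβ y w'
    have b3 := isom_q hβ w'
    rw [a4, G.three hd h hy hy' (h.pY_mem _), polar_pY hy] at b1
    rw [a5, polar_add_left, polar_smul_left, a4, Ys_r' hy] at b2
    rw [show polar q y (β w') = -polar q (β y) w' by simpa [add_eq_zero_iff_eq_neg] using b2] at b1
    rw [b1] at b3
    simp [Q_add, Q_smul, h.l, h.r, h.p, Ys_l hy, Ys_r' hy] at b3
    rw [LinearMap.sub_apply, LinearEquiv.coe_coe, LinearEquiv.coe_coe, h.e_w' a6, b1, Q_smul]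
    linear_combination (norm := module) b3 • w
  · rw [G.three hd h hy hy' hz, map_smul, LinearMap.sub_apply, LinearEquiv.coe_coe,
      LinearEquiv.coe_coe, h.e_y a6 hy, polar_smul_left, polar_self', smul_eq_mul,
      show (2 * q y)⁻¹ * polar q (β y) w' * (2 * q y) = polar q (β y) w' by field_simp, ← a5]
    simp

end GW

end H27.OW
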