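import Cfsg.Agent.H27.O7b

/-! S5806: highest weight vectors of symplectic modules of `SL₂(E)` in defining characteristic. -/

set_option autoImplicit false
set_option linter.unusedSectionVars false

open Module Cfsg MatrixGroups H26.O7 H27.O7 Finset
namespace H27.S6
universe u v
local notation "up" => H26.O7.up

section
variable (p : ℕ) [hp : Fact p.Prime]
theorem rho_prime {l : ℕ} (hl : (l + 1).Prime) (n : ℕ) (h : rho p n = l + 1) : l < p ∧ ∃ i, n = l * p ^ i := by
  induction n using Nat.strong_induction_on with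
  | _ n ih =>
    have := hl.two_le
    have n0 : n ≠ 0 := by rintro rfl; simp [rho, filter_singleton, hp.out.ne_one] at h; omega
    rw [rho_eq] at h
    have e := Nat.mod_add_div n p
    rcases hl.eq_one_or_self_of_dvd _ ⟨_, h.symm⟩ with k | k <;> rw [k] at h
    · obtain ⟨a, i, b⟩ := ih _ (Nat.div_lt_self (by omega) hp.out.one_lt) (by omega)
      exact ⟨a, i + 1, by rw [← e, b, show n % p = 0 by omega]; ring⟩
    · have := Nat.mod_lt n hp.out.pos
      rw [rho_one p (show rho p (n / p) = 1 from (mul_right_eq_self₀.1 h).resolve_right (by omega))] at e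
      exact ⟨by omega, 0, by rw [pow_zero]; omega⟩

theorem rho_six (n : ℕ) (h : rho p n = 6) :
    (7 ≤ p ∧ ∃ a, n = 5 * p ^ a) ∨ 3 ≤ p ∧ ∃ a b, a ≠ b ∧ n = p ^ a + 2 * p ^ b := by
  induction n using Nat.strong_induction_on with
  | _ n ih =>
    have n0 : n ≠ 0 := by rintro rfl; simp [rho, filter_singleton, hp.out.ne_one] at h
    rw [rho_eq] at h
    have e := Nat.mod_add_div n p
    have l := Nat.mod_lt n hp.out.pos
    have := Nat.le_of_dvd (by norm_num) ⟨_, h.symm⟩
    generalize n % p = d at *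
    obtain rfl | rfl | rfl | rfl | rfl | rfl : d = 0 ∨ d = 1 ∨ d = 2 ∨ d = 3 ∨ d = 4 ∨ d = 5 := by omega
    · rcases ih _ (Nat.div_lt_self (by omega) hp.out.one_lt) (by omega) with ⟨a, i, b⟩ | ⟨a, i, j, c, b⟩
      · exact .inl ⟨a, i + 1, by rw [← e, b]; ring⟩
      · exact .inr ⟨a, i + 1, j + 1, by omega, by rw [← e, b]; ring⟩
    · obtain ⟨a, i, b⟩ := rho_prime p (l := 2) (by norm_num) (n / p) (by omega)
      exact .inr ⟨a, 0, i + 1, by omega, by rw [← e, b]; ring⟩
    · obtain ⟨a, i, b⟩ := rho_prime p (l := 1) (by norm_num) (n / p) (by omega)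
      exact .inr ⟨l, i + 1, 0, by omega, by rw [← e, b]; ring⟩
    · omega
    · omega
    · rw [rho_one p (show rho p (n / p) = 1 by omega)] at e
      have : p ≠ 6 := by rintro rfl; exact absurd hp.out (by norm_num)
      exact .inl ⟨by omega, 0, by rw [pow_zero]; omega⟩
end

variable {E : Type} [Field E] [Fintype E] {K : Type u} [Field K] {M : Type u} [AddCommGroup M] [Module K M]
  [FiniteDimensional K M] (ψ : SL(2, E) →* Au K M) (B : LinearMap.BilinForm K M) (ι : E →+* K) (p : ℕ) [hp : Fact p.Prime]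
  [CharP E p] [CharP K p]

/-- the other weight vectors -/
def wv (x : M) (t : E) : M := ψ (up t) (ψ (wy E) x)

/-- an irreducible symplectic module -/
structure Sy : Prop where
  alt : ∀ x, B x x = 0
  nd : ∀ x, (∀ y, B x y = 0) → x = 0
  inv : ∀ g x y, B (ψ g x) (ψ g y) = B x y
  irr : ∀ W : Submodule K M, (∀ g, ∀ x ∈ W, ψ g x ∈ W) → W = ⊥ ∨ W = ⊤

/-- a highest weight vector -/
structure Hv (x : M) (μ : ℕ) (κ : K) : Prop where
  x0 : x ≠ 0
  k0 : κ ≠ 0
  xu : ∀ t, ψ (up t) x = x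
  xd : ∀ a : Eˣ, ψ (dg a) x = ι a ^ μ • x
  sg : (-1 : K) ^ μ = -1
  xw : ∀ t, B x (wv ψ x t) = -κ
  ww : ∀ s t, B (wv ψ x s) (wv ψ x t) = κ * (ι s - ι t) ^ μ
  sp : Submodule.span K (Set.range (wv ψ x)) = ⊤
  lt : μ < Fintype.card E - 1
  rho : rho p μ = finrank K M
  tr : ∀ g, LinearMap.trace K M (ψ g) ∈ ι.fieldRange

include p in
theorem ex_hw [Nontrivial M] : ∃ x : M, x ≠ 0 ∧ (∀ t, ψ (up t) x = x) ∧ ∃ μ < Fintype.card E - 1,
    ∀ a : Eˣ, ψ (dg a) x = ι a ^ μ • x := by
  classical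
  let C : Submodule K M := ⨅ t, fix (ψ (up t))
  have mC : ∀ x, x ∈ C ↔ ∀ t, ψ (up t) x = x := fun x => by simp [C, mem_fix]
  obtain ⟨g, hg⟩ := IsCyclic.exists_monoid_generator (α := Eˣ)
  have og : orderOf g = Fintype.card E - 1 := by
    rw [orderOf_eq_card_of_forall_mem_powers hg, Nat.card_eq_fintype_card, Fintype.card_units]
  obtain ⟨y, -, y0, hy⟩ := ex_fix' ψ (p := p) (W := ⊤) (fun _ _ _ => trivial) top_ne_bot
  have : Nontrivial C := Submodule.nontrivial_iff_ne_bot.2 ((Submodule.ne_bot_iff _).2 ⟨y, (mC y).2 hy, y0⟩)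
  have pr : IsPrimitiveRoot (ι g) (Fintype.card E - 1) :=
    og ▸ (IsPrimitiveRoot.coe_units_iff.2 (.orderOf g)).map_of_injective ι.injective
  have := Fintype.one_lt_card (α := E)
  have : NeZero (Fintype.card E - 1) := ⟨by omega⟩
  let D := (ψ (dg g) : M →ₗ[K] M).restrict (p := C) fun x hx => (mC _).2 fun t => by
    have := congrArg (ψ · x) (dg_up g (((g * g)⁻¹ : Eˣ) * t))
    simp only [mul_ap] at this
    rwa [(mC x).1 hx, ← Units.val_mul, Units.mul_inv_cancel_left, eq_comm] at this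
  have e : ∀ k (x : C), ψ (dg (g ^ k)) x = (D ^ k) x := fun k => by
    induction k with
    | zero => simp [dg_one]
    | succ k ih => intro x; rw [pow_succ', dg_mul, mul_ap, ih, pow_succ']; rfl
  have dv : minpoly K D ∣ .X ^ (Fintype.card E - 1) - .C 1 := minpoly.dvd K D (by
    ext x; simp [← e, ← og, dg_one])
  obtain ⟨c, hc⟩ := ((Polynomial.X_pow_sub_one_splits pr).of_dvd (Polynomial.X_pow_sub_C_ne_zero (by omega) _) dv).exists_eval_eq_zero
    (minpoly.degree_pos (Algebra.IsIntegral.isIntegral D)).ne'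
  obtain ⟨x, hx⟩ := (End.hasEigenvalue_iff_isRoot.2 hc).exists_hasEigenvector
  have x0 : (x : M) ≠ 0 := by simpa using hx.2
  obtain ⟨μ, h1, h2⟩ := pr.eq_pow_of_pow_eq_one (ξ := c) (smul_left_injective K x0 (by
    simp only; rw [← Submodule.coe_smul, ← hx.pow_apply, ← e, ← og, pow_orderOf_eq_one, dg_one, map_one, one_smul]; rfl))
  refine ⟨x, x0, (mC _).1 x.2, μ, h1, fun a => ?_⟩
  obtain ⟨k, rfl⟩ := hg a
  simp only; rw [e, hx.pow_apply, ← h2, Units.val_pow_eq_pow_val, map_pow, pow_right_comm]; rfl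

variable {ψ B}
theorem Sy.sw (h : Sy ψ B) (x y : M) : B x y = -B y x := (LinearMap.IsAlt.neg h.alt y x).symm

set_option maxHeartbeats 800000 in
theorem Sy.hv [Nontrivial M] (h : Sy ψ B) (hd : finrank K M ≠ Fintype.card E) : ∃ x μ κ, Hv ψ B ι p x μ κ := by
  classical
  obtain ⟨x, x0, xu, μ, hμ, xd⟩ := ex_hw ψ ι p
  set w := wv ψ x with hw
  have orb : ∀ g, ∃ c : E, ψ g x = ι c • x ∨ ∃ t, ψ g x = ι c • w t := fun g => by
    obtain ⟨a, t, rfl⟩ | ⟨s, a, t, rfl⟩ := bru g
    · exact ⟨_, .inl (by rw [mul_ap, xu, xd, ← map_pow])⟩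
    · exact ⟨_, .inr ⟨s, by simp only [mul_ap, xu, xd, map_smul, ← map_pow]; rfl⟩⟩
  have top : ∀ W : Submodule K M, x ∈ W → (∀ t, w t ∈ W) → W = ⊤ := fun W a b => by
    refine eq_top_iff.2 (((h.irr (Submodule.span K (Set.range fun g => ψ g x)) fun g y hy => ?_).resolve_left fun e =>
      x0 ((Submodule.eq_bot_iff _).1 e _ (Submodule.subset_span ⟨1, by simp⟩))).ge.trans (Submodule.span_le.2 ?_))
    · refine (Submodule.span_le (p := (Submodule.span K _).comap (ψ g : M →ₗ[K] M))).2 ?_ hy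
      rintro _ ⟨h, rfl⟩
      exact Submodule.subset_span ⟨g * h, mul_ap _ _ _ _⟩
    · rintro _ ⟨g, rfl⟩
      obtain ⟨c, e | ⟨t, e⟩⟩ := orb g <;> simp only [e]
      exacts [W.smul_mem _ a, W.smul_mem _ (b t)]
  have nd : ∀ y, B y x = 0 → (∀ t, B y (w t) = 0) → y = 0 := fun y a b =>
    h.nd y fun z => (top (LinearMap.ker (B y)) a b).ge trivial
  set κ := B (ψ (wy E) x) x with hκ
  have wx : ∀ t, B (w t) x = κ := fun t => by rw [← xu t, hκ, ← h.inv (up t) _ x, hw, wv, xu]
  have xw : ∀ t, B x (w t) = -κ := fun t => by rw [h.sw, wx]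
  have κ0 : κ ≠ 0 := fun e => x0 (nd x (h.alt x) fun t => by rw [xw, e, neg_zero])
  have ww : ∀ s t, B (w s) (w t) = B (w (s - t)) (w 0) := fun s t => by
    rw [← h.inv (up t) (w (s - t))]; simp only [hw, wv, ← mul_ap, ← mul_assoc, ← up_add]; simp
  have f1 : ∀ c, c ≠ 0 → B (w c) (w 0) = κ * ι c ^ μ := fun c c0 => by
    have := congrArg (ψ · x) (wuw (.mk0 c c0))
    simp only [mul_ap, xu, xd, map_smul, Units.val_mk0, Units.val_neg, map_neg] at this
    rw [← h.inv (wy E), hw, wv, this, wv, up_zero, map_one, LinearEquiv.coe_one, id, ← mul_ap _ (wy E), wy_wy, ← dg_neg, xd]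
    simp only [map_smul, LinearMap.smul_apply, smul_eq_mul]
    rw [show ψ (up (-c⁻¹)) (ψ (wy E) x) = w (-c⁻¹) from rfl, wx, ← mul_assoc, ← mul_pow, mul_comm]; simp
  have sg : (-1 : K) ^ μ = -1 := mul_left_cancel₀ κ0 (by
    have := h.sw (w 0) (w 1)
    rw [ww, f1 _ (by simp), f1 _ one_ne_zero] at this
    simpa using this)
  have q0 : ((Fintype.card E : ℕ) : K) = 0 := by rw [← map_natCast ι, FiniteField.cast_card_eq_zero, map_zero]
  have μ0 : μ ≠ 0 := by
    rintro rfl
    have k : ∀ (c : E → K) t, B (∑ s, c s • w s) (w t) = κ * (∑ s, c s - c t) := fun c t => by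
      rw [map_sum, LinearMap.sum_apply, ← add_sum_erase _ _ (mem_univ t), ← add_sum_erase _ c (mem_univ t),
        add_sub_cancel_left, mul_sum, map_smul, LinearMap.smul_apply, h.alt, smul_zero, zero_add]
      exact sum_congr rfl fun s hs => by
        rw [map_smul, LinearMap.smul_apply, ww, f1 _ (sub_ne_zero.2 (ne_of_mem_erase hs))]; simp [mul_comm]
    have k' : ∀ c : E → K, B (∑ s, c s • w s) x = κ * ∑ s, c s := fun c => by simp [wx, mul_comm κ, sum_mul]
    have li : LinearIndependent K w := Fintype.linearIndependent_iff.2 fun c hc t => by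
      have a := k c t
      have b := k' c
      rw [hc, map_zero, LinearMap.zero_apply] at a b
      exact mul_left_cancel₀ κ0 (by linear_combination a - b)
    have e : x = ∑ s, (1 : K) • w s := sub_eq_zero.1 (nd _ (by rw [map_sub, LinearMap.sub_apply, k', h.alt]; simp [q0])
      fun t => by rw [map_sub, LinearMap.sub_apply, k, xw]; simp [q0])
    have := finrank_span_eq_card li
    rw [top (Submodule.span K (Set.range w)) (e ▸ sum_mem fun s _ => Submodule.smul_mem _ _ (Submodule.subset_span ⟨s, rfl⟩))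
      fun t => Submodule.subset_span ⟨t, rfl⟩, finrank_top] at this
    exact hd this
  have f3 : ∀ s t, B (w s) (w t) = κ * (ι s - ι t) ^ μ := fun s t => by
    rw [ww, ← map_sub]
    by_cases c : s - t = 0
    · rw [c, h.alt, map_zero, zero_pow μ0, mul_zero]
    · exact f1 _ c
  have pl : ∀ {A : Type} (S : Finset A) (c : A → K) (u : A → M) y, B (∑ s ∈ S, c s • u s) y = ∑ s ∈ S, c s * B (u s) y :=
    fun S c u y => by simp
  let v : ℕ → M := fun j => ∑ s, ι s ^ (Fintype.card E - 1 - j) • w s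
  have v1 : ∀ j ≤ μ, ∀ t, B (v j) (w t) = -κ * (μ.choose j * (-ι t) ^ (μ - j)) := fun j hj t => by
    have : ∀ s, ι s ^ (Fintype.card E - 1 - j) * B (w s) (w t) = ∑ m ∈ range (μ + 1),
        κ * ((-ι t) ^ (μ - m) * μ.choose m) * ι s ^ (Fintype.card E - 1 - j + m) := fun s => by
      rw [f3, sub_eq_add_neg, add_pow, mul_sum, mul_sum]
      exact sum_congr rfl fun m _ => by ring
    rw [pl, sum_congr rfl fun s _ => this s,
      sum_comm, sum_eq_single j (fun m hm e => ?_) (by simp; omega), ← mul_sum, O7.sum_pow ι (by omega), if_pos ⟨1, by omega⟩]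
    · ring
    have := mem_range.1 hm
    rw [← mul_sum, O7.sum_pow ι (by omega), if_neg, mul_zero]
    rintro ⟨_ | _ | c, hc⟩
    · omega
    · omega
    · rw [mul_add, mul_add] at hc; omega
  have v3 : x = v μ := sub_eq_zero.1 (nd _ (by
    rw [map_sub, LinearMap.sub_apply, h.alt, pl, sum_congr rfl fun s _ => by rw [wx], ← sum_mul, O7.sum_pow ι (by omega),
      if_neg fun e => absurd (Nat.le_of_dvd (by omega) e) (by omega)]; simp)
    fun t => by rw [map_sub, LinearMap.sub_apply, v1 _ le_rfl, xw]; simp)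
  have sp := top (Submodule.span K (Set.range w)) (v3 ▸ sum_mem fun s _ => Submodule.smul_mem _ _
    (Submodule.subset_span ⟨s, rfl⟩)) fun t => Submodule.subset_span ⟨t, rfl⟩
  have nd' : ∀ y, (∀ t, B y (w t) = 0) → y = 0 := fun y k => h.nd y fun z =>
    (sp.ge.trans ((Submodule.span_le (p := LinearMap.ker (B y))).2 (by rintro _ ⟨t, rfl⟩; exact k t))) trivial
  have v4 : ∀ s, w s = -∑ j ∈ range (μ + 1), ι s ^ j • v j := fun s => eq_neg_of_add_eq_zero_left (nd' _ fun t => by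
    rw [map_add, LinearMap.add_apply, f3, pl, sub_eq_add_neg, add_pow, mul_sum, ← sum_add_distrib]
    refine sum_eq_zero fun j hj => ?_
    rw [v1 j (Nat.lt_succ_iff.1 (mem_range.1 hj))]; ring)
  let A := {k ∈ range (μ + 1) | ¬ p ∣ μ.choose k}
  have mA : ∀ j : A, j.1 ≤ μ ∧ (μ.choose j : K) ≠ 0 := fun j => ⟨Nat.lt_succ_iff.1 (mem_range.1 (mem_filter.1 j.2).1),
    mt (CharP.cast_eq_zero_iff K p _).1 (mem_filter.1 j.2).2⟩
  have li : LinearIndependent K fun j : A => v j := Fintype.linearIndependent_iff.2 fun c hc j => by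
    refine (mul_eq_zero.1 (poly_z (fun t : E => -ι t) (neg_injective.comp ι.injective) (fun j : A => μ - j)
      (fun j l k => Subtype.ext (by have := mA j; have := mA l; simp only at k; omega)) (fun j => by omega)
      (fun j => c j * μ.choose j) (fun t => ?_) j)).resolve_right (mA j).2
    have := pl univ c (fun j : A => v j) (w t)
    rw [hc, map_zero, LinearMap.zero_apply, sum_congr rfl fun (j : A) _ =>
      show _ = -κ * (c j * μ.choose j * (-ι t) ^ (μ - j)) by rw [v1 _ (mA j).1]; ring, ← mul_sum] at this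
    exact (mul_eq_zero.1 this.symm).resolve_left (neg_ne_zero.2 κ0)
  let Λ := Submodule.span ι.fieldRange (Set.range fun j : A => v j)
  have sm : ∀ c : E, ∀ y ∈ Λ, ι c • y ∈ Λ := fun c y hy => Λ.smul_mem ⟨ι c, c, rfl⟩ hy
  have vΛ : ∀ j ≤ μ, v j ∈ Λ := fun j hj => by
    by_cases e : p ∣ μ.choose j
    · rw [nd' (v j) fun t => by rw [v1 j hj, (CharP.cast_eq_zero_iff K p _).2 e]; simp]; exact zero_mem _
    · exact Submodule.subset_span ⟨⟨j, mem_filter.2 ⟨mem_range.2 (by omega), e⟩⟩, rfl⟩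
  have wΛ : ∀ s, w s ∈ Λ := fun s => v4 s ▸ neg_mem (sum_mem fun j hj =>
    map_pow ι s j ▸ sm _ _ (vΛ j (Nat.lt_succ_iff.1 (mem_range.1 hj))))
  let b := Basis.mk li (sp.ge.trans (Submodule.span_le.2 (by
    rintro _ ⟨s, rfl⟩; exact Submodule.span_le_restrictScalars ι.fieldRange K _ (wΛ s))))
  refine ⟨x, μ, κ, x0, κ0, xu, xd, sg, xw, f3, sp, hμ, by rw [finrank_eq_card_basis b, Fintype.card_coe]; rfl, fun g => ?_⟩
  rw [LinearMap.trace_eq_matrix_trace K b]
  refine sum_mem fun j _ => ?_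
  have : ψ g (b j) ∈ Submodule.span ι.fieldRange (Set.range b) := by
    rw [Basis.coe_mk]
    simp only [v, map_sum, map_smul]
    refine sum_mem fun s _ => map_pow ι s _ ▸ sm _ _ ?_
    rw [hw, wv, ← mul_ap, ← mul_ap]
    obtain ⟨c, e | ⟨t, e⟩⟩ := orb (g * up s * wy E) <;> rw [e]
    exacts [sm _ _ (v3 ▸ vΛ _ le_rfl), sm _ _ (wΛ t)]
  obtain ⟨c, hc⟩ := (b.mem_span_iff_repr_mem _ _).1 this j
  rw [Matrix.diag_apply, LinearMap.toMatrix_apply]
  exact hc ▸ c.2

end H27.S6
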