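import Cfsg.Agent.H27.S6a

/-! S5806: the tensor product `V₂ ⊗ S²V₂` is not maximal. -/

set_option autoImplicit false
set_option linter.unusedSectionVars false

open Module Cfsg MatrixGroups H26.O7 H27.O7
namespace H27.S6
universe u v
local notation "up" => H26.O7.up

section
variable {F : Type u} [Field F]
/-- the monomials -/
def mn (a b : F) : Fin 6 → F := ![1, b, b ^ 2, a, a * b, a * b ^ 2]
/-- the product of the centraliser algebra -/
def pr : (Fin 6 → F) →ₗ[F] (Fin 6 → F) →ₗ[F] Fin 6 → F := by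
  refine LinearMap.mk₂ F (fun f c => ![f 0 * c 0, f 1 * c 0 + f 0 * c 1, f 2 * c 0 + 2 * f 1 * c 1 + f 0 * c 2,
    f 3 * c 0 + f 0 * c 3, f 4 * c 0 + f 3 * c 1 + f 1 * c 3 + f 0 * c 4,
    f 5 * c 0 + 2 * f 4 * c 1 + f 3 * c 2 + f 2 * c 3 + 2 * f 1 * c 4 + f 0 * c 5]) ?_ ?_ ?_ ?_ <;> intros <;> ext i <;>
    fin_cases i <;> simp <;> ring
theorem pr_ap (f c : Fin 6 → F) : pr f c = ![f 0 * c 0, f 1 * c 0 + f 0 * c 1, f 2 * c 0 + 2 * f 1 * c 1 + f 0 * c 2,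
    f 3 * c 0 + f 0 * c 3, f 4 * c 0 + f 3 * c 1 + f 1 * c 3 + f 0 * c 4,
    f 5 * c 0 + 2 * f 4 * c 1 + f 3 * c 2 + f 2 * c 3 + 2 * f 1 * c 4 + f 0 * c 5] := rfl
/-- the form -/
def bz (κ : F) : LinearMap.BilinForm F (Fin 6 → F) := by
  refine LinearMap.mk₂ F (fun c d => κ * (c 5 * d 0 - 2 * c 4 * d 1 + c 3 * d 2 - c 2 * d 3 + 2 * c 1 * d 4 - c 0 * d 5))
    ?_ ?_ ?_ ?_ <;> intros <;> simp <;> ring
theorem bz_ap (κ : F) (c d : Fin 6 → F) :
    bz κ c d = κ * (c 5 * d 0 - 2 * c 4 * d 1 + c 3 * d 2 - c 2 * d 3 + 2 * c 1 * d 4 - c 0 * d 5) := rfl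
/-- the Weyl element -/
def nw : (Fin 6 → F) →ₗ[F] Fin 6 → F := by
  refine ⟨⟨fun c => ![-c 5, c 4, -c 3, c 2, -c 1, c 0], ?_⟩, ?_⟩ <;> intros <;> ext i <;> fin_cases i <;> simp <;> ring
theorem nw_ap (c : Fin 6 → F) : nw c = ![-c 5, c 4, -c 3, c 2, -c 1, c 0] := rfl
def X0 (c : Fin 6 → F) : Prop := c 0 = 0 ∧ c 1 = 0 ∧ c 2 = 0
/-- pure tensors -/
def Z0 (c : Fin 6 → F) : Prop := X0 c ∨ ∃ l, c 3 = l * c 0 ∧ c 4 = l * c 1 ∧ c 5 = l * c 2

theorem Z0.pr {c : Fin 6 → F} (h : Z0 c) (a b : F) : Z0 (pr (mn a b) c) := by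
  rcases h with ⟨x, y, z⟩ | ⟨l, x, y, z⟩
  · exact .inl (by simp [X0, pr_ap, x, y, z])
  · exact .inr ⟨l + a, by simp [pr_ap, mn, x, y, z]; refine ⟨?_, ?_, ?_⟩ <;> ring⟩
theorem Z0.nw {c : Fin 6 → F} (h : Z0 c) : Z0 (nw c) := by
  rcases h with ⟨x, y, z⟩ | ⟨l, x, y, z⟩
  · exact .inr ⟨0, by simp [nw_ap, x, y, z]⟩
  by_cases e : l = 0
  · exact .inl (by simp [X0, nw_ap, x, y, z, e])
  · exact .inr ⟨-l⁻¹, by simp [nw_ap, x, y, z, e]⟩

theorem key (h2 : (2 : F) ≠ 0) {E : Type*} (m : E → Fin 6 → F) (sp : Submodule.span F (Set.range m) = ⊤)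
    (k : (Fin 6 → F) ≃ₗ[F] Fin 6 → F) (hk : ∀ t, ∃ f, ∀ c, pr (m t) (k c) = k (pr f c)) {c : Fin 6 → F} (hc : X0 c) :
    X0 (k c) := by
  let y : (Fin 6 → F) →ₗ[F] Fin 6 → F := k ∘ₗ pr (Pi.single 3 1) ∘ₗ k.symm
  have yk : ∀ c, y (k c) = k (pr (Pi.single 3 1) c) := fun c => by simp [y]
  obtain ⟨f, hf⟩ : ∃ f, ∀ c, y c = pr f c := ⟨y (Pi.single 0 1), fun c => LinearMap.congr_fun
    (LinearMap.ext_on_range sp fun t => by
      obtain ⟨f, hf⟩ := hk t
      obtain ⟨d, hd⟩ := k.surjective (Pi.single 0 1)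
      have a : pr (m t) (Pi.single 0 1) = m t := by ext i; fin_cases i <;> simp [pr_ap]
      have b : ∀ a b : Fin 6 → F, pr a b = pr b a := fun a b => by ext i; fin_cases i <;> simp [pr_ap] <;> ring
      rw [b, ← hd, yk, hf, ← a, ← hd, hf, yk]
      congr 1; ext i; fin_cases i <;> simp [pr_ap] <;> ring) c⟩
  have sq : pr f f = 0 := by
    obtain ⟨d, hd⟩ := k.surjective (Pi.single 0 1)
    have : f = y (k d) := by rw [hf, hd]; ext i; fin_cases i <;> simp [pr_ap]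
    rw [← hf, this, yk, yk, map_eq_zero_iff _ k.injective]
    ext i; fin_cases i <;> simp [pr_ap]
  have kr : ∀ c, pr (Pi.single 3 (1 : F)) c = 0 → ∃ d, k c = pr f d := fun c e => ⟨k ![c 3, c 4, c 5, 0, 0, 0], by
    rw [← hf, yk]
    have := congrFun e 3; have := congrFun e 4; have := congrFun e 5
    congr 1; ext i; fin_cases i <;> simp_all [pr_ap]⟩
  have f0 : f 0 = 0 := by simpa [pr_ap] using congrFun sq 0
  have f1 : f 1 = 0 := by simpa [pr_ap, f0, h2] using congrFun sq 2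
  obtain ⟨d, hd⟩ := kr c (by ext i; fin_cases i <;> simp [pr_ap, hc.1, hc.2.1, hc.2.2])
  by_cases f2 : f 2 = 0
  · simp [X0, hd, pr_ap, f0, f1, f2]
  have f3 : f 3 = 0 := by
    have := congrFun sq 5
    simp [pr_ap, f0, f1] at this
    exact mul_left_cancel₀ (mul_ne_zero h2 f2) (by linear_combination this)
  obtain ⟨d, hd⟩ := kr (k.symm (Pi.single 4 1)) (k.injective (by
    rw [← yk, hf, k.apply_symm_apply, map_zero]; ext i; fin_cases i <;> simp [pr_ap, f0, f1]))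
  rw [k.apply_symm_apply] at hd
  have a := congrFun hd 2
  have b := congrFun hd 4
  simp [pr_ap, f0, f1, f2, f3] at a b
  simp [a] at b
end

variable {E : Type} [Field E] [Fintype E] {K : Type u} [Field K] {M : Type u} [AddCommGroup M] [Module K M]
  [FiniteDimensional K M] {ψ : SL(2, E) →* Au K M} {B : LinearMap.BilinForm K M} {ι : E →+* K} {p : ℕ} [hp : Fact p.Prime]
  [CharP E p] [CharP K p] {x : M} {μ : ℕ} {κ : K} (h : Sy ψ B) (hv : Hv ψ B ι p x μ κ)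
include h hv

theorem Hv.nd {y : M} (k : ∀ t, B y (wv ψ x t) = 0) : y = 0 := h.nd y fun z =>
  (hv.sp.ge.trans ((Submodule.span_le (p := LinearMap.ker (B y))).2 (by rintro _ ⟨t, rfl⟩; exact k t))) trivial
omit h hv in
theorem up_wv (s t : E) : ψ (up s) (wv ψ x t) = wv ψ x (s + t) := by rw [wv, wv, up_add, mul_ap]
theorem Hv.line {y : M} (k : ∀ t, ψ (up t) y = y) : ∃ c : K, y = c • x :=
  ⟨-B y (wv ψ x 0) / κ, sub_eq_zero.1 (hv.nd h fun t => by
    rw [map_sub, LinearMap.sub_apply, map_smul, LinearMap.smul_apply, hv.xw, ← h.inv (up t) y (wv ψ x 0), k, up_wv]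
    simp [hv.k0])⟩
omit h in
theorem Hv.neg : ψ (-1) x = -x := by rw [← dg_neg, hv.xd]; simp [hv.sg]
omit h in
theorem Hv.inj (h2 : (2 : K) ≠ 0) (hk : ∀ g, ψ g = 1 → g ∈ Subgroup.center SL(2, E)) : Function.Injective ψ :=
  (injective_iff_map_eq_one ψ).2 fun g e => by
    obtain ⟨r, h1, h3⟩ := Matrix.SpecialLinearGroup.mem_center_iff.1 (hk g e)
    rcases mul_self_eq_one_iff.1 ((sq r).symm.trans h1) with rfl | rfl
    · exact Subtype.ext (h3.symm.trans (by simp))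
    · have := hv.neg
      rw [show -1 = g from Subtype.ext (Eq.trans (by simp [← Matrix.diagonal_neg]) h3), e] at this
      exact (hv.x0 ((smul_eq_zero.1 ((two_smul K x).trans (eq_neg_iff_add_eq_zero.1 this))).resolve_left h2)).elim

theorem coord (d6 : finrank K M = 6) {σ τ : E →+* K} (hμ : ∀ t, ι t ^ μ = σ t * τ t ^ 2) : ∃ γ : M ≃ₗ[K] Fin 6 → K,
    (∀ s, γ (wv ψ x s) = mn (σ s) (τ s)) ∧ (∀ y z, B y z = bz κ (γ y) (γ z)) ∧ γ x = -Pi.single 5 1 ∧
    (∀ t y, γ (ψ (up t) y) = pr (mn (σ t) (τ t)) (γ y)) ∧ ∀ y, γ (ψ (wy E) y) = nw (γ y) := by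
  let Φ : M →ₗ[K] E → K := LinearMap.pi fun t => B.flip (wv ψ x t)
  let Ψ : (Fin 6 → K) →ₗ[K] E → K := LinearMap.pi fun t => (bz κ).flip (mn (σ t) (τ t))
  have i1 : Function.Injective Φ := (injective_iff_map_eq_zero _).2 fun y e => hv.nd h (congrFun e)
  have e1 : ∀ s, Φ (wv ψ x s) = Ψ (mn (σ s) (τ s)) := fun s => funext fun t => by
    change B _ _ = bz κ _ _
    rw [hv.ww, ← map_sub, hμ, bz_ap]; simp [mn]; left; ring
  have le : ∀ y, Φ y ∈ LinearMap.range Ψ := fun y => (hv.sp.ge.trans ((Submodule.span_le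
    (p := (LinearMap.range Ψ).comap Φ)).2 (by rintro _ ⟨t, rfl⟩; exact ⟨_, (e1 t).symm⟩))) trivial
  have i2 : Function.Injective Ψ := LinearMap.ker_eq_bot.1 (Submodule.finrank_eq_zero.1 (by
    have a := Ψ.finrank_range_add_finrank_ker
    have b := Submodule.finrank_mono (show LinearMap.range Φ ≤ LinearMap.range Ψ by rintro _ ⟨y, rfl⟩; exact le y)
    rw [LinearMap.finrank_range_of_inj i1] at b
    simp only [finrank_fintype_fun_eq_card, Fintype.card_fin] at a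
    omega))
  let g := (LinearEquiv.ofInjective Ψ i2).symm.toLinearMap ∘ₗ Φ.codRestrict _ le
  have hg : ∀ y, Ψ (g y) = Φ y := fun y => congrArg Subtype.val ((LinearEquiv.ofInjective Ψ i2).apply_symm_apply _)
  let γ := g.linearEquivOfInjective (fun a b e => i1 (by rw [← hg, e, hg])) (by simp [d6])
  have g1 : ∀ s, γ (wv ψ x s) = mn (σ s) (τ s) := fun s => i2 ((hg _).trans (e1 s))
  have g3 : γ x = -Pi.single 5 1 := i2 ((hg _).trans (funext fun t => by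
    change B _ _ = bz κ _ _
    rw [hv.xw, bz_ap]; simp [mn]))
  refine ⟨γ, g1, fun y => LinearMap.congr_fun (g := bz κ (γ y) ∘ₗ γ) (LinearMap.ext_on_range hv.sp fun t => ?_), g3,
    fun t => LinearMap.congr_fun (f := γ.toLinearMap ∘ₗ (ψ (up t)).toLinearMap) (g := pr _ ∘ₗ γ.toLinearMap)
      (LinearMap.ext_on_range hv.sp fun s => ?_),
    LinearMap.congr_fun (f := γ.toLinearMap ∘ₗ (ψ (wy E)).toLinearMap) (g := nw ∘ₗ γ.toLinearMap)
      (LinearMap.ext_on_range hv.sp fun s => ?_)⟩ <;>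
    simp only [LinearMap.comp_apply, LinearEquiv.coe_coe, g1, up_wv]
  · exact (congrFun (hg y) t).symm
  · ext i; fin_cases i <;> simp [pr_ap, mn] <;> ring
  by_cases e : s = 0
  · rw [e, wv, up_zero, map_one, LinearEquiv.coe_one, id, ← mul_ap, wy_wy, hv.neg, map_neg, g3]
    ext i; fin_cases i <;> simp [nw_ap, mn]
  have := congrArg (ψ · x) (wuw (.mk0 s e))
  simp only [mul_ap, hv.xu, hv.xd, map_smul, Units.val_mk0, Units.val_neg, hμ] at this
  rw [wv, this, map_smul, show ψ (up (-s⁻¹)) (ψ (wy E) x) = wv ψ x (-s⁻¹) from rfl, g1]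
  have := (map_ne_zero σ).2 e
  have := (map_ne_zero τ).2 e
  ext i; fin_cases i <;> simp [nw_ap, mn] <;> field_simp

theorem tens [Finite K] (h2 : (2 : K) ≠ 0) (d6 : finrank K M = 6) {σ τ : E →+* K} (hμ : ∀ t, ι t ^ μ = σ t * τ t ^ 2)
    (hσ : Function.Surjective σ) (inj : Function.Injective ψ) (H : Subgroup (Au K M))
    (nrm : ∀ k ∈ H, ∀ g, ∃ g', ψ g' = k * ψ g * k⁻¹) (iso : ∀ k ∈ H, ∀ y z, B (k y) (k z) = B y z)
    (mx : ∀ N : Subgroup (Au K M), H ≤ N → (∀ k ∈ N, ∀ y z, B (k y) (k z) = B y z) →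
      N ≤ H ∨ ∀ k : Au K M, (∀ y z, B (k y) (k z) = B y z) → k ∈ N) : False := by
  obtain ⟨γ, g1, g2, g3, g4, g5⟩ := coord h hv d6 hμ
  have := Module.finite_of_finite K (M := M)
  have : Finite (Au K M) := .of_injective _ (DFunLike.coe_injective (F := Au K M))
  let S : Submonoid (Au K M) := ⟨⟨{k | (∀ y z, B (k y) (k z) = B y z) ∧ ∀ y, Z0 (γ y) → Z0 (γ (k y))},
    fun a b => ⟨fun y z => (a.1 _ _).trans (b.1 y z), fun y e => a.2 _ (b.2 y e)⟩⟩, fun _ _ => rfl, fun _ e => e⟩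
  let N : Subgroup (Au K M) := ⟨S, fun {k} a => (Submonoid.powers_le.2 a : _ ≤ S)
    (mem_powers_iff_mem_zpowers.2 (inv_mem (Subgroup.mem_zpowers k)))⟩
  have PN : ∀ g, ψ g ∈ N := fun g => (eq_top (H := N.comap ψ) (fun t => ⟨h.inv _, fun y e => g4 t y ▸ e.pr _ _⟩)
    ⟨h.inv _, fun y e => g5 y ▸ e.nw⟩).ge (Subgroup.mem_top g)
  have mk : ∀ f : (Fin 6 → K) →ₗ[K] Fin 6 → K, (∀ c d, bz κ (f c) (f d) = bz κ c d) →
      ∃ k : Au K M, (∀ y z, B (k y) (k z) = B y z) ∧ ∀ y, γ (k y) = f (γ y) := fun f hf => by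
    let f' : M →ₗ[K] M := γ.symm ∘ₗ f ∘ₗ γ
    have a : ∀ y z, B (f' y) (f' z) = B y z := fun y z => by simp [f', g2, hf]
    exact ⟨LinearEquiv.ofInjectiveEndo f' ((injective_iff_map_eq_zero _).2 fun y e => h.nd y fun z => by
      rw [← a, e, map_zero, LinearMap.zero_apply]), a, fun y => by simp [f']⟩
  refine (mx N (fun k hk => ⟨iso k hk, fun y hy => ?_⟩) fun k a => a.1).elim (fun e => ?_) fun e => ?_
  rotate_left
  · obtain ⟨z, z1, z2⟩ := mk (pr (mn 1 0)) fun c d => by simp [bz_ap, pr_ap, mn]; left; ring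
    obtain ⟨g, hg⟩ := nrm z (e ⟨z1, fun y a => z2 y ▸ a.pr _ _⟩) (wy E)
    have zx : z x = x := γ.injective (by rw [z2, g3]; ext i; fin_cases i <;> simp [pr_ap, mn])
    have := congrArg (fun k : Au K M => γ (k x)) (eq_mul_inv_iff_mul_eq.1 hg)
    simp only [LinearEquiv.mul_apply, zx, z2] at this
    rw [show ψ (wy E) x = wv ψ x 0 by simp [wv, up_zero], g1] at this
    obtain ⟨a, t, rfl⟩ | ⟨s, a, t, rfl⟩ := bru g <;> simp only [mul_ap, hv.xu, hv.xd, map_smul] at this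
    · simpa [g3, pr_ap, mn] using congrFun this 0
    · rw [show ψ (up s) (ψ (wy E) x) = wv ψ x s from rfl, g1] at this
      have a := congrFun this 0
      have b := congrFun this 1
      have c := congrFun this 3
      simp [pr_ap, mn] at a b c
      simp_all
  · obtain ⟨j, j1, j2⟩ := mk (1 + (LinearMap.proj 5).smulRight (Pi.single 0 1)) fun c d => by simp [bz_ap]; ring
    have := (e j j1).2 (γ.symm (Pi.single 5 1)) (.inl (by simp [X0]))
    rw [j2] at this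
    simp [Z0, X0] at this
  let Q := ((ψ.comp upH).range.map (MulAut.conj k⁻¹).toMonoidHom).comap ψ
  obtain ⟨v, -, v0, hQ⟩ := H17.exists_fixed_vec (p := p) (LinearEquiv.automorphismGroup.toLinearMapMonoidHom.comp
    (Matrix.SpecialLinearGroup.toLin' (n := Fin 2) (R := E))) Q (fun ⟨a, _, ⟨t, rfl⟩, e⟩ => ⟨1, Subtype.ext (inj (by
      change ψ (a ^ p ^ 1) = ψ 1
      rw [map_pow, ← e, ← map_pow, ← map_pow, map_one, show t ^ p ^ 1 = 1 from Multiplicative.toAdd.injective (by simp)]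
      simp))⟩) ⊤ (fun _ _ _ _ => trivial) top_ne_bot
  obtain ⟨g, ga, gb⟩ := (Semifield.isCoprime_iff.2 (show v 0 ≠ 0 ∨ v 1 ≠ 0 by
    by_contra! e; exact v0 (by ext i; fin_cases i <;> simp [e]))).exists_SL2_col 0
  have k1 := fun c => key h2 (fun t => mn (σ t) (τ t)) (by
    rw [← funext g1, show (fun s => γ (wv ψ x s)) = (γ : M →ₗ[K] _) ∘ wv ψ x from rfl, Set.range_comp, Submodule.span_image,
      hv.sp, Submodule.map_top, LinearEquiv.range]) (γ.symm ≪≫ₗ (k * ψ g) ≪≫ₗ γ) (c := c) fun t => by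
    obtain ⟨a, ha⟩ := nrm _ (inv_mem hk) (up t)
    have := hQ a ⟨_, ⟨.ofAdd t, rfl⟩, ha.symm⟩
    have e0 := congrFun this 0
    have e1 := congrFun this 1
    have d1 := (Matrix.det_fin_two _).symm.trans a.2
    have d2 := (Matrix.det_fin_two _).symm.trans g.2
    simp [Matrix.mulVec, dotProduct, ← ga, ← gb, Matrix.SpecialLinearGroup.toLin'_apply] at e0 e1
    have : a * g = g * up ((g⁻¹ * a * g).1 0 1) := by
      ext i j; fin_cases i <;> fin_cases j <;>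
        simp [up_val, Matrix.mul_apply, Matrix.SpecialLinearGroup.coe_inv, Matrix.adjugate_fin_two, Matrix.vecMul, dotProduct] <;>
        grind
    generalize (g⁻¹ * a * g).1 0 1 = s at this
    refine ⟨mn (σ s) (τ s), fun c => ?_⟩
    obtain ⟨y, rfl⟩ := γ.surjective c
    simp only [LinearEquiv.trans_apply, ← g4, γ.symm_apply_apply, LinearEquiv.mul_apply, ← mul_ap, ← this]
    rw [mul_ap, ha]; simp
  obtain ⟨b, hb⟩ : ∃ b, X0 (γ (ψ b y)) := by
    rcases hy with e | ⟨l, e⟩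
    · exact ⟨1, by simpa using e⟩
    · obtain ⟨t, rfl⟩ := hσ l
      exact ⟨wy E * up (-t), by simp [mul_ap, g5, g4, X0, nw_ap, pr_ap, mn, e]; refine ⟨?_, ?_⟩ <;> ring⟩
  obtain ⟨a, ha⟩ := nrm k hk (b⁻¹ * g⁻¹)
  have := (PN a).2 ((k * ψ g) (ψ b y)) (.inl (by simpa using k1 _ hb))
  rwa [← LinearEquiv.mul_apply, ← LinearEquiv.mul_apply, ha, map_mul, map_inv, map_inv, show k * ((ψ b)⁻¹ * (ψ g)⁻¹) * k⁻¹ *
    (k * ψ g) * ψ b = k by group] at this

end H27.S6
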