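import Cfsg.Agent.H27.S6b
import Cfsg.Agent.H11.SP2
import Cfsg.Agent.S0243

/-! S5806: the piece `LD`. -/

set_option autoImplicit false
set_option linter.unusedSectionVars false

open Module Cfsg MatrixGroups H26.O7 H27.O7 H6.SP H11.SP Matrix
namespace H27.S6
universe u v
local notation "up" => H26.O7.up
local notation "dg" => H26.O7.dg

section
variable {K : Type u} [Field K]
variable (K) in
/-- the symplectic form -/
def fb : LinearMap.BilinForm K (V6 K) := LinearMap.mk₂ K fm fm_add_l fm_smul_l (fun a b c => fm_add_r b c a) fun c a b =>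
  fm_smul_r c b a

variable {E : Type} [Field E] [Fintype E] (p : ℕ) [hp : Fact p.Prime] [CharP E p] [CharP K p]
theorem sy {ρ : SL(2, E) →* G6 K} (h : ρ.range ≤ S6 K) (t : Asch.alg ρ.range = ⊤) :
    Sy ((H12.glEquiv I6 K).toMonoidHom.comp ρ) (fb K) :=
  ⟨fm_self, fun _ => fm_nd, fun g => mem_S6.1 (h ⟨g, rfl⟩), fun W hW => Asch.irr_of_alg t W (by
    rintro _ ⟨g, rfl⟩; exact hW g)⟩

include p in
theorem ne6 : finrank K (V6 K) ≠ Fintype.card E := fun e => by
  obtain ⟨n, -, h⟩ := FiniteField.card E p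
  have a : ∀ l : ℕ, l.Prime → l ∣ 6 → l = p := fun l a b => (Nat.prime_dvd_prime_iff_eq a hp.out).1
    (a.dvd_of_dvd_pow (n := n) (by rw [← h, ← e]; simpa using b))
  have := a 2 (by norm_num) (by norm_num)
  have := a 3 (by norm_num) (by norm_num)
  omega

theorem prim (ι : E →+* K) : ∃ g : E, IsPrimitiveRoot (ι g) (Fintype.card E - 1) := by
  classical
  obtain ⟨g, hg⟩ := IsCyclic.exists_monoid_generator (α := Eˣ)
  have og : orderOf g = Fintype.card E - 1 := by
    rw [orderOf_eq_card_of_forall_mem_powers hg, Nat.card_eq_fintype_card, Fintype.card_units]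
  exact ⟨g, og ▸ (IsPrimitiveRoot.coe_units_iff.2 (.orderOf g)).map_of_injective ι.injective⟩

theorem ded (h2 : (2 : K) ≠ 0) {σ τ σ' τ' : E →+* K} (n : σ ≠ τ) (h : ∀ t, σ t * τ t ^ 2 = σ' t * τ' t ^ 2) : σ = σ' := by
  classical
  by_contra e
  have i : ∀ {a b : E →+* K}, a.toMonoidHom = b.toMonoidHom ↔ a = b := RingHom.coe_monoidHom_injective.eq_iff
  have := Finsupp.ext_iff.1 (linearIndependent_iff.1 (linearIndependent_monoidHom E K) (.single σ.toMonoidHom 1 +
    .single τ.toMonoidHom 2 - .single σ'.toMonoidHom 1 - .single τ'.toMonoidHom 2) (funext fun t => by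
      have a := h (t + 1)
      have b := h (t - 1)
      simp only [map_add, map_sub, map_one] at a b
      simp
      exact mul_left_cancel₀ h2 (by linear_combination a + b - 2 * h t))) σ.toMonoidHom
  simp only [Finsupp.coe_sub, Finsupp.coe_add, Pi.sub_apply, Pi.add_apply, Finsupp.single_apply, i, n.symm, Ne.symm e,
    if_true, if_false, Finsupp.coe_zero, Pi.zero_apply] at this
  split_ifs at this
  · exact one_ne_zero (α := K) (by linear_combination -this)
  · simp at this
end

theorem ld (lf : H6.SP.LF.{u}) : LD.{u} := by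
  intro F G _ _ _ p hp _ H P π h r hr ⟨E, _, _, hE, ⟨e⟩⟩
  classical
  subst hE
  have : CharP E p := by
    obtain ⟨l, _, n, hl, hc⟩ := FiniteField.card' E
    rwa [(Nat.prime_dvd_prime_iff_eq hp.out hl).1 (hp.out.dvd_of_dvd_pow (hc ▸ hr))]
  have := fin_P h.toRq
  obtain ⟨φ, hs, hφ⟩ : ∃ φ : SL(2, E) →* P, Function.Surjective φ ∧ ∀ g, e (π (φ g)) = QuotientGroup.mk g := by
    rcases hp.out.eq_two_or_odd' with rfl | po
    · let f := MulEquiv.ofBijective π ⟨(injective_iff_map_eq_one _).2 fun x hx => Subtype.ext (((h.ker x).1 hx).elim id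
        fun k => k.trans (Units.ext (by ext i j; simp [CharTwo.neg_eq]))), h.sur⟩
      exact ⟨(f.trans e).symm.toMonoidHom.comp (QuotientGroup.mk' _), (f.trans e).symm.surjective.comp
        (QuotientGroup.mk'_surjective _), fun g => (f.trans e).apply_symm_apply _⟩
    · obtain ⟨n, -, c⟩ := FiniteField.card E p
      have o : Odd (Fintype.card E) := c ▸ po.pow
      have k : (e.toMonoidHom.comp π).ker = π.ker := MonoidHom.ker_comp_of_injective _ _ e.injective
      refine lf E P (e.toMonoidHom.comp π) o ?_ (e.surjective.comp h.sur) (comm_top h.toRq) (k ▸ ker_cen h.toRq)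
        (k ▸ card_ker h.toRq)
      by_contra! l
      have q3 : Fintype.card E = 3 := by
        have := Fintype.one_lt_card (α := E)
        obtain ⟨m, hm⟩ := o
        omega
      have a := Cfsg.Agent.S0243.result q3 2 le_rfl
      have b := π.ker.card_mul_index
      have := Fintype.ofFinite P
      have c := finrank_range_le_card (R := F) fun x : P => x.1.val
      rw [Set.finrank, show Set.range (fun x : P => x.1.val) = Geo.matrixSet P from Set.ext fun M =>
        ⟨fun ⟨x, e⟩ => ⟨x, x.2, e⟩, fun ⟨x, a, e⟩ => ⟨⟨x, a⟩, e⟩⟩, Asch.span_eq_top_of_alg h.top, ← Nat.card_eq_fintype_card] at c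
      rw [Subgroup.index_ker, MonoidHom.range_eq_top.2 h.sur, Subgroup.card_top, Nat.card_congr e.toEquiv] at b
      have := card_ker h.toRq
      rw [finrank_top, finrank_matrix] at c
      rw [Fin.prod_univ_two] at a
      generalize Nat.card PSL(2, E) = z at *
      simp only [Fintype.card_sum, Fintype.card_fin, finrank_self] at c
      norm_num at a
      rw [show z = 12 by omega] at b
      omega
  let ρ := P.subtype.comp φ
  have rρ : ρ.range = P := by rw [MonoidHom.range_comp, MonoidHom.range_eq_top.2 hs, ← MonoidHom.range_eq_map, P.range_subtype]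
  have d6 : ∀ K : Type u, ∀ [Field K], finrank K (V6 K) = 6 := fun K _ => by simp
  have two : ∀ K : Type u, ∀ [Field K] [CharP K p], 3 ≤ p → (2 : K) ≠ 0 := fun K _ _ l e =>
    absurd (Nat.le_of_dvd two_pos ((CharP.cast_eq_zero_iff K p 2).1 e)) (by omega)
  have fr : ∀ (K : Type u) [Field K] [CharP K p] (ι : E →+* K) (a b : ℕ) (t : E), ι t ^ (p ^ a + 2 * p ^ b) =
      ((iterateFrobenius K p a).comp ι) t * ((iterateFrobenius K p b).comp ι) t ^ 2 := fun K _ _ ι a b t => by
    simp [iterateFrobenius_def, pow_add, mul_comm 2, pow_mul]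
  have rq : Fintype.card E = Fintype.card F := by
    let K := AlgebraicClosure F
    let σ := algebraMap F K
    let _ := ZMod.algebra E p
    let _ := ZMod.algebra K p
    let ι : E →+* K := (IsAlgClosed.lift : E →ₐ[ZMod p] K)
    have r' : ((GeneralLinearGroup.map σ).comp ρ).range = P.map (GeneralLinearGroup.map σ) := by
      rw [MonoidHom.range_comp, rρ]
    have hK := sy (ρ := (GeneralLinearGroup.map σ).comp ρ) (by
      rintro _ ⟨g, rfl⟩; exact (gm_mem σ).2 (h.sp (φ g).2)) (r' ▸ gm_alg σ h.top)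
    obtain ⟨x, μ, κ, hv⟩ := hK.hv ι p (ne6 p)
    have t := (te.{u, 0} F).1 P h.top h.fld (ι.fieldRange.comap σ) fun y hy => by
      obtain ⟨g, rfl⟩ := rρ.ge hy
      exact Subfield.mem_comap.2 ((gm_T σ _).symm.trans (trace_toLin'_eq _).symm ▸ hv.tr g)
    let j : F →+* E := ι.rangeRestrictFieldEquiv.symm.toRingHom.comp (σ.codRestrict _ fun a => t.ge trivial)
    obtain ⟨k, hk⟩ : ∃ k, Fintype.card E = Fintype.card F ^ k := let _ := j.toAlgebra; ⟨_, card_eq_pow_finrank⟩
    have hq : ∀ t : E, (ι t ^ μ) ^ Fintype.card F = ι t ^ μ := fun t => by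
      by_cases t0 : t = 0
      · have : μ ≠ 0 := by
          rintro rfl
          have := hv.rho
          simp [rho, Finset.filter_singleton, hp.out.ne_one] at this
        simp [t0, this]
      obtain ⟨y, -, y0, hy⟩ := ex_fix' ((H12.glEquiv I6 F).toMonoidHom.comp ρ) (p := p) (W := ⊤) (fun _ _ _ => trivial) top_ne_bot
      have mv : ∀ g i, ((H12.glEquiv I6 K).toMonoidHom.comp ((GeneralLinearGroup.map σ).comp ρ) g) (σ ∘ y) i =
        σ (((ρ g).val *ᵥ y) i) := fun g i => (RingHom.map_mulVec σ _ y i).symm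
      obtain ⟨c, hc⟩ := hv.line hK (y := σ ∘ y) fun t => funext fun i => (mv _ i).trans (congrArg σ (congrFun (hy t) i))
      obtain ⟨i, hi⟩ := Function.ne_iff.1 y0
      have := mv (dg (.mk0 t t0)) i
      rw [hc, map_smul, hv.xd, smul_comm, ← hc, Pi.smul_apply, smul_eq_mul, Function.comp_apply,
        ← eq_div_iff ((map_ne_zero σ).2 hi), ← map_div₀, Units.val_mk0] at this
      rw [this, ← map_pow, FiniteField.pow_card]
    obtain ⟨g, hg⟩ := prim ι
    have r1 := Fintype.one_lt_card (α := E)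
    have q1 := Fintype.one_lt_card (α := F)
    have g0 : ι g ≠ 0 := hg.ne_zero (by omega)
    obtain ⟨m, -, hm⟩ := FiniteField.card F p
    have k0 : k ≠ 0 := by rintro rfl; simp at hk; omega
    rcases rho_six p μ (hv.rho.trans (d6 K)) with ⟨l, a, rfl⟩ | ⟨l, a, b, ab, rfl⟩
    · obtain ⟨q, hq'⟩ : ∃ q, Fintype.card F = q + 1 := ⟨_, (Nat.succ_pred_eq_of_pos (by omega)).symm⟩
      have : Fintype.card E - 1 ≤ 5 * q := Nat.le_of_dvd (by omega) (hg.dvd_of_pow_eq_one _
        ((ExpChar.pow_prime_pow_mul_eq_one_iff p a _ _).1 (mul_right_cancel₀ (pow_ne_zero (5 * p ^ a) g0)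
          (Eq.trans (by rw [hq']; ring) ((hq g).trans (one_mul _).symm)))))
      have p1 : p ≤ Fintype.card F := hm ▸ Nat.le_self_pow m.ne_zero p
      by_contra n
      have : Fintype.card F ^ 2 ≤ Fintype.card F ^ k := Nat.pow_le_pow_right (by omega) (by
        by_contra! l; exact n (by rw [hk, show k = 1 by omega, pow_one]))
      rw [← hk, hq'] at this
      have : Fintype.card E ≤ 5 * q + 1 := by omega
      nlinarith
    · have lt := hv.lt
      have := ded (two K l) (σ := (iterateFrobenius K p a).comp ι) (τ := (iterateFrobenius K p b).comp ι)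
        (σ' := (iterateFrobenius K p m).comp ((iterateFrobenius K p a).comp ι))
        (τ' := (iterateFrobenius K p m).comp ((iterateFrobenius K p b).comp ι)) (fun e => ab (Nat.pow_right_injective hp.out.two_le
          (hg.pow_inj (i := p ^ a) (j := p ^ b) (by omega) (by omega) (RingHom.congr_fun e g)))) fun t => by
        rw [← fr, ← hq, fr, hm, mul_pow, pow_right_comm]; rfl
      have := RingHom.congr_fun this g
      simp only [RingHom.comp_apply, iterateFrobenius_def, ← hm] at this
      rw [pow_right_comm, ← iterateFrobenius_def, ← iterateFrobenius_def, (RingHom.injective _).eq_iff] at this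
      have := Nat.le_of_dvd (by omega) (hg.dvd_of_pow_eq_one (Fintype.card F - 1) (mul_right_cancel₀ g0 (by
        rw [← pow_succ, Nat.sub_add_cancel q1.le, ← this, one_mul])))
      have := Fintype.card_le_of_injective j j.injective
      omega
  refine ⟨?_, rq⟩
  let ι := (FiniteField.ringEquivOfCardEq rq).toRingHom
  have hF := sy (ρ := ρ) (rρ ▸ h.sp) (rρ ▸ h.top)
  obtain ⟨x, μ, κ, hv⟩ := hF.hv ι p (ne6 p)
  rcases rho_six p μ (hv.rho.trans (d6 F)) with ⟨l, -⟩ | ⟨l, a, b, -, rfl⟩
  · exact l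
  refine (tens hF hv (two F l) (d6 F) (fr F ι a b) ((Finite.injective_iff_surjective.1 (iterateFrobenius F p a).injective).comp
    (FiniteField.ringEquivOfCardEq rq).surjective) (hv.inj (two F l) fun g k => (QuotientGroup.eq_one_iff g).1 (by
      rw [← hφ, show φ g = 1 from Subtype.ext ((H12.glEquiv I6 F).map_eq_one_iff.1 k), map_one, map_one]))
    (H.map (H12.glEquiv I6 F).toMonoidHom) ?_ ?_ fun N a b => ?_).elim
  · rintro _ ⟨k, hk, rfl⟩ g
    obtain ⟨g', e⟩ := rρ.ge (h.nrm k hk _ (φ g).2)
    exact ⟨g', (congrArg (H12.glEquiv I6 F) e).trans (by simp [ρ])⟩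
  · rintro _ ⟨k, hk, rfl⟩
    exact mem_S6.1 (h.max.1.le hk)
  · refine (h.max.2 (N.comap (H12.glEquiv I6 F).toMonoidHom) (Subgroup.map_le_iff_le_comap.1 a) fun k hk =>
      mem_S6.2 (b _ hk)).imp (fun e k hk => ?_) fun e k hk => ?_ <;> obtain ⟨k, rfl⟩ := (H12.glEquiv I6 F).surjective k
    exacts [⟨k, e.le hk, rfl⟩, e.ge (mem_S6.2 hk)]

end H27.S6
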