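import Cfsg.Agent.H24.S6b
import Cfsg.Agent.S0813

/-! S5806: the piece `A5`. -/

set_option autoImplicit false
set_option linter.unusedSectionVars false

open Matrix Cfsg Cfsg.Geo H27.Asch Module H6.SP H24.O7 H24.S6
open H11.SP hiding up dg
open H26.O7 (wy up_val wy_val up_add up_zero up_pow dg_up dg_val wy_inv)
open scoped MatrixGroups
namespace H27.S6
universe u
local notation "up" => H26.O7.up

section
variable {K : Type*} [Field K] {n : ℕ} [NeZero n] {x B y C : G6 K} {e f : Fin 3 → ZMod n}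

theorem spec' [IsAlgClosed K] {ζ : K} (hζ : IsPrimitiveRoot ζ n) (h0 : (n : K) ≠ 0) (hx : x ∈ S6 K) (xn : x ^ n = 1) :
    ∃ (B : G6 K) (e : Fin 3 → ZMod n), Sc (AddChar.zmodChar n hζ.pow_eq_one) x B e := by
  obtain ⟨B, -, hB⟩ := dg' {x} (by simpa) (by simp) (by simpa using ⟨n, h0, xn⟩)
  obtain ⟨d, hd⟩ := hB x rfl
  have pw : ∀ k : ℕ, (x ^ k).val = B.val * dg d ^ k * (B⁻¹).val := fun k => by
    rw [← hd, ← Units.val_pow_eq_pow_val, ← Units.val_mul, ← Units.val_mul, ← conj_pow]; simp [mul_assoc]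
  have dn : ∀ i, (d i : K) ^ n = 1 := fun i => by
    have := pw n
    rw [xn, eq_comm, Units.mul_inv_eq_iff_eq_mul, Units.val_one, one_mul] at this
    replace this := (Units.mul_right_inj B).1 (this.trans (mul_one _).symm)
    rw [dg, diagonal_pow, ← diagonal_one] at this
    exact congrFun (diagonal_injective this) (.inl i)
  choose e _ he using fun i => hζ.eq_pow_of_pow_eq_one (dn i)
  refine ⟨B, fun i => e i, AddChar.zmodChar_primitive_of_primitive_root n hζ, fun k => ?_⟩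
  rw [pw, dg, diagonal_pow]
  congr 3
  ext (i | i) <;> simp [ex, ← nsmul_eq_mul, AddChar.map_nsmul_eq_pow, AddChar.map_neg_eq_inv, AddChar.zmodChar_apply', he]

def cn2 {n : ℕ} (e f : Fin 3 → ZMod n) : ℕ := (Finset.univ.filter fun ij : I6 × I6 => ex e ij.1 = ex f ij.2).card

theorem cn2_le {ψ : AddChar (ZMod n) K} (h : Sc ψ x B e) (h' : Sc ψ y C f) : cn2 e f ≤ dh x.val y.val := by
  let L : M6 K →ₗ[K] M6 K := (LinearMap.mulRight K (C⁻¹).val).comp (LinearMap.mulLeft K B.val)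
  have lv : ∀ m, L m = B.val * m * (C⁻¹).val := fun _ => rfl
  have hL : LinearMap.ker L = ⊥ := LinearMap.ker_eq_bot'.2 fun m e => by
    rwa [lv, Units.mul_left_eq_zero, Units.mul_right_eq_zero] at e
  let S := Finset.univ.filter fun ij : I6 × I6 => ex e ij.1 = ex f ij.2
  have li : LinearIndependent K fun s : S => L (stdBasis K I6 I6 s.1) :=
    ((stdBasis K I6 I6).linearIndependent.comp (fun s : S => s.1) Subtype.val_injective).map' L hL
  have m : ∀ s : S, L (stdBasis K I6 I6 s.1) ∈ hm x.val y.val := fun ⟨⟨i, j⟩, hs⟩ => by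
    have : diagonal (fun i => ψ (ex e i)) * single i j (1 : K) = single i j 1 * diagonal fun i => ψ (ex f i) := by
      ext a b
      rw [diagonal_mul, mul_diagonal, single_apply]
      split_ifs with c
      · rw [← c.1, ← c.2, show ex e i = ex f j from (Finset.mem_filter.1 hs).2, mul_comm]
      · simp
    change x.val * _ = _ * y.val
    rw [lv, stdBasis_eq_single, h.one, h'.one]
    simp only [Matrix.mul_assoc, Units.inv_mul_cancel_left]
    rw [← Matrix.mul_assoc (diagonal _), this, Matrix.mul_assoc]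
  have := (finrank_span_eq_card li).ge.trans (Submodule.finrank_mono (Submodule.span_le.2 (Set.range_subset_iff.2 m)))
  rwa [Fintype.card_coe] at this

theorem dh_neg (x y : G6 K) : dh (-x).val (-y).val = dh x.val y.val :=
  congrArg (fun S : Submodule K (M6 K) => finrank K S) (Submodule.ext fun m => by
    change _ = _ ↔ _ = _; simp)

theorem s5 {ψ : AddChar (ZMod 5) K} (h : ψ.IsPrimitive) {a : ZMod 5} (a0 : a ≠ 0) :
    ψ a + ψ (-a) + (ψ (2 * a) + ψ (-(2 * a))) = -1 := by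
  have := AddChar.sum_eq_zero_of_ne_one (h a0)
  rw [show (Finset.univ : Finset (ZMod 5)) = {0, 1, -1, 2, -2} by decide] at this
  simp only [Finset.sum_insert, Finset.mem_insert, Finset.mem_singleton, Finset.sum_singleton, AddChar.mulShift_apply,
    not_false_eq_true, not_or, (by decide : ¬ (0 : ZMod 5) = 1 ∧ ¬ (0 : ZMod 5) = -1 ∧ ¬ (0 : ZMod 5) = 2 ∧ ¬ (0 : ZMod 5) = -2),
    (by decide : ¬ (1 : ZMod 5) = -1 ∧ ¬ (1 : ZMod 5) = 2 ∧ ¬ (1 : ZMod 5) = -2), (by decide : ¬ (-1 : ZMod 5) = 2 ∧ ¬ (-1 : ZMod 5) = -2),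
    (by decide : ¬ (2 : ZMod 5) = -2), and_self] at this
  simp only [mul_zero, AddChar.map_zero_eq_one, mul_one, mul_neg] at this
  rw [mul_comm a] at this
  linear_combination this

variable (K) in
/-- tensor products -/
def tn : SL(2, K) × orthogonalGroup (Fin 3) K →* G6 K := (MonoidHom.mk ⟨fun g => fromBlocks (g.1.1 0 0 • g.2.1) (g.1.1 0 1 • g.2.1)
  (g.1.1 1 0 • g.2.1) (g.1.1 1 1 • g.2.1), by simp⟩ fun g h => by
    simp [fromBlocks_multiply, Matrix.mul_apply, add_smul, smul_smul, mul_comm]).toHomUnits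
theorem tn_val (g : SL(2, K) × orthogonalGroup (Fin 3) K) : (tn K g).val = fromBlocks (g.1.1 0 0 • g.2.1) (g.1.1 0 1 • g.2.1)
  (g.1.1 1 0 • g.2.1) (g.1.1 1 1 • g.2.1) := rfl
theorem tn_T (g : SL(2, K) × orthogonalGroup (Fin 3) K) : T (tn K g) = (g.1.1 0 0 + g.1.1 1 1) * g.2.1.trace := by
  simp [T, tn_val, trace, Fintype.sum_sum_type, add_mul, Finset.mul_sum, Finset.sum_add_distrib]
theorem tn_sp (g : SL(2, K) × orthogonalGroup (Fin 3) K) : tn K g ∈ S6 K := by
  have a : g.2.1ᵀ * g.2.1 = 1 := (mem_orthogonalGroup_iff' _ _).1 g.2.2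
  have d := (det_fin_two _).symm.trans g.1.2
  rw [mem_J, tn_val, J, fromBlocks_transpose, fromBlocks_multiply, fromBlocks_multiply]
  simp only [transpose_smul, Matrix.mul_zero, Matrix.mul_one, zero_add, add_zero, Matrix.mul_neg, Matrix.smul_mul,
    Matrix.mul_smul, Matrix.neg_mul, a, smul_neg, smul_smul, ← sub_eq_add_neg, ← sub_smul]
  congr 1
  · simp [mul_comm]
  · rw [← neg_one_smul K (1 : Matrix _ _ K)]; congr 1; linear_combination -d
  · rw [← one_smul K (1 : Matrix _ _ K), smul_smul]; congr 1; linear_combination d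
  · simp [mul_comm]
theorem tn_neg (o : orthogonalGroup (Fin 3) K) (a : SL(2, K)) : tn K (-a, o) = -tn K (a, o) :=
  Units.ext (by simp [tn_val, fromBlocks_neg])
theorem pw5 {M : SL(2, K)} {c : K} (h : M.1 0 0 + M.1 1 1 = c) (hc : c * c + c = 1) : M ^ 5 = 1 := by
  have d := (det_fin_two _).symm.trans M.2
  ext i j
  fin_cases i <;> fin_cases j <;> simp [pow_succ, Matrix.mul_apply] <;> grind

theorem ico {h t : K} (hh : 2 * h = 1) (ht : t * t = t + 1) : ∃ x y : orthogonalGroup (Fin 3) K, x ^ 2 = 1 ∧ y ^ 3 = 1 ∧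
    (x * y) ^ 5 = 1 ∧ (x * y).1.trace = t ∧ ((x * y) ^ 2).1.trace = 1 - t := by
  let x := !![h * (t - 1), h * t, h; h * t, -h, h * (t - 1); h, h * (t - 1), -(h * t)]
  let y : Matrix (Fin 3) (Fin 3) K := !![0, 0, 1; 1, 0, 0; 0, 1, 0]
  have xx : x * x = 1 := by
    rw [mul_fin_three]; ext i j; fin_cases i <;> fin_cases j <;> simp <;> grind
  have z : x * y = !![h * t, h, h * (t - 1); -h, h * (t - 1), h * t; h * (t - 1), -(h * t), h] := by
    rw [mul_fin_three]; simp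
  have z2 : x * y * (x * y) = !![h, h * (t - 1), h * t; h * (1 - t), -(h * t), h; h * t, -h, h * (1 - t)] := by
    rw [z, mul_fin_three]; ext i j; fin_cases i <;> fin_cases j <;> simp <;> grind
  refine ⟨⟨x, (mem_orthogonalGroup_iff _ _).2 (by rw [show xᵀ = x by ext i j; fin_cases i <;> fin_cases j <;> rfl]; exact xx)⟩,
    ⟨y, (mem_orthogonalGroup_iff _ _).2 (by ext i j; fin_cases i <;> fin_cases j <;> simp [y, Matrix.mul_apply, Fin.sum_univ_three])⟩,
    Subtype.ext ((sq x).trans xx), Subtype.ext (show y ^ 3 = 1 by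
      rw [pow_three, mul_fin_three, mul_fin_three, one_fin_three]; simp), Subtype.ext (show (x * y) ^ 5 = 1 by
      rw [show (x * y) ^ 5 = x * y * (x * y) * (x * y * (x * y) * (x * y)) by simp only [pow_succ, pow_zero, one_mul, mul_assoc],
        z2, z, mul_fin_three, mul_fin_three]; ext i j; fin_cases i <;> fin_cases j <;> simp <;> grind),
    show (x * y).trace = t by rw [z, trace_fin_three_of]; grind,
    show ((x * y) ^ 2).trace = _ by rw [sq, z2, trace_fin_three_of]; grind⟩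

theorem ex_ico [Fintype K] (o : Odd (Fintype.card K)) (h2 : (2 : K) ≠ 0) (h3 : (3 : K) ≠ 0) (h5 : IsSquare (5 : K)) :
    ∃ X ∈ (tn K).range, ∃ Y ∈ (tn K).range, X ^ 2 = -1 ∧ Y ^ 3 = 1 ∧ (-(X * Y)) ^ 5 = 1 ∧
      T (-(X * Y)) + T ((-(X * Y)) ^ 2) = 2 := by
  obtain ⟨r, hr⟩ := h5
  obtain ⟨h, hh⟩ : ∃ h : K, 2 * h = 1 := ⟨_, mul_inv_cancel₀ h2⟩
  obtain ⟨t, ht⟩ : ∃ t : K, t * t = t + 1 := ⟨h * (1 + r), by grind⟩
  obtain ⟨a, b, e⟩ : ∃ a b : K, a * -a - b * (b - a - (t - 1)) = 1 := by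
    obtain ⟨x, y, e⟩ := FiniteField.exists_root_sum_quadratic (Polynomial.degree_quadratic (b := 0) (c := 0) h3)
      (Polynomial.degree_quadratic (b := 0) (c := 12 - 4 * (t - 1) ^ 2) one_ne_zero) (Nat.odd_iff.1 o)
    simp at e
    exact ⟨h * (x + (y + 2 * (t - 1)) / 3), (y + 2 * (t - 1)) / 3, by field_simp; grind⟩
  let X1 : SL(2, K) := ⟨!![a, b; b - a - (t - 1), -a], by rw [det_fin_two_of, e]⟩
  let Y1 : SL(2, K) := ⟨!![0, 1; -1, -1], by simp⟩
  obtain ⟨X2, Y2, a1, a2, a3, a4, a5⟩ := ico hh ht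
  have z1 : (-(X1 * Y1)).1 = !![b, b - a; -a, t - 1 - b] := show -(X1.1 * Y1.1) = _ by
    rw [mul_fin_two]; ext i j; fin_cases i <;> fin_cases j <;> simp <;> ring
  have z : -(tn K (X1, X2) * tn K (Y1, Y2)) = tn K (-(X1 * Y1), X2 * Y2) := by rw [tn_neg, ← map_mul]; rfl
  refine ⟨_, ⟨(X1, X2), rfl⟩, _, ⟨(Y1, Y2), rfl⟩, ?_, ?_, ?_, ?_⟩
  · rw [← map_pow, ← map_one (tn K), ← tn_neg]
    refine congrArg _ (Prod.ext (Subtype.ext (show X1.1 ^ 2 = -1 from ?_)) a1)
    rw [sq, mul_fin_two]; ext i j; fin_cases i <;> fin_cases j <;> simp <;> grind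
  · rw [← map_pow, ← map_one (tn K)]
    refine congrArg _ (Prod.ext (Subtype.ext (show Y1.1 ^ 3 = 1 from ?_)) a2)
    rw [pow_three, mul_fin_two, mul_fin_two, one_fin_two]; simp
  · rw [z, ← map_pow, ← map_one (tn K)]
    exact congrArg _ (Prod.ext (pw5 (c := t - 1) (by simp [z1]) (by grind)) a3)
  · rw [z, ← map_pow, tn_T, tn_T, Prod.pow_snd, a4, a5, show ((-(X1 * Y1), X2 * Y2) ^ 2).1.1 = (-(X1 * Y1)).1 * (-(X1 * Y1)).1
      from sq _, z1, mul_fin_two]
    simp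
    grind
end

instance f5 : Fact (Nat.Prime 5) := ⟨by norm_num⟩
def g5 : SL(2, ZMod 5) := ⟨!![2, 0; 0, 3], by decide⟩
def m5 : GL (Fin 2) (ZMod 5) := ⟨!![2, 0; 0, 1], !![3, 0; 0, 1], by decide, by decide⟩
theorem m5_sq (a : SL(2, ZMod 5)) : cjG m5 (cjG m5 a) = g5 * a * g5⁻¹ := by
  rw [eq_mul_inv_iff_mul_eq]
  refine Subtype.ext (show m5.val * (m5.val * a.1 * m5.inv) * m5.inv * g5.1 = g5.1 * a.1 from ?_)
  rw [eta_fin_two a.1]
  simp only [m5, g5, mul_fin_two]
  ext i j; fin_cases i <;> fin_cases j <;> simp <;> generalize a.1 _ _ = c <;> revert c <;> decide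

theorem a5 (lf : LF.{u}) (sc : SC.{u}) (cs : CS.{u}) (r2 : R2.{u}) : A5.{u} := by
  intro F G _ _ _ p hp _ H P τ s p2 p5 l
  obtain ⟨e, φ, h⟩ := ex_cv lf s.toRq 5 le_rfl l
  have h2 : (2 : F) ≠ 0 := by exact_mod_cast two_ne' (F := F) p Nat.prime_two p2
  have h5 : ((5 : ℕ) : F) ≠ 0 := two_ne' p Fact.out p5
  have q5 : (Fintype.card (ZMod 5)).Prime := by rw [ZMod.card]; exact Fact.out
  have t := h.tf sc cs q5 h2 (by rwa [ZMod.card])
  have gn := gen2 q5 wy_yy1 (by simp [wy_val])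
  let K := AlgebraicClosure F
  let σ := algebraMap F K
  have nz : ∀ n : ℕ, (n : F) ≠ 0 → (n : K) ≠ 0 := fun n a => map_natCast σ n ▸ (_root_.map_ne_zero σ).2 a
  have k2 : (2 : K) ≠ 0 := by exact_mod_cast nz 2 (by exact_mod_cast h2)
  have pr : ∀ n : ℕ, (n : F) ≠ 0 → ∃ ζ : K, IsPrimitiveRoot ζ n := fun n a =>
    have : NeZero (n : K) := ⟨nz n a⟩
    HasEnoughRootsOfUnity.exists_primitiveRoot K n
  set ρ := P.subtype.comp φ with hρ
  have tK := t.map σ
  have s1 := h.sc sc σ gn _ (List.mem_singleton_self _)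
  rw [← hρ] at s1
  set ρ' := (GeneralLinearGroup.map σ).comp ρ with hρ'
  have x2 : ρ' (wy _) ^ 2 = -1 := by rw [← map_pow, sq, ww, tK.neg]
  have y3 : ρ' (yy 1) ^ 3 = 1 := by rw [← map_pow, yy_cube, map_one]
  have d4 := dh4 (tK.sp _) k2 x2
  have d3 := dh3 (tK.sp _) y3
  obtain ⟨ζ, hζ⟩ := pr 5 h5
  obtain ⟨B, e5, s5'⟩ := spec' hζ (nz 5 h5) (tK.sp (up 1)) (by rw [← map_pow, up_pow, ← map_one ρ', ← up_zero]; rfl)
  have c5 := s5'.cnt_le
  rw [wy_yy1, tK.ρ_neg, dh_neg] at s1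
  have c8 := (by decide +kernel : ∀ e : Fin 3 → ZMod 5, 8 ≤ cnt e) e5
  have T1 : ∀ c : ZMod 5, c ≠ 0 → T (ρ (up c)) = 1 := fun c c0 => σ.injective (by
    have := s5'.T c.val
    rw [← map_pow, up_pow, ZMod.natCast_zmod_val, mul_one, Finset.sum_eq_multiset_sum, ← Function.comp_def (AddChar.zmodChar _ _),
      ← Multiset.map_map, (by decide +kernel : ∀ (e : Fin 3 → ZMod 5) (c : ZMod 5), cnt e ≤ 8 → c ≠ 0 →
        Finset.univ.val.map (fun i => c * ex e i) = {0, 0, 1, -1, 2 * 1, -(2 * 1)}) e5 c (by omega) c0] at this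
    rw [← gm_T, map_one]
    have a := s5 s5'.pr one_ne_zero
    simp only [Multiset.insert_eq_cons, Multiset.map_cons, Multiset.sum_cons, Multiset.map_singleton, Multiset.sum_singleton,
      AddChar.map_zero_eq_one] at this
    exact this.trans (by linear_combination a))
  have po := hp.out.eq_two_or_odd.resolve_left p2
  have qp : Fintype.card F = p := card_le_one p (h.fld s p one_ne_zero fun g => by
    by_cases a : (g.1 0 0 + g.1 1 1) ^ 2 = 4
    · refine t.fup p 1 p2 (fun c => ?_) a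
      by_cases c0 : c = 0
      · rw [c0, mul_zero]
      · rw [T1 _ c0, T1 _ (mul_ne_zero (pow_ne' p 5 p5 1) c0)]
    rw [← hρ, ← f_cj (conj_tr (by rw [ZMod.card]; decide) g a)]
    rcases (by decide : ∀ t : ZMod 5, t ^ 2 ≠ 4 → cm t ^ (3 + 1) = 1 ∨ cm t ^ 3 = 1 ∨ (-cm t) ^ 3 = 1) _ a with b | b | b
    exacts [t.fx p 1 b (by rw [pow_one]; omega), t.f3 p 1 b, t.fneg p 1 p2 (t.f3 p 1 b)])
  refine ⟨qp, ?_⟩
  have : p % 5 ≠ 0 := fun e => p5 ((Nat.prime_dvd_prime_iff_eq Fact.out hp.out).1 (Nat.dvd_of_mod_eq_zero e)).symm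
  by_contra n
  have p1 : p % 5 = 1 ∨ p % 5 = 4 := by
    obtain a | a : p % 8 = 3 ∨ p % 8 = 5 := by omega
    all_goals obtain b | b | b | b : p % 5 = 1 ∨ p % 5 = 2 ∨ p % 5 = 3 ∨ p % 5 = 4 := by omega
    all_goals omega
  rcases h.out s (by
      rw [Cfsg.Agent.S0813.result 5 1 le_rfl (by simp) 2 le_rfl (by simp), H11.card_pgl_eq_card_sl, if_pos rfl, one_mul,
        one_mul, H11.card_sl_two, ← H11.card_psl_two]
      exact Nat.mul_le_mul_right _ (Nat.gcd_le_left _ two_pos))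
    m5 g5 m5_sq with hH | ⟨x, hx, e⟩
  swap
  · have := FiniteField.isSquare_two_iff.1 ((r2 F h2 x hx).1 (by
      rw [show 4 = 2 * 2 from rfl, pow_mul, ← t.neg, show -1 = g5 ^ 2 by decide, map_pow]
      rcases e with e | e <;> rw [e]
      exacts [rfl, neg_sq _]))
    omega
  have p7 : 7 ≤ p := by have := hp.out.two_le; omega
  have h3 : ((3 : ℕ) : F) ≠ 0 := two_ne' p Nat.prime_three (by omega)
  obtain ⟨X, hX, Y, hY, X2, Y3, Z5, ZT⟩ := ex_ico (K := F) (qp ▸ Nat.odd_iff.2 po) h2 (by exact_mod_cast h3) (by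
    have : IsSquare ((p : ℕ) : ZMod 5) := by
      rw [← ZMod.natCast_mod]; rcases p1 with a | a <;> rw [a] <;> decide
    have := ((ZMod.exists_sq_eq_prime_iff_of_mod_four_eq_one (p := 5) (q := p) rfl p2).1 this).map (ZMod.castHom dvd_rfl F)
    rwa [map_natCast] at this)
  have sp : ∀ g ∈ (tn F).range, g ∈ S6 F := by rintro _ ⟨g, rfl⟩; exact tn_sp g
  obtain ⟨τ', φ', h', c⟩ := h.up σ
  have cv : ∀ g, (φ' g).1 = ρ' g := DFunLike.congr_fun c
  obtain ⟨C, cX, cY⟩ := (sc K G _ τ' h'.toRq _ _ (h'.gn gn)).2.2.2.2 (GeneralLinearGroup.map σ X) (GeneralLinearGroup.map σ Y) (by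
    rw [← map_mul, ← map_mul, cv, cv, cv, wy_yy1, tK.ρ_neg, ← dh_neg (-ρ' _), neg_neg, ← gm_neg]
    have n4 : ((4 : ℕ) : F) ≠ 0 := by push_cast; rw [show (4 : F) = 2 * 2 by norm_num]; exact mul_ne_zero h2 h2
    have f4 : ∀ x : G6 K, x ^ 2 = -1 → x ^ 4 = 1 := fun x a => by rw [show 4 = 2 * 2 from rfl, pow_mul, a]; simp
    have X2' : GeneralLinearGroup.map σ X ^ 2 = -1 := by rw [← map_pow, X2, gm_neg, map_one]
    obtain ⟨i, hi⟩ := pr 4 n4
    obtain ⟨_, a, ha⟩ := spec' hi (nz 4 n4) (tK.sp _) (f4 _ x2)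
    obtain ⟨_, a', ha'⟩ := spec' hi (nz 4 n4) ((gm_mem σ).2 (sp X hX)) (f4 _ X2')
    have := ((by decide +kernel : ∀ e f : Fin 3 → ZMod 4, (∀ i, (2 : ℕ) * ex e i = 2) → (∀ i, (2 : ℕ) * ex f i = 2) →
      18 ≤ cn2 e f) a a' (ha.neg x2 (by decide) (by decide)) (ha'.neg X2' (by decide) (by decide))).trans (cn2_le ha ha')
    obtain ⟨ω, hω⟩ := pr 3 h3
    obtain ⟨_, b, hb⟩ := spec' hω (nz 3 h3) (tK.sp _) y3
    obtain ⟨_, b', hb'⟩ := spec' hω (nz 3 h3) ((gm_mem σ).2 (sp Y hY)) (by rw [← map_pow, Y3, map_one])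
    have := ((by decide +kernel : ∀ e f : Fin 3 → ZMod 3, cnt e ≤ 12 → 12 ≤ cn2 e f) b b'
      (hb.cnt_le.trans (by omega))).trans (cn2_le hb hb')
    obtain ⟨_, z, hz⟩ := spec' hζ (nz 5 h5) ((gm_mem σ).2 (show -(X * Y) ∈ S6 F from neg_one_mul (X * Y) ▸
      mul_mem neg_mem_S6 (sp _ (mul_mem hX hY)))) (by rw [← map_pow, Z5, map_one])
    have := ((by decide +kernel : ∀ e f : Fin 3 → ZMod 5, cnt e ≤ 8 → (∃ i, f i = 0) → 8 ≤ cn2 e f) e5 z (by omega) (by
      by_contra! z0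
      have a := congrArg σ ZT
      have t1 := hz.T 1
      have t2 := hz.T 2
      rw [map_add, ← gm_T, ← gm_T, map_pow, t2, ← pow_one (GeneralLinearGroup.map σ _), t1] at a
      simp only [Fintype.sum_sum_type, Fin.sum_univ_three, ex, Sum.elim_inl, Sum.elim_inr, Nat.cast_one, one_mul, Nat.cast_ofNat,
        mul_neg, map_ofNat] at a
      exact nz 5 h5 (by
        push_cast; linear_combination s5 hz.pr (z0 0) + s5 hz.pr (z0 1) + s5 hz.pr (z0 2) - a))).trans (cn2_le s5' hz)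
    omega)
  let ρ1 := FreeGroup.lift fun b : Bool => cond b (ρ (wy _)) (ρ (yy 1))
  let ρ2 := FreeGroup.lift fun b : Bool => cond b X Y
  have r1 : ρ1.range = P := by
    have := congrArg (Subgroup.map P.subtype) (gn_top h.toRq (h.gn gn))
    rw [MonoidHom.map_closure, Set.image_pair, ← MonoidHom.range_eq_map, P.range_subtype] at this
    rw [FreeGroup.range_lift_eq_closure, ← this, Bool.range_eq]; exact congrArg _ (Set.pair_comm _ _)
  obtain ⟨D, hD⟩ := te2 ρ1 ρ2 (r1 ▸ s.top) fun g => σ.injective (by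
    have : (GeneralLinearGroup.map σ).comp ρ1 = (MulAut.conj C).toMonoidHom.comp ((GeneralLinearGroup.map σ).comp ρ2) :=
      FreeGroup.ext_hom _ _ fun b => by cases b <;> simp [ρ1, ρ2, cX, cY, cv, ρ']
    exact (gm_T σ _).symm.trans ((congrArg T (DFunLike.congr_fun this g)).trans
      ((T_conj (isConj_iff.2 ⟨C, rfl⟩)).symm.trans (gm_T σ _))))
  have HP : H ≤ P := fun x hx => (hH x hx).elim id fun a => by
    simpa using mul_mem (t.neg ▸ (φ (-1)).2 : -1 ∈ P) a
  rcases nm F G H P τ s (tn F).range (J _ F) D (fun e => by simpa [J] using congrFun (congrFun e (.inr 0)) (.inl 0))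
    (fun m hm => mem_J.1 (sp m hm)) (fun x hx => by
      obtain ⟨g, rfl⟩ := r1.ge (HP hx)
      rw [hD]
      exact (FreeGroup.range_lift_eq_closure.le.trans ((Subgroup.closure_le _).2 (by
        rintro _ ⟨_ | _, rfl⟩; exacts [hY, hX])) : ρ2.range ≤ (tn F).range) ⟨g, rfl⟩) with a | a
  · let u : SL(2, F) := ⟨!![1, 1; 0, 1], by simp⟩
    have uv : ∀ n : ℕ, (u ^ n).1 = !![1, (n : F); 0, 1] := fun n => by
      induction n with
      | zero => simp [one_fin_two]
      | succ n ih => rw [pow_succ]; change (u ^ n).1 * u.1 = _; rw [ih]; simp [u, add_comm]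
    obtain ⟨g, hg⟩ := h.range.ge (HP (a _ ⟨(u, 1), rfl⟩))
    have := congrArg (· ^ Nat.card SL(2, ZMod 5)) hg
    simp only [← map_pow, pow_card_eq_one', map_one] at this
    rw [H11.card_sl_two, ZMod.card, show D⁻¹ * tn F (u, 1) * D = D⁻¹ * tn F (u, 1) * D⁻¹⁻¹ by rw [inv_inv], conj_pow,
      eq_comm, conj_eq_one_iff, ← map_pow] at this
    have := congrArg (fun z : G6 F => z.val (.inl 0) (.inr 0)) this
    simp [tn_val, uv] at this
    exact mul_ne_zero (mul_ne_zero (pow_ne_zero 3 h2) h3) h5 (by push_cast; linear_combination this)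
  · have := Nat.card_le_card_of_injective (fun g : S6 F => (⟨_, a g g.2⟩ : (tn F).range)) fun x y e =>
      Subtype.ext (by simpa using e)
    have b := Nat.card_le_card_of_surjective _ (tn F).rangeRestrict_surjective
    have c1 := Nat.card_le_card_of_injective _ (Subtype.val_injective (p := fun A : Matrix (Fin 2) (Fin 2) F => A.det = 1))
    have c2 := Nat.card_le_card_of_injective _ (Subtype.val_injective (p := (· ∈ orthogonalGroup (Fin 3) F)))
    rw [Nat.card_prod] at b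
    replace b := this.trans (b.trans (Nat.mul_le_mul c1 c2))
    rw [card_spGL] at b
    simp only [Finset.prod_range_succ, Finset.prod_range_zero, one_mul, Nat.card_eq_fintype_card, Matrix, Fintype.card_fun,
      Fintype.card_fin, qp, ← pow_mul] at b
    rw [mul_comm (p ^ _)] at b
    have b := Nat.le_of_mul_le_mul_right b (by positivity)
    have : 1 < p ^ 2 := Nat.one_lt_pow two_ne_zero (by omega)
    have : p ^ 2 < p ^ 4 := Nat.pow_lt_pow_right (by omega) (by norm_num)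
    have : p ^ 4 * 2 ≤ p ^ 6 := by rw [show 6 = 4 + 2 from rfl, pow_add]; exact Nat.mul_le_mul_left _ (by omega)
    have c := Nat.mul_le_mul (Nat.mul_le_mul (show 1 ≤ p ^ 2 - 1 by omega) (show 1 ≤ p ^ 4 - 1 by omega)) (le_refl (p ^ 6 - 1))
    simp only [Nat.reduceMul, Nat.reduceAdd] at b
    omega

end H27.S6
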