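import Cfsg.Agent.H22.MU8
import Cfsg.Agent.H13.R3_3

/-! Rank 3 actions of `PSU_n(q)`, `n ≥ 6`, `q ≥ 3` (S2196): definitions and chunk statements
(paper proofs: notes/RU.md). -/

set_option autoImplicit false
set_option linter.unusedSectionVars false

namespace H27.RU

open Module H12 MulAction Pointwise H22
open H11 hiding alt_N alt_B_self alt_B_smul_left herm_B_self herm_symm herm_N_smul herm_B_smul_left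
open H13.R3 (dc DC)

/-! ### Arithmetic -/

/-- the number of non-zero isotropic vectors in dimension `m` -/
def ii (q : ℤ) (m : ℕ) : ℤ := -(((-q) ^ m - 1) * ((-q) ^ (m - 1) - 1))
/-- `ii - eigenvalue` for the eigenvalues of the sum of all transvections -/
def dA (q : ℤ) (n : ℕ) : ℤ := -((-q) ^ (n - 2) * (q ^ 2 - 1) * ((-q) ^ (n - 1) - 1))
def dB (q : ℤ) (n : ℕ) : ℤ := -((-q) ^ (n - 3) * (q ^ 2 - 1) * ((-q) ^ n - 1))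
def dP (q : ℤ) (n : ℕ) : ℤ := (q ^ 2 - 1) * q ^ (2 * n - 3)
def dS (q : ℤ) (n : ℕ) : ℤ := -((-q) ^ (n - 1) * (q ^ 2 - 1) * ((-q) ^ (n - 2) - 1))
def dC (q : ℤ) (n : ℕ) : ℤ := (q + 1) * (-q) ^ (n - 1) * ((1 - q) * (-q) ^ (n - 2) - 2)
def dL (q : ℤ) (n : ℕ) (e : ℤ) : ℤ := -((-q) ^ (n - 3) * (q ^ 2 - 1) * ((-q) ^ n + (-q) ^ (n - 2) - e))

/-- parameters of a strongly regular graph (valency `k`, eigenvalues `r, -m` with multiplicities `f', g`) whose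
adjacency matrix times `lam` has eigenvalue `θ` with multiplicity `f` -/
def AR0 (I w c θ f : ℤ) : Prop := ∃ k lam r m mu v f' g b1 b2 : ℤ, k * lam = I ∧ c ∣ lam ∧ 0 < lam ∧ 0 ≤ r ∧ 0 < m ∧
  0 < mu ∧ mu = k - r * m ∧ v = 1 + f' + g ∧ 0 < f' ∧ 0 < g ∧ k + f' * r = g * m ∧ v * mu = (k - r) * (k + m) ∧
  f' * (k - r) = w * b1 * k ∧ g * (k + m) = w * b2 * k ∧ (θ = lam * r ∧ f = f' ∨ θ = -(lam * m) ∧ f = g)
def AR (q n : ℕ) (δ f : ℤ) : Prop := AR0 (ii q n) (q ^ (n - 1)) (q + 1) (ii q n - δ) f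

/-- degree formulas (`x = -q`) -/
def g22 (x : ℤ) (n : ℕ) (f : ℤ) : Prop := f * ((x ^ 3 - 1) * (x ^ 2 - 1) ^ 2 * (x - 1)) =
  x ^ 6 * (x ^ n - 1) * (x ^ (n - 1) - 1) * (x ^ (n - 4) - 1) * (x ^ (n - 5) - 1)
def g31 (x : ℤ) (n : ℕ) (f : ℤ) : Prop := f * ((x ^ 4 - 1) * (x ^ 2 - 1) * (x - 1) ^ 2) =
  -(x ^ 5 * (x ^ n - 1) * (x ^ (n - 1) - 1) * (x ^ (n - 3) - 1) * (x ^ (n - 6) - 1))
def g4 (x : ℤ) (n : ℕ) (f : ℤ) : Prop := f * ((x - 1) * (x ^ 2 - 1) * (x ^ 3 - 1) * (x ^ 4 - 1)) =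
  x ^ 3 * (x ^ n - 1) * (x ^ (n - 1) - 1) * (x ^ (n - 2) - 1) * (x ^ (n - 6) - x)

def A1 : Prop := ∀ q n : ℕ, IsPrimePow q → 3 ≤ q → 6 ≤ n → ∀ f, ¬ AR q n (dA q n) f ∧ ¬ AR q n (dB q n) f
def A2 : Prop := ∀ q n : ℕ, IsPrimePow q → 3 ≤ q → 6 ≤ n → ∀ f,
  ¬ AR q n (dP q n) f ∧ ¬ AR q n (dS q n) f ∧ ¬ AR q n (dC q n) f
def A3 : Prop := ∀ q n : ℕ, IsPrimePow q → 3 ≤ q → 6 ≤ n → ∀ f, g22 (-q) n f → ¬ AR q n (dL q n (1 - q)) f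
def A4 : Prop := ∀ q n : ℕ, IsPrimePow q → 3 ≤ q → 7 ≤ n → ∀ f, g31 (-q) n f → ¬ AR q n (dL q n (q ^ 2 + 1)) f
def A5 : Prop := ∀ q n : ℕ, IsPrimePow q → 3 ≤ q → 6 ≤ n → n ≠ 7 → ∀ f, g4 (-q) n f →
  ¬ AR q n (dL q n (-(q ^ 3 + q))) f

/-- the equations for a spherical function on totally isotropic lines -/
def LEq (q n : ℕ) (θ f : ℝ) : Prop := ∃ Q s I4 I6 β pC pB pE pF pO : ℝ, Q = q ^ 2 ∧ s = q ^ (2 * n - 11) ∧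
  I4 = ii q (n - 4) ∧ I6 = ii q (n - 6) ∧ β = θ - (Q ^ 2 - 1 + Q ^ 2 * I4) ∧
  Q - 1 + Q * I4 * pC + (Q - 1) * Q ^ 2 * s * pB = 0 ∧
  (Q ^ 2 - 1) * pC + Q ^ 2 * I6 * pE + (Q ^ 2 - 1) * Q * s * pF = 0 ∧
  (Q - 1) * pB + Q * I4 * pF + (Q - 1) * Q ^ 2 * s * pO = 0 ∧
  β = (Q ^ 2 - 1) * Q ^ 3 * s * pB ∧
  β * pC = Q * (Q - 1) * (Q * s * (pC - pB) + Q ^ 2 * s * pB + Q ^ 3 * s * pF) ∧
  (8 ≤ n → β * pE = Q * (Q ^ 2 - 1) * s * (pE + (Q ^ 2 - 1) * pF)) ∧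
  f * ((Q ^ 2 - 1) * (Q - 1 + Q * I4 * pC ^ 2 + (Q - 1) * Q ^ 2 * s * pB ^ 2) +
    Q ^ 2 * I4 * ((Q ^ 2 - 1) * pC ^ 2 + Q ^ 2 * I6 * pE ^ 2 + (Q ^ 2 - 1) * Q * s * pF ^ 2) +
    (ii q n - (Q ^ 2 - 1) - Q ^ 2 * I4) * ((Q - 1) * pB ^ 2 + Q * I4 * pF ^ 2 + (Q - 1) * Q ^ 2 * s * pO ^ 2)) =
    ii q n * ii q (n - 2)

def LA : Prop := ∀ (q n : ℕ) (θ : ℝ) (f : ℤ), 3 ≤ q → 6 ≤ n → LEq q n θ f →
  (θ = (ii q n - dL q n (1 - q) : ℤ) ∧ g22 (-q) n f) ∨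
  (7 ≤ n ∧ θ = (ii q n - dL q n (q ^ 2 + 1) : ℤ) ∧ g31 (-q) n f) ∨
  (n ≠ 7 ∧ θ = (ii q n - dL q n (-(q ^ 3 + q)) : ℤ) ∧ g4 (-q) n f)

/-! ### Rank 3 permutation modules -/

section kit

variable (G : Type*) {X I : Type*} [Group G] [MulAction G X] [Fintype X] [Fintype I]

/-- invariant kernels -/
def Ivt (M : X → X → ℝ) : Prop := ∀ (g : G) x y, M (g • x) (g • y) = M x y

open Classical in
/-- the two non-trivial projections -/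
structure Prj (E : Bool → X → X → ℝ) (f : Bool → ℕ) : Prop where
  inv : ∀ b, Ivt G (E b)
  sym : ∀ b x y, E b x y = E b y x
  mul : ∀ b c x y, ∑ z, E b x z * E c z y = if b = c then E b x y else 0
  one : ∀ b x, ∑ y, E b x y = 0
  sum : ∀ x y, (Fintype.card X : ℝ)⁻¹ + E true x y + E false x y = if x = y then 1 else 0
  span : ∀ M, Ivt G M → ∃ a b c : ℝ, ∀ x y, M x y = a + b * E true x y + c * E false x y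
  tr : ∀ b, ∑ x, E b x x = f b
  pos : ∀ b, 0 < f b

variable {G}
/-- a family closed under conjugation and inversion -/
structure Cl (τ : I → G) : Prop where
  conj : ∀ g, ∃ e : I ≃ I, ∀ i, g * τ i * g⁻¹ = τ (e i)
  inv : ∃ e : I ≃ I, ∀ i, (τ i)⁻¹ = τ (e i)

/-- eigenvalues of the class sum -/
def Eig (τ : I → G) (E : Bool → X → X → ℝ) (θ : Bool → ℝ) : Prop :=
  ∀ b x y, ∑ i, E b (τ i • x) y = θ b * E b x y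

/-- spherical functions -/
def Rank (τ : I → G) (H : Subgroup G) (θ : Bool → ℝ) (f : Bool → ℕ) (Y : Type*) [MulAction G Y] : Prop :=
  ∀ (S : Set Y) (U : Submodule ℝ (Y → ℝ)), (∀ g : G, ∀ Φ ∈ U, (fun y => Φ (g • y)) ∈ U) →
    (∀ Φ ∈ U, ∀ y ∉ S, Φ y = 0) → (∀ y ∈ S, ∀ y' ∈ S, ∃ g : G, g • y = y') →
    (∀ Φ ∈ U, (∀ (g : G) y, Φ (g • y) = Φ y) → Φ = 0) → (∃ Φ ∈ U, Φ ≠ 0 ∧ ∀ h ∈ H, ∀ y, Φ (h • y) = Φ y) →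
    ∀ y₀ ∈ S, ∃ b, ∃ φ ∈ U, φ y₀ = 1 ∧ (∀ g : G, g • y₀ = y₀ → ∀ y, φ (g • y) = φ y) ∧
      (∀ y, ∑ i, φ (τ i • y) = θ b * φ y) ∧ f b * ∑ᶠ y ∈ S, φ y ^ 2 = S.ncard

/-- Heisenberg groups -/
structure Hz (R Z : Subgroup G) (q d : ℕ) : Prop where
  le : Z ≤ R
  cen : ∀ a ∈ R, ∀ z ∈ Z, a * z = z * a
  ndg : ∀ a ∈ R, a ∉ Z → ∀ z ∈ Z, ∃ b ∈ R, a * b = b * a * z
  cZ : Nat.card Z = q
  cR : Nat.card R = q * d ^ 2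

variable (G X I)
def K1 : Prop := IsPretransitive G X → (∃ (g : G) (x : X), g • x ≠ x ∧ g • g • x = x) →
  ∀ x₀ : X, Nat.card (orbitRel.Quotient (stabilizer G x₀) X) = 3 → ∃ (E : Bool → X → X → ℝ) (f : _), Prj G E f
def K2a : Prop := ∀ (E : Bool → X → X → ℝ) f (τ : I → G), Prj G E f → Cl τ → ∃ θ, Eig τ E θ
def K2 (Y : Type*) [MulAction G Y] : Prop := Finite Y → IsPretransitive G X →
  ∀ (E : Bool → X → X → ℝ) f (τ : I → G) θ (x₀ : X), Prj G E f → Cl τ → Eig τ E θ → Rank τ (stabilizer G x₀) θ f Y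
def K3 : Prop := Finite G → ∀ (E : Bool → X → X → ℝ) f (R Z : Subgroup G) (q d : ℕ) (t : G), Prj G E f → Hz R Z q d →
  t ∈ Z → t ≠ 1 → (∀ z ∈ Z, z ≠ 1 → IsConj t z) → ∀ b, ∃ c : ℕ, f b - ∑ x, E b (t • x) x = q * d * c
def K4 : Prop := IsPreprimitive G X → ∀ (E : Bool → X → X → ℝ) f (τ : I → G) θ (x₀ : X) (w c : ℕ),
  Nat.card (orbitRel.Quotient (stabilizer G x₀) X) = 3 → Prj G E f → Cl τ →
  Eig τ E θ → Nonempty I → (∀ i, τ i • x₀ ≠ x₀) → (∃ x, x ≠ x₀ ∧ ∀ i, τ i • x₀ ≠ x) →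
  (∀ b, ∃ e : ℕ, f b * (Fintype.card I - θ b) = w * e * Fintype.card I) →
  (∀ x, c ∣ Nat.card {i // τ i • x₀ = x}) → ∀ b (z : ℤ), θ b = z → AR0 (Fintype.card I) w c z (f b)

end kit

/-! ### Unitary geometry -/

variable {F V : Type*} [Field F] [Fintype F] [AddCommGroup V] [Module F V] [Fintype V] {σ : F →+* F}
  {hσ2 : ∀ a, σ (σ a) = a} (C : CForm (hermType σ hσ2) V) (q n : ℕ)

local notation "𝐆" => C.isom ⊓ SLV F V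
local notation "Γ" => V ≃ₗ[F] V

/-- the standing hypotheses of all geometric chunks -/
structure Un : Prop where
  hu : HU C q
  dim : finrank F V = n
  six : 6 ≤ n
  three : 3 ≤ q

def Iso (v : V) : Prop := C.N v = 0 ∧ v ≠ 0
open Classical in
noncomputable def isoF : Finset V := Finset.univ.filter (Iso C)
open Classical in
/-- the transvection `x ↦ x - (a * B v x) • v` -/
noncomputable def tv (a : F) (v : V) : Γ :=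
  if h : C.N v = 0 ∧ a + σ a = 0 then (rho C h.1 (w := 0) (a := a) (map_zero _) (h.2.trans C.N_zero.symm)).1 else 1
/-- the sum of all transvections (each counted `q + 1` times) -/
noncomputable def TT (a : F) {Y : Type*} [SMul Γ Y] (Φ : Y → ℝ) (y : Y) : ℝ := ∑ v ∈ isoF C, Φ (tv C a v • y)
def NoTv (H : Subgroup Γ) : Prop := ∀ v a, Iso C v → Rq C H v 0 a → a = 0
/-- at most two orbits on isotropic points -/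
def P2 (H : Subgroup Γ) : Prop := H13.R3.Le2 (Iso C) fun v w => ∃ h ∈ H, ∃ c : F, h v = c • w
def Irr (H : Subgroup Γ) : Prop := ∀ W : Submodule F V, (∀ h ∈ H, ∀ x ∈ W, h x ∈ W) → W = ⊥ ∨ W = ⊤
structure R3 (H : Subgroup Γ) : Prop where
  le : H ≤ 𝐆
  co : IsCoatom (H.subgroupOf 𝐆)
  dc3 : dc (H.subgroupOf 𝐆) (H.subgroupOf 𝐆) = 3
/-- a symplectic `F_q`-form normalised by `H` -/
def SpF (H : Subgroup Γ) : Prop := ∃ j : V →ₛₗ[σ] V, (∀ x, j (j x) = x) ∧ (∀ x y, C.B (j x) (j y) = -σ (C.B x y)) ∧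
  (∀ x, j x = x → C.N x = 0) ∧ ∀ h ∈ H, ∃ ζ : F, ∀ x, j (h x) = ζ • h (j x)
/-- totally isotropic lines -/
def TL : Set (Submodule F V) := {L | finrank F L = 2 ∧ ∀ x ∈ L, C.N x = 0}
open Classical in
noncomputable def res (p : V) : Finset V := Finset.univ.filter fun z => C.N z = 0 ∧ C.B p z = 0 ∧ z ∉ spanL F [p]
/-- vanishing point sums -/
def K0 (Φ : Submodule F V → ℝ) : Prop := ∀ p, Iso C p → ∑ z ∈ res C p, Φ (spanL F [p, z]) = 0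
/-- the stabiliser of a vector -/
noncomputable def Gv (u : V) : Subgroup Γ := 𝐆 ⊓ stabilizer Γ u
/-- transitive on isotropic vectors of `W` and on the vectors of `W` of each non-zero norm -/
def Tr (J : Subgroup Γ) (W : Submodule F V) : Prop :=
  ∀ v ∈ W, ∀ w ∈ W, v ≠ 0 → w ≠ 0 → C.N v = C.N w → ∃ g ∈ J, g v = w

/-! Chunks: prove `theorem xx (h : Un C q n) : XX C q n`. -/

def HE : Prop := (∀ u, Iso C u → ∃ R Z : Subgroup ↥(𝐆), Hz R Z q (q ^ (n - 2)) ∧ ∀ z, z ∈ Z ↔ ∃ a, Rf C u 0 a z.1) ∧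
  ∀ a a' v v', a ≠ 0 → a + σ a = 0 → a' ≠ 0 → a' + σ a' = 0 → Iso C v → Iso C v' →
    ∃ g ∈ 𝐆, g * tv C a v * g⁻¹ = tv C a' v'
def QO : Prop := ∀ H ≤ 𝐆, (∀ v, Iso C v → ¬ TvU C H v) → q ∣ H.relIndex 𝐆

open Classical in
def PS : Prop := ∀ a, a ≠ 0 → a + σ a = 0 → ∀ Φ : V → ℝ,
  (∀ w, Iso C w → ∑ c ∈ Finset.univ.filter (fun c : F => σ c = c ∧ c ≠ 0), Φ (c • w) = 0) →
  ∀ w, Iso C w → TT C a Φ w = (ii q n - dP q n : ℤ) * Φ w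
def PT : Prop := ∀ a, a ≠ 0 → a + σ a = 0 → ∀ (Φ : V → ℝ) (θ : ℝ), (∀ c : F, c ≠ 0 → ∀ w, Φ (c • w) = Φ w) →
  ∑ w ∈ isoF C, Φ w = 0 → (∀ w, Iso C w → TT C a Φ w = θ * Φ w) → (∃ w, Iso C w ∧ Φ w ≠ 0) →
  θ = (ii q n - dA q n : ℤ) ∨ θ = (ii q n - dB q n : ℤ)
def SG : Prop := ∀ a, a ≠ 0 → a + σ a = 0 → ∀ (Φ : V → ℝ) (θ : ℝ) (c₀ : F), c₀ ≠ 0 →
  (∀ c : F, c ≠ 0 → σ c = c → ∀ w, Φ (c • w) = Φ w) → (∀ w, Φ (c₀ • w) = -Φ w) →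
  (∀ w, Iso C w → TT C a Φ w = θ * Φ w) → (∃ w, Iso C w ∧ Φ w ≠ 0) →
  θ = (ii q n - dS q n : ℤ) ∨ θ = (ii q n - dA q n : ℤ)
open Classical in
/-- vanishing sums over isotropic affine hyperplanes -/
def HS (Φ : V → ℝ) : Prop := ∀ v s, Iso C v → ∑ w ∈ Finset.univ.filter (fun w => C.B v w = s), Φ w = 0
def CU : Prop := ∀ c, c ≠ 0 → ∀ Φ : V → ℝ, (∀ w, C.N w ≠ c → Φ w = 0) →
  (∀ J ≤ C.isom, (∀ v w, Iso C v → Iso C w → ∃ g ∈ J, g v = w) → (∀ g ∈ J, ∀ w, Φ (g w) = Φ w) → ∑ w, Φ w = 0 → HS C Φ) ∧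
  ∀ a, a ≠ 0 → a + σ a = 0 → (∀ ζ : F, ζ * σ ζ = 1 → ∀ w, Φ (ζ • w) = Φ w) → HS C Φ →
    ∀ w, C.N w = c → TT C a Φ w = (ii q n - dC q n : ℤ) * Φ w

def LW : Prop := (∀ L ∈ TL C, ∀ M ∈ TL C, ∃ g ∈ 𝐆, g • L = M) ∧ ∀ L ∈ TL C, ∀ M ∈ TL C, ∀ M' ∈ TL C,
  finrank F (L ⊓ M : Submodule F V) = finrank F (L ⊓ M' : Submodule F V) →
  finrank F (M ⊓ C.perp L : Submodule F V) = finrank F (M' ⊓ C.perp L : Submodule F V) →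
  ∃ g ∈ 𝐆, g • L = L ∧ g • M = M'
open Classical in
def LN1 : Prop := ∀ a, a ≠ 0 → a + σ a = 0 → ∀ (Φ : Submodule F V → ℝ), ∀ L ∈ TL C,
  (q ^ 2 - 1) * TT C a Φ L = (q ^ 2 - 1) * (q ^ 4 - 1 + q ^ 4 * ii q (n - 4)) * Φ L +
    ∑ p ∈ Finset.univ.filter (fun p => p ∈ L ∧ p ≠ 0), ∑ z ∈ (res C p).filter (· ∉ C.perp L), Φ (spanL F [p, z])
def LN2 : Prop := LW C → LN1 C q n → ∀ a, a ≠ 0 → a + σ a = 0 → ∀ (φ : Submodule F V → ℝ) (θ f : ℝ), ∀ L ∈ TL C,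
  φ L = 1 → (∀ g ∈ 𝐆, g • L = L → ∀ M, φ (g • M) = φ M) → K0 C φ → (∀ M ∈ TL C, TT C a φ M = θ * φ M) →
  f * ∑ᶠ M ∈ TL C, φ M ^ 2 = (TL C).ncard → LEq q n θ f

def T1 : Prop := ∀ H ≤ 𝐆, (∀ v, Iso C v → ∃ a, a ≠ 0 ∧ Rq C H v 0 a) → 𝐆 ≤ H
def T3a : Prop := ∀ H, R3 C H → P2 C H → Irr H
def T3b : Prop := ∀ H ≤ 𝐆, P2 C H → Irr H → (∃ v, Iso C v ∧ TvU C H v) → (∃ v, Iso C v ∧ ¬ TvU C H v) → SpF C H
def T3c : Prop := ∀ H, R3 C H → ¬ SpF C H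

def MI : Prop := ∀ u (hu : C.B u u = 0), u ≠ 0 → ∀ K, hQ 𝐆 hu ≤ K → K ≤ Gv C u → ¬ Gv C u ≤ K →
  (n = 6 → (q + 1) * (q ^ 3 + 1) ≤ K.relIndex (Gv C u)) ∧
  (7 ≤ n → ii q (n - 2) ≤ K.relIndex (Gv C u) * ((q : ℤ) ^ 2 - 1))
def CP0 : Prop := ∀ H ≤ 𝐆, (∀ u, Iso C u → UReg C H u) → ∀ u (hu : C.B u u = 0), u ≠ 0 →
  ¬ ∀ g ∈ Gv C u, ∃ k ∈ hQ 𝐆 hu, k * g ∈ H
def CP6 : Prop := MI C q n → n = 6 → ∀ H ≤ 𝐆, NoTv C H → ∀ u (hu : C.B u u = 0), u ≠ 0 →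
  q ^ 5 < Nat.card (hS H hu) → Nat.card (hS H hu) ≤ (hQ 𝐆 hu ⊔ H ⊓ Gv C u).relIndex (Gv C u) * q
def CP : Prop := MI C q n → CP0 C → CP6 C q n → ∀ H ≤ 𝐆, NoTv C H → q ^ (2 * n - 2) ≤ H.relIndex 𝐆

/-- an element of prime order acting irreducibly on the complement of its fixed space -/
structure Pp (y : Γ) (W : Submodule F V) (r e : ℕ) : Prop where
  pr : r.Prime
  dv : r ∣ Fintype.card F ^ e - 1
  nd : ∀ k, 0 < k → k < e → ¬ r ∣ Fintype.card F ^ k - 1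
  ord : orderOf y = r
  fix : ∀ x, x ∈ W ↔ y x = x
  dim : finrank F W + e = finrank F V
def PD1 : Prop := ∀ J ≤ C.isom, Tr C J ⊤ → (∀ L ∈ TL C, ∀ M ∈ TL C, ∃ g ∈ J, g • L = M) →
  ∃ y ∈ J, ∃ W r e, Pp y W r e ∧ (finrank F W = 2 ∨ finrank F W = 3) ∧ C.NondegOn W ∧ Tr C (J ⊓ stabilizer Γ W) W
def PD2 : Prop := ∀ N ≤ C.isom, ∀ W : Submodule F V, (finrank F W = 2 ∨ finrank F W = 3) → C.NondegOn W → N ≤ stabilizer Γ W →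
  Tr C N W → ∃ g ∈ N, ∃ g' ∈ N, ∃ v ∈ W, ∃ a, Iso C v ∧ a ≠ 0 ∧
    ∀ x ∈ W, (g * g' * g⁻¹ * g'⁻¹) x = x - (a * C.B v x) • v
def PD3 : Prop := ∀ J ≤ C.isom, ∀ y ∈ J, ∀ W r e, Pp y W r e → C.NondegOn W → ∀ g ∈ J ⊓ stabilizer Γ W,
  ∀ g' ∈ J ⊓ stabilizer Γ W, ∀ v ∈ W, ∀ a, Iso C v → a ≠ 0 →
    (∀ x ∈ W, (g * g' * g⁻¹ * g'⁻¹) x = x - (a * C.B v x) • v) → ¬ NoTv C J

/-! ### Basic facts -/

variable {C} {a : F} {v : V}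

theorem mem_isoF : v ∈ isoF C ↔ Iso C v := by simp [isoF]
theorem mem_res {p : V} : v ∈ res C p ↔ C.N v = 0 ∧ C.B p v = 0 ∧ v ∉ spanL F [p] := by simp [res]
theorem tv_apply (hv : C.N v = 0) (ha : a + σ a = 0) (x : V) : tv C a v x = x - (a * C.B v x) • v := by
  rw [tv, dif_pos ⟨hv, ha⟩, rho_apply]; simp
theorem tv_rf (hv : C.N v = 0) (ha : a + σ a = 0) : Rf C v 0 a (tv C a v) := fun x => by
  rw [tv_apply hv ha]; simp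
theorem tv_mem (a : F) (v : V) : tv C a v ∈ 𝐆 := by
  have : FiniteDimensional F V := inferInstance
  unfold tv
  split_ifs with h
  exacts [⟨Subtype.property _, rho_mem_sisom h.1 (map_zero _) (h.2.trans C.N_zero.symm)⟩, one_mem _]
theorem ii_succ (q : ℤ) (j : ℕ) : ii q (j + 1) = uI q j := by
  rw [ii, uI, Nat.add_sub_cancel, neg_pow, neg_pow q j]
  rcases neg_one_pow_eq_or ℤ j with h | h <;> simp only [pow_succ, h] <;> ring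

end H27.RU
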